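import Cfsg.Agent.Lib.Helper26.BPMax
import Cfsg.Agent.Lib.Helper7.BlockKer2
import Cfsg.Agent.S3743

/-!
# Kernels of blocks along Brauer pairs, induced blocks
-/

set_option autoImplicit false
set_option linter.unusedSectionVars false
set_option linter.unusedVariables false
set_option linter.style.haveILetI false

open Cfsg Cfsg.FusionSystem
open Cfsg.Agent.Lib.Helper7 Cfsg.Agent.Lib.Helper24

namespace Cfsg.Agent.Lib.Helper26.BP

noncomputable section
open Classical

universe u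
variable {M : Ideal AlgInt} [M.IsPrime] {p : ℕ} [hp : Fact p.Prime]
variable {G : Type u} [Group G] [Fintype G]

/-- right translation invariance: `x` lies in the "kernel" of `ε` -/
def RK (ε : KG M G) (x : G) : Prop := ∀ g, ε (g * x) = ε g

theorem RK.mul_left {d : KG M G} {x : G} (h : RK d x) (c : KG M G) : RK (c * d) x := by
  intro g
  rw [GA.mul_apply, GA.mul_apply]
  apply Finset.sum_congr rfl
  intro y _
  rw [← mul_assoc, h]

theorem RK.inv {d : KG M G} {x : G} (h : RK d x) : RK d x⁻¹ := by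
  intro g
  have := h (g * x⁻¹)
  rw [inv_mul_cancel_right] at this
  exact this.symm

theorem RK.cj {ε : KG M G} {x : G} (h : RK ε x) (t : G) : RK (cj t ε) (t * x * t⁻¹) := by
  intro g
  rw [cj_apply, cj_apply]
  have : t⁻¹ * (g * (t * x * t⁻¹)) * t = t⁻¹ * g * t * x := by group
  rw [this, h]

theorem RK.tr {ε : KG M G} {x : G} (h : RK ε x) {K : Subgroup G} (hx : x ∈ K) :
    RK (tr K ε) x := by
  intro g
  rw [tr_apply, tr_apply, h]
  have : g * x ∈ K ↔ g ∈ K := K.mul_mem_cancel_right hx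
  simp only [this]

/-- scalar multiple of the indicator function of a subgroup -/
def sc (c : resField M) (K : Subgroup G) : KG M G := fun g => if g ∈ K then c else 0

theorem sc_apply (c : resField M) (K : Subgroup G) (g : G) :
    sc c K g = if g ∈ K then c else 0 := rfl

theorem suppIn_sc (c : resField M) (K : Subgroup G) : SuppIn K (sc c K) := by
  intro g hg
  rw [sc_apply, if_neg hg]

theorem rk_sc (c : resField M) {K : Subgroup G} {x : G} (hx : x ∈ K) : RK (sc c K) x := by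
  intro g
  rw [sc_apply, sc_apply]
  have : g * x ∈ K ↔ g ∈ K := K.mul_mem_cancel_right hx
  simp only [this]

theorem inv_sc (c : resField M) (K : Subgroup G) :
    Inv (Subgroup.normalizer (K : Set G)) (sc c K) := by
  intro x hx
  ext g
  rw [cj_apply, sc_apply, sc_apply]
  have h1 : x⁻¹ * g * x ∈ K ↔ g ∈ K := by
    have := (Subgroup.mem_normalizer_iff.1 (inv_mem hx)) g
    rw [inv_inv] at this
    exact this.symm
  simp only [h1]

theorem tr_sc (c : resField M) (K L : Subgroup G) : tr L (sc c K) = sc c (K ⊓ L) := by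
  ext g
  rw [tr_apply, sc_apply, sc_apply]
  by_cases h1 : g ∈ L <;> by_cases h2 : g ∈ K <;> simp [h1, h2, Subgroup.mem_inf]

theorem mul_sc_apply (c : resField M) (L : Subgroup G) {ε : KG M G} (h : ∀ x ∈ L, RK ε x)
    (g : G) : (ε * sc c L) g = (Nat.card L : resField M) * c * ε g := by
  rw [GA.mul_apply]
  have h1 : ∀ y : G, ε y * sc c L (y⁻¹ * g) = if y⁻¹ * g ∈ L then ε g * c else 0 := by
    intro y
    rw [sc_apply]
    by_cases hy : y⁻¹ * g ∈ L
    · rw [if_pos hy, if_pos hy]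
      have := h _ hy y
      rw [mul_inv_cancel_left] at this
      rw [this]
    · rw [if_neg hy, if_neg hy, mul_zero]
  rw [Finset.sum_congr rfl (fun y _ => h1 y), ← Finset.sum_filter, Finset.sum_const,
    nsmul_eq_mul]
  have h2 : (Finset.univ.filter (fun y : G => y⁻¹ * g ∈ L)).card = Nat.card L := by
    rw [Nat.card_eq_fintype_card, ← Fintype.card_subtype]
    apply Fintype.card_congr
    refine ⟨fun y => ⟨y.1⁻¹ * g, y.2⟩, fun z => ⟨g * (z : G)⁻¹, by simp⟩, ?_, ?_⟩
    · intro y; ext; simp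
    · intro z; ext; simp
  rw [h2]
  ring

variable [CharP (resField M) p]

theorem natCast_card_ne_zero {K : Subgroup G} (hK : ¬ p ∣ Nat.card K) :
    (Nat.card K : resField M) ≠ 0 := by
  intro h
  exact hK ((CharP.cast_eq_zero_iff (resField M) p _).1 h)

/-- the averaging idempotent of a `p'`-subgroup -/
def avg (M : Ideal AlgInt) [M.IsPrime] (K : Subgroup G) : KG M G :=
  sc ((Nat.card K : resField M)⁻¹) K

theorem avg_idem {K : Subgroup G} (hK : ¬ p ∣ Nat.card K) : avg M K * avg M K = avg M K := by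
  ext g
  rw [avg, mul_sc_apply _ K (fun x hx => rk_sc _ hx), mul_inv_cancel₀ (natCast_card_ne_zero hK),
    one_mul]

theorem mul_avg {K : Subgroup G} (hK : ¬ p ∣ Nat.card K) {ε : KG M G} (h : ∀ x ∈ K, RK ε x) :
    ε * avg M K = ε := by
  ext g
  rw [avg, mul_sc_apply _ K h, mul_inv_cancel₀ (natCast_card_ne_zero hK), one_mul]

variable {H : Subgroup G}

theorem NS.rk_up {a b : FP M G} (h : NS p H a b) {x : G}
    (hx : x ∈ Subgroup.centralizer (b.1 : Set G)) (hk : RK a.2 x) : RK b.2 x := by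
  obtain ⟨ha, hb, hab, hbN, hinv, hbr⟩ := h
  have h1 : RK (br b.1 a.2) x := hk.tr hx
  have h2 : br b.1 a.2 * b.2 = b.2 * br b.1 a.2 :=
    (hb.blk.comm (br_supp ha.suppH)).symm
  rw [← hbr, h2]
  exact h1.mul_left _

theorem LE.rk_up {a b : FP M G} (h : LE p H a b) {x : G}
    (hx : x ∈ Subgroup.centralizer (b.1 : Set G)) (hk : RK a.2 x) : RK b.2 x := by
  induction h with
  | refl => exact hk
  | tail h1 h2 ih =>
    exact h2.rk_up hx (ih (Subgroup.centralizer_le (by exact_mod_cast h2.2.2.1) hx))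

theorem NS.rk_down {a b : FP M G} (h : NS p H a b) {K : Subgroup G} (hKc : K ≤ cen H a.1)
    (hKn : cen H a.1 ≤ Subgroup.normalizer (K : Set G))
    (hKb : b.1 ≤ Subgroup.normalizer (K : Set G)) (hKp : ¬ p ∣ Nat.card K)
    (hk : ∀ x ∈ K, x ∈ Subgroup.centralizer (b.1 : Set G) → RK b.2 x) :
    ∀ x ∈ K, RK a.2 x := by
  obtain ⟨ha, hb, hab, hbN, hinv, hbr⟩ := h
  have hs : SuppIn (cen H a.1) (avg M K) := (suppIn_sc _ K).mono hKc
  have hi : Inv (cen H a.1) (avg M K) := (inv_sc _ K).mono hKn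
  rcases ha.blk.dichotomy hs hi (avg_idem hKp) with h1 | h1
  · intro x hx
    rw [← h1, ← ha.blk.comm hs]
    exact (rk_sc _ hx).mul_left _
  · exfalso
    have h2 : br b.1 (avg M K) * br b.1 a.2 = 0 := by
      have hi' : Inv b.1 (avg M K) := (inv_sc _ K).mono hKb
      rw [← br_mul hp.out hb.pg hi' hinv, h1, br_zero]
    have h3 : br b.1 (avg M K) * b.2 = 0 := by
      rw [← hbr, ← mul_assoc, h2, zero_mul]
    have h4 : br b.1 (avg M K)
        = sc ((Nat.card K : resField M)⁻¹) (K ⊓ Subgroup.centralizer (b.1 : Set G)) :=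
      tr_sc _ _ _
    have h5 : SuppIn (cen H b.1) (br b.1 (avg M K)) :=
      br_supp (hs.mono (cen_le _ _))
    rw [← hb.blk.comm h5, h4] at h3
    obtain ⟨g, hg⟩ := exists_apply_ne_zero hb.blk.ne_zero
    have h6 := congrFun h3 g
    rw [mul_sc_apply _ _ (fun x hx => hk x (Subgroup.mem_inf.1 hx).1 (Subgroup.mem_inf.1 hx).2)]
      at h6
    have h7 : ¬ p ∣ Nat.card (K ⊓ Subgroup.centralizer (b.1 : Set G) : Subgroup G) :=
      fun hd => hKp (hd.trans (Subgroup.card_dvd_of_le inf_le_left))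
    exact mul_ne_zero (mul_ne_zero (natCast_card_ne_zero h7)
      (inv_ne_zero (natCast_card_ne_zero hKp))) hg h6

/-! ### the `π`-core of a subgroup, as a subgroup of `G` -/

/-- `O_π(X)` as a subgroup of `G` -/
def pc (π : Set ℕ) (X : Subgroup G) : Subgroup G := (piCore π X).map X.subtype

theorem pc_le (π : Set ℕ) (X : Subgroup G) : pc π X ≤ X := by
  rintro _ ⟨x, _, rfl⟩
  exact x.2

theorem mem_pc {π : Set ℕ} {X : Subgroup G} {x : G} :
    x ∈ pc π X ↔ ∃ h : x ∈ X, (⟨x, h⟩ : X) ∈ piCore π X := by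
  constructor
  · rintro ⟨y, hy, rfl⟩
    exact ⟨y.2, hy⟩
  · rintro ⟨h, hx⟩
    exact ⟨⟨x, h⟩, hx, rfl⟩

theorem pc_card (π : Set ℕ) (X : Subgroup G) :
    ∀ q : ℕ, q.Prime → q ∣ Nat.card (pc π X) → q ∈ π := by
  intro q hq hd
  rw [pc, Subgroup.card_map_of_injective X.subtype_injective] at hd
  exact (Cfsg.Agent.S3743.piCore_mem π X).2 q hq hd

theorem le_normalizer_pc (π : Set ℕ) (X : Subgroup G) :
    X ≤ Subgroup.normalizer (pc π X : Set G) := by
  intro t ht
  rw [Subgroup.mem_normalizer_iff]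
  intro g
  constructor
  · intro hg
    obtain ⟨h, hx⟩ := mem_pc.1 hg
    exact mem_pc.2 ⟨X.mul_mem (X.mul_mem ht h) (X.inv_mem ht),
      (piCore_normal π X).conj_mem _ hx ⟨t, ht⟩⟩
  · intro hg
    obtain ⟨h, hx⟩ := mem_pc.1 hg
    have h' : g ∈ X := by
      have := X.mul_mem (X.mul_mem (X.inv_mem ht) h) ht
      simpa [mul_assoc] using this
    refine mem_pc.2 ⟨h', ?_⟩
    have := (piCore_normal π X).conj_mem _ hx ⟨t, ht⟩⁻¹
    convert this using 1
    ext
    simp [mul_assoc]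

theorem le_pc {π : Set ℕ} {X N : Subgroup G} (hNX : N ≤ X)
    (hn : X ≤ Subgroup.normalizer (N : Set G))
    (hc : ∀ q : ℕ, q.Prime → q ∣ Nat.card N → q ∈ π) : N ≤ pc π X := by
  intro x hx
  refine mem_pc.2 ⟨hNX hx, ?_⟩
  have h1 : N.subgroupOf X ≤ piCore π X := by
    apply le_sSup
    refine ⟨normal_subgroupOf_of_le_normalizer hn, ?_⟩
    intro q hq hd
    rw [Nat.card_congr (Subgroup.subgroupOfEquivOfLe hNX).toEquiv] at hd
    exact hc q hq hd
  exact h1 (Subgroup.mem_subgroupOf.2 hx)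

theorem cjS_pc_le (π : Set ℕ) (X : Subgroup G) (t : G) : cjS t (pc π X) ≤ pc π (cjS t X) := by
  apply le_pc (cjS_mono (pc_le π X))
  · rw [← cjS_normalizer]
    exact cjS_mono (le_normalizer_pc π X)
  · intro q hq hd
    rw [card_cjS] at hd
    exact pc_card π X q hq hd

theorem cjS_pc (π : Set ℕ) (X : Subgroup G) (t : G) : cjS t (pc π X) = pc π (cjS t X) := by
  apply le_antisymm (cjS_pc_le π X t)
  have h := cjS_mono (x := t) (cjS_pc_le π (cjS t X) t⁻¹)
  rwa [cjS_cjS_inv, cjS_inv_cjS] at h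

theorem normalizer_le_normalizer_pc (π : Set ℕ) (X : Subgroup G) :
    Subgroup.normalizer (X : Set G) ≤ Subgroup.normalizer (pc π X : Set G) := by
  intro t ht
  rw [← cjS_eq_self_iff, cjS_pc, cjS_eq_self_iff.2 ht]

theorem not_dvd_card_pc {π : Set ℕ} (hpπ : p ∈ π) (X : Subgroup G) :
    ¬ p ∣ Nat.card (pc {q | q ∉ π} X) := fun hd => pc_card _ X p hp.out hd hpπ

/-- the `π'`-core of the centralizer lies in the kernel of the block of the pair -/
def PC (π : Set ℕ) (H : Subgroup G) (a : FP M G) : Prop :=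
  ∀ x ∈ pc {q | q ∉ π} (cen H a.1), RK a.2 x

theorem le_normalizer_cen {Q R : Subgroup G} (hRH : R ≤ H)
    (hRN : R ≤ Subgroup.normalizer (Q : Set G)) :
    R ≤ Subgroup.normalizer (cen H Q : Set G) := by
  intro t ht
  rw [← cjS_eq_self_iff, cjS_cen (hRH ht), cjS_eq_self_iff.2 (hRN ht)]

theorem NS.pc_down {π : Set ℕ} (hpπ : p ∈ π) {a b : FP M G} (h : NS p H a b) (hb : PC π H b) :
    PC π H a := by
  have hab : a.1 ≤ b.1 := h.2.2.1
  apply h.rk_down (pc_le _ _) (le_normalizer_pc _ _)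
    ((le_normalizer_cen h.2.1.le h.2.2.2.1).trans (normalizer_le_normalizer_pc _ _))
    (not_dvd_card_pc hpπ _)
  intro x hx hxc
  apply hb
  have h1 : pc {q | q ∉ π} (cen H a.1) ⊓ Subgroup.centralizer (b.1 : Set G)
      ≤ pc {q | q ∉ π} (cen H b.1) := by
    apply le_pc
    · intro y hy
      exact ⟨cen_le _ _ (pc_le _ _ hy.1), hy.2⟩
    · intro t ht
      rw [← cjS_eq_self_iff, cjS_inf]
      congr 1
      · exact cjS_eq_self_iff.2 (le_normalizer_pc _ _ (cen_anti H hab ht))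
      · exact cjS_eq_self_of_mem (cen_le_centralizer _ _ ht)
    · intro q hq hd
      exact pc_card _ _ q hq (hd.trans (Subgroup.card_dvd_of_le inf_le_left))
  exact h1 ⟨hx, hxc⟩

theorem LE.pc_down {π : Set ℕ} (hpπ : p ∈ π) {a b : FP M G} (h : LE p H a b) (hb : PC π H b) :
    PC π H a := by
  induction h with
  | refl => exact hb
  | tail h1 h2 ih => exact ih (h2.pc_down hpπ hb)

theorem PC.act {π : Set ℕ} {a : FP M G} (h : PC π H a) {t : G} (ht : t ∈ H) :
    PC π H (act t a) := by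
  intro x hx
  have h1 : x ∈ cjS t (pc {q | q ∉ π} (cen H a.1)) := by
    rw [cjS_pc, cjS_cen ht]
    exact hx
  have h2 := (h _ (mem_cjS.1 h1)).cj t
  have h3 : t * (t⁻¹ * x * t) * t⁻¹ = x := by group
  rwa [h3] at h2

/-! ### induced blocks -/

/-- ring form of `ε ^ G = β` -/
def Ind (H : Subgroup G) (β ε : KG M G) : Prop :=
  ∃ w, SuppIn H w ∧ Inv H w ∧ tr H β * w = ε

theorem ind_of_isInducedBlock {b : Set (IrrCharacter H)} {B : Set (IrrCharacter G)}
    (hind : IsInducedBlock M H b B) : Ind H (bl M B) (sbl M H b) := by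
  have hb := hind.1
  have hB := hind.2.1
  obtain ⟨ξ0, rfl⟩ := id hb
  obtain ⟨χ0, rfl⟩ := id hB
  have hξ : ξ0 ∈ blockOf M (ξ0 : H → ℂ) := fun g => by
    rw [sub_self]; exact memLocalIdeal_zero
  have hχ : χ0 ∈ blockOf M (χ0 : G → ℂ) := fun g => by
    rw [sub_self]; exact memLocalIdeal_zero
  set b := blockOf M (ξ0 : H → ℂ) with hbdef
  set B := blockOf M (χ0 : G → ℂ) with hBdef
  set z : KG M H := red M (resH H (blockCoeff B)) with hz
  have hcl : IsClassFunction H (resH H (blockCoeff B)) :=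
    isClassFunction_resH H (isClassFunction_blockCoeff B)
  have hR : ∀ g, MemLocalRing M (resH H (blockCoeff B) g) := fun g => osima hB _
  have hzi : Inv ⊤ z := inv_red hcl
  have hom : omb ξ0 z = 1 := by
    rw [hz, omb_red hcl hR]
    have h1 := induced_congr hind hξ hχ (isClassFunction_blockCoeff B) (osima hB)
    have h2 : resC M (Om (resH H (blockCoeff B)) ξ0) = resC M (Om (blockCoeff B) χ0) :=
      (resC_eq_iff (memLocalRing_Om hcl hR ξ0)
        (memLocalRing_Om (isClassFunction_blockCoeff B) (osima hB) χ0)).2 h1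
    rw [h2, ← omb_red (isClassFunction_blockCoeff B) (osima hB)]
    have := omb_bl hB χ0
    rw [if_pos hχ] at this
    exact this
  have hzb : omb ξ0 (z * bl M b) = 1 := by
    rw [omb_mul hzi (bl_inv b), hom, omb_bl hb, if_pos hξ, one_mul]
  have hzbi : Inv ⊤ (z * bl M b) := hzi.mul (bl_inv b)
  rcases bl_local hb hzi with ⟨n, hn⟩ | ⟨w, hw, hzw⟩
  · exfalso
    have key : ∀ n, omb ξ0 ((z * bl M b) ^ (n + 1)) = 1 := by
      intro n
      induction n with
      | zero => rw [zero_add, pow_one, hzb]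
      | succ k ih => rw [pow_succ, omb_mul (hzbi.pow _) hzbi, ih, hzb, one_mul]
    cases n with
    | zero =>
      rw [pow_zero] at hn
      apply bl_ne_zero hb
      rw [← mul_one (bl M b), hn, mul_zero]
    | succ k =>
      have := key k
      rw [hn, omb_zero] at this
      exact zero_ne_one this
  · refine ⟨emb H w, suppIn_emb H w, inv_emb hw, ?_⟩
    rw [sbl_eq_emb, ← hzw, emb_mul, hz, emb_red_resH]
    rfl

theorem NS.bot_of_ind {β ε : KG M G} (hβ : IsBlk M ⊤ β) (hind : Ind H β ε) {a : FP M G}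
    (ha : NS p H (⊥, ε) a) (hC : Subgroup.centralizer (a.1 : Set G) ≤ H) :
    NS p ⊤ (⊥, β) a := by
  obtain ⟨w, hws, hwi, hw⟩ := hind
  obtain ⟨h0, hpa, -, -, hinv, hbr⟩ := ha
  have hcen : cen H a.1 = cen ⊤ a.1 := by
    rw [cen_top]
    exact inf_eq_right.2 hC
  have hpa' : IsPair p ⊤ a := ⟨le_top, hpa.pg, hcen ▸ hpa.blk⟩
  have hβi : Inv a.1 β := hβ.inv.mono le_top
  refine ⟨isPair_bot' hβ, hpa', bot_le, le_normalizer_bot _, hβi, ?_⟩
  have hQH : a.1 ≤ H := hpa.le
  have h1 : br a.1 (tr H β) = br a.1 β := by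
    rw [br, tr_tr, inf_eq_left.2 hC]
    rfl
  have hti : Inv a.1 (tr H β) :=
    (Inv.tr (hβ.inv.mono le_top) Subgroup.le_normalizer).mono hQH
  have h2 : br a.1 β * br a.1 w = br a.1 ε := by
    rw [← h1, ← br_mul hp.out hpa.pg hti (hwi.mono hQH), hw]
  have hidem : br a.1 β * br a.1 β = br a.1 β := br_idem hpa.pg hβi hβ.idem
  have hs : SuppIn (cen ⊤ a.1) (br a.1 β) := br_supp hβ.supp
  have hi : Inv (cen ⊤ a.1) (br a.1 β) := br_inv (hβ.inv.mono le_top)
  rcases hpa'.blk.dichotomy hs hi hidem with h3 | h3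
  · exact h3
  · exfalso
    apply hpa.blk.ne_zero
    have h4 : br a.1 β * br a.1 w = br a.1 w * br a.1 β := by
      apply comm_of_inv hi
      rw [← hcen]
      exact br_supp hws
    have h5 : br a.1 ε * a.2 = a.2 := hbr
    rw [← h5, ← h2, h4, mul_assoc, h3, mul_zero]

theorem exists_terminal_of_isDef {β : KG M G} (hβ : IsBlk M H β) {D : Subgroup G}
    (hD : IsDef p H β D) : ∃ η, NS p H (⊥, β) (D, η) ∧ Terminal p H (D, η) := by
  obtain ⟨b, hle, hb⟩ := exists_terminal_ge (isPair_bot' (p := p) hβ)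
  have hns : NS p H (⊥, β) b := NS.bot_of_le (NS.refl' (isPair_bot' hβ)) hle
  obtain ⟨t, ht, hDt⟩ := hb.dominates hβ hns.2.1 hns.2.2.2.2.2 hD.1 hD.2.1 hD.2.2.1
  have hcard : Nat.card b.1 ≤ Nat.card D :=
    hD.2.2.2 b.1 hns.2.1.le hns.2.1.pg hns.bot_br_ne_zero
  have heq : D = cjS t b.1 := by
    apply SetLike.coe_injective
    apply Set.eq_of_subset_of_ncard_le hDt _ (Set.toFinite _)
    rw [← Nat.card_coe_set_eq, ← Nat.card_coe_set_eq]
    show Nat.card (cjS t b.1) ≤ Nat.card D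
    rw [card_cjS]
    exact hcard
  refine ⟨cj t b.2, ?_, ?_⟩
  · have := hns.bot_act ht
    rw [heq]; exact this
  · have := hb.act ht
    rw [heq]; exact this

theorem terminal_top_of_isDef {β : KG M G} {D : Subgroup G} (hD : IsDef p ⊤ β D) {η : KG M G}
    (h : NS p ⊤ (⊥, β) (D, η)) : Terminal p ⊤ ((D, η) : FP M G) := by
  obtain ⟨m, hle, hm⟩ := exists_terminal_ge h.2.1
  have hns : NS p ⊤ (⊥, β) m := NS.bot_of_le h hle
  have hcard : Nat.card m.1 ≤ Nat.card D :=
    hD.2.2.2 m.1 le_top hns.2.1.pg hns.bot_br_ne_zero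
  have hDm : D ≤ m.1 := hle.fst_le
  have heq : D = m.1 := by
    apply SetLike.coe_injective
    apply Set.eq_of_subset_of_ncard_le hDm _ (Set.toFinite _)
    rw [← Nat.card_coe_set_eq, ← Nat.card_coe_set_eq]
    exact hcard
  have := hle.eq_of_fst_eq heq
  rw [this]; exact hm

/-! ### ring level theorems -/

/-- a maximal pair of the Brauer correspondent is a maximal pair of the block -/
theorem exists_terminal_corr {β β₁ : KG M G} (hβ : IsBlk M ⊤ β) {D : Subgroup G}
    (hD : IsDef p ⊤ β D) (hβ₁ : IsBlk M (Subgroup.normalizer (D : Set G)) β₁)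
    (hind : Ind (Subgroup.normalizer (D : Set G)) β β₁)
    (hD₁ : IsDef p (Subgroup.normalizer (D : Set G)) β₁ D) :
    ∃ η, NS p (Subgroup.normalizer (D : Set G)) (⊥, β₁) (D, η) ∧ NS p ⊤ (⊥, β) (D, η) ∧
      Terminal p ⊤ ((D, η) : FP M G) := by
  obtain ⟨η, h1, -⟩ := exists_terminal_of_isDef hβ₁ hD₁
  have h2 : NS p ⊤ (⊥, β) (D, η) := NS.bot_of_ind hβ hind h1 (centralizer_le_normalizer' D)
  exact ⟨η, h1, h2, terminal_top_of_isDef hD h2⟩

theorem ker_descends {π : Set ℕ} (hpπ : p ∈ π) {β β₁ β₀ : KG M G} (hβ : IsBlk M ⊤ β)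
    {D : Subgroup G} (hD : IsDef p ⊤ β D)
    (hβ₁ : IsBlk M (Subgroup.normalizer (D : Set G)) β₁)
    (hind : Ind (Subgroup.normalizer (D : Set G)) β β₁)
    (hD₁ : IsDef p (Subgroup.normalizer (D : Set G)) β₁ D)
    (hker : ∀ x ∈ pc {q | q ∉ π} (Subgroup.normalizer (D : Set G)), RK β₁ x)
    {G₀ : Subgroup G} (hβ₀ : IsBlk M G₀ β₀) (hind₀ : Ind G₀ β β₀) {D₀ : Subgroup G}
    (hD₀ : IsDef p G₀ β₀ D₀) (hC : Subgroup.centralizer (D₀ : Set G) ≤ G₀) :
    ∀ x ∈ pc {q | q ∉ π} G₀, RK β₀ x := by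
  obtain ⟨η, h1, h2, h3⟩ := exists_terminal_corr hβ hD hβ₁ hind hD₁
  -- the top pair
  have hPC : PC π ⊤ ((D, η) : FP M G) := by
    intro x hx
    have hx' : x ∈ pc {q | q ∉ π} (Subgroup.centralizer (D : Set G)) := by
      have : cen ⊤ D = Subgroup.centralizer (D : Set G) := cen_top D
      rw [← this]; exact hx
    apply h1.rk_up (pc_le _ _ hx')
    apply hker
    have h4 : pc {q | q ∉ π} (Subgroup.centralizer (D : Set G))
        ≤ pc {q | q ∉ π} (Subgroup.normalizer (D : Set G)) := by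
      apply le_pc ((pc_le _ _).trans (centralizer_le_normalizer' D))
      · exact (normalizer_le_normalizer_centralizer D).trans (normalizer_le_normalizer_pc _ _)
      · exact pc_card _ _
    exact h4 hx'
  obtain ⟨η₀, g1, -⟩ := exists_terminal_of_isDef hβ₀ hD₀
  have g2 : NS p ⊤ (⊥, β) (D₀, η₀) := NS.bot_of_ind hβ hind₀ g1 hC
  obtain ⟨x, -, hle⟩ := h3.conj_le h2 g2
  have g3 : PC π ⊤ (act x ((D₀, η₀) : FP M G)) := hle.pc_down hpπ hPC
  have g4 : PC π ⊤ ((D₀, η₀) : FP M G) := by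
    have := g3.act (t := x⁻¹) (Subgroup.mem_top _)
    rwa [← act_mul, inv_mul_cancel, act_one] at this
  have g5 : PC π G₀ ((D₀, η₀) : FP M G) := by
    intro y hy
    apply g4
    have : cen G₀ D₀ = cen ⊤ D₀ := by
      rw [cen_top]; exact inf_eq_right.2 hC
    rw [← this]; exact hy
  have g6 := g1.pc_down hpπ g5
  intro y hy
  apply g6
  show y ∈ pc {q | q ∉ π} (cen G₀ ⊥)
  rw [cen_bot]; exact hy

/-- every `π'`-element of the centralizer lies in the kernel of the block of the pair -/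
def PE (π : Set ℕ) (a : FP M G) : Prop :=
  ∀ x ∈ Subgroup.centralizer (a.1 : Set G), (∀ q : ℕ, q.Prime → q ∣ orderOf x → q ∉ π) →
    RK a.2 x

theorem PE.act {π : Set ℕ} {a : FP M G} (h : PE π a) (t : G) : PE π (act t a) := by
  intro x hx hxo
  have h1 : x ∈ cjS t (Subgroup.centralizer (a.1 : Set G)) := by
    rw [cjS_centralizer]; exact hx
  have h2 : orderOf (t⁻¹ * x * t) = orderOf x := by
    have := orderOf_injective (MulAut.conj t⁻¹).toMonoidHom (MulAut.conj t⁻¹).injective x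
    simpa using this
  have h3 := (h _ (mem_cjS.1 h1) (by rw [h2]; exact hxo)).cj t
  have h4 : t * (t⁻¹ * x * t) * t⁻¹ = x := by group
  rwa [h4] at h3

theorem LE.pe_up {π : Set ℕ} {a b : FP M G} (h : LE p H a b) (ha : PE π a) : PE π b := by
  intro x hx hxo
  exact h.rk_up hx (ha x (Subgroup.centralizer_le (by exact_mod_cast h.fst_le) hx) hxo)

theorem ker_ascends (hM : IsPModular p M) {π : Set ℕ} (hpπ : p ∈ π) {β β₁ β₀ : KG M G}
    (hβ : IsBlk M ⊤ β)
    {D : Subgroup G} (hD : IsDef p ⊤ β D)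
    (hβ₁ : IsBlk M (Subgroup.normalizer (D : Set G)) β₁)
    (hind : Ind (Subgroup.normalizer (D : Set G)) β β₁)
    (hD₁ : IsDef p (Subgroup.normalizer (D : Set G)) β₁ D)
    {D₀ : Subgroup G} (hD₀ : IsPGroup p D₀)
    (hβ₀ : IsBlk M (D₀ ⊔ Subgroup.centralizer (D₀ : Set G)) β₀)
    (hind₀ : Ind (D₀ ⊔ Subgroup.centralizer (D₀ : Set G)) β β₀)
    (hk : ∀ x ∈ Subgroup.centralizer (D₀ : Set G),
      (∀ q : ℕ, q.Prime → q ∣ orderOf x → q ∉ π) → RK β₀ x) :
    ∀ x ∈ pc {q | q ∉ π} (Subgroup.normalizer (D : Set G)), RK β₁ x := by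
  obtain ⟨η, h1, h2, h3⟩ := exists_terminal_corr hβ hD hβ₁ hind hD₁
  have hsupp : SuppIn (Subgroup.centralizer (D₀ : Set G)) β₀ := by
    apply IsBlk.supp_of_regular hM _ hβ₀
    intro g hg hreg
    obtain ⟨q, hq, c, hc, rfl⟩ := exists_mul_of_mem_sup_centralizer hg
    have hqo : ∃ k : ℕ, orderOf q = p ^ k := by
      obtain ⟨k, hk⟩ := hD₀ ⟨q, hq⟩
      have h1 : q ^ p ^ k = 1 := by
        have := congrArg Subtype.val hk
        simpa using this
      obtain ⟨j, -, hj⟩ := (Nat.dvd_prime_pow hp.out).1 (orderOf_dvd_of_pow_eq_one h1)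
      exact ⟨j, hj⟩
    apply centralizes_of_regular (p := p) (s := q) _ hreg hqo
    · intro z hz
      have h1 : c * z = z * c := ((Subgroup.mem_centralizer_iff.1 hc) z hz).symm
      have h2 : c * z * c⁻¹ = z := by rw [h1, mul_inv_cancel_right]
      calc q * c * z * (q * c)⁻¹ = q * (c * z * c⁻¹) * q⁻¹ := by group
        _ = q * z * q⁻¹ := by rw [h2]
    · exact Subgroup.mul_mem _ (Subgroup.le_normalizer hq) (centralizer_le_normalizer' D₀ hc)
  have hbr : br D₀ β₀ ≠ 0 := by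
    rw [br_eq_self hsupp]; exact hβ₀.ne_zero
  obtain ⟨η₀, g1⟩ := exists_ns_up (isPair_bot' (p := p) hβ₀) (R := D₀) le_sup_left hD₀ bot_le
    (le_normalizer_bot _) (hβ₀.inv.mono le_sup_left) hbr
  have g2 : NS p ⊤ (⊥, β) (D₀, η₀) := NS.bot_of_ind hβ hind₀ g1 le_sup_right
  have g3 : PE π ((D₀, η₀) : FP M G) := by
    intro x hx hxo
    exact g1.rk_up hx (hk x hx hxo)
  obtain ⟨x, -, hle⟩ := h3.conj_le h2 g2
  have g4 : PE π ((D, η) : FP M G) := hle.pe_up (g3.act x)
  have hN : cen (Subgroup.normalizer (D : Set G)) ⊥ = Subgroup.normalizer (D : Set G) :=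
    cen_bot _
  apply h1.rk_down (K := pc {q | q ∉ π} (Subgroup.normalizer (D : Set G)))
  · show _ ≤ cen (Subgroup.normalizer (D : Set G)) ⊥
    rw [hN]; exact pc_le _ _
  · show cen (Subgroup.normalizer (D : Set G)) ⊥ ≤ _
    rw [hN]; exact le_normalizer_pc _ _
  · exact (Subgroup.le_normalizer (H := D)).trans (le_normalizer_pc _ _)
  · exact not_dvd_card_pc hpπ _
  · intro y hy hyc
    apply g4 y hyc
    intro q hq hd
    have h5 : orderOf y ∣ Nat.card (pc {q | q ∉ π} (Subgroup.normalizer (D : Set G))) := by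
      have := orderOf_dvd_natCard (⟨y, hy⟩ : pc {q | q ∉ π} (Subgroup.normalizer (D : Set G)))
      rwa [Subgroup.orderOf_mk] at this
    exact pc_card _ _ q hq (hd.trans h5)

/-! ### bridge to characters -/

theorem blockCoeff_mul_of_ker {X : Type u} [Group X] [Finite X] {e : Set (IrrCharacter X)} {x : X}
    (hx : x ∈ blockKer e) (g : X) : blockCoeff e (g * x) = blockCoeff e g := by
  unfold blockCoeff
  congr 1
  apply finsum_mem_congr rfl
  intro χ hχ
  have h1 : (χ : X → ℂ) (g * x) = (χ : X → ℂ) (x * g) := by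
    have := isClassFunction_irr χ (x * g) g
    rw [← this]
    group
  rw [h1, char_mul_of_ker (isCharacter_of_irr χ.2) (hx χ hχ)]

theorem rk_sbl_of_ker {K : Subgroup G} {e : Set (IrrCharacter K)} {x : K}
    (hx : x ∈ blockKer e) : RK (sbl M K e) (x : G) := by
  intro g
  show resC M (subgroupBlockCoeff K e (g * x)) = resC M (subgroupBlockCoeff K e g)
  by_cases hg : g ∈ K
  · rw [subgroupBlockCoeff_of_mem K e hg, subgroupBlockCoeff_of_mem K e (K.mul_mem hg x.2)]
    congr 1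
    exact blockCoeff_mul_of_ker hx ⟨g, hg⟩
  · have hg' : g * x ∉ K := fun h => hg ((K.mul_mem_cancel_right x.2).1 h)
    rw [subgroupBlockCoeff_of_not_mem K e hg, subgroupBlockCoeff_of_not_mem K e hg']

theorem resC_natCast (n : ℕ) : resC M (n : ℂ) = (n : resField M) := by
  induction n with
  | zero => simp [resC_zero]
  | succ k ih =>
    push_cast
    rw [resC_add (memLocalRing_natCast k) memLocalRing_one, ih, resC_one]

theorem ker_of_rk (hM : IsPModular p M) {X : Type u} [Group X] [Fintype X]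
    {e : Set (IrrCharacter X)} (he : IsPBlock M e) (N : Subgroup X) [hN : N.Normal]
    (hNp : ¬ p ∣ Nat.card N) (h : ∀ x ∈ N, RK (bl M e) x) : ∀ x ∈ N, x ∈ blockKer e := by
  intro x hx ξ hξ
  have h1 : bl M e * avg M N = bl M e := mul_avg hNp h
  have h2 : avg M N * bl M e = bl M e := by
    rw [← comm_of_inv_top (bl_inv e)]; exact h1
  have hi : Inv ⊤ (avg M N) := by
    have := inv_sc ((Nat.card N : resField M)⁻¹) N
    rwa [Subgroup.normalizer_eq_top] at this
  have h3 : omb ξ (avg M N) = 1 := (mul_bl_eq_iff he hi (avg_idem hNp) hξ).1 h2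
  set c : X → ℂ := fun g => if g ∈ N then ((Nat.card N : ℂ))⁻¹ else 0 with hc
  have hcR : ∀ g, MemLocalRing M (c g) := by
    intro g
    simp only [hc]
    split_ifs
    · exact memLocalRing_inv_natCast hM hNp
    · exact memLocalRing_zero
  have hcc : IsClassFunction X c := by
    intro g y
    have : y * g * y⁻¹ ∈ N ↔ g ∈ N := by
      constructor
      · intro hy
        have := hN.conj_mem _ hy y⁻¹
        simpa [mul_assoc] using this
      · intro hy
        exact hN.conj_mem _ hy y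
    simp only [hc, this]
  have h4 : avg M N = red M c := by
    ext g
    rw [red_apply, avg, sc_apply]
    simp only [hc]
    by_cases hg : g ∈ N
    · rw [if_pos hg, if_pos hg]
      symm
      apply eq_inv_of_mul_eq_one_left
      rw [← resC_natCast, ← resC_mul (memLocalRing_inv_natCast hM hNp) (memLocalRing_natCast _),
        inv_mul_cancel₀, resC_one]
      exact_mod_cast Nat.card_pos.ne'
    · rw [if_neg hg, if_neg hg, resC_zero]
  rw [h4, omb_red hcc hcR] at h3
  apply irr_eq_one_of_sum_ne_zero ξ.2 N _ hx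
  intro h0
  have h5 : Om c ξ = 0 := by
    rw [Om]
    have : ∑ g, c g * (ξ : X → ℂ) g
        = ((Nat.card N : ℂ))⁻¹ * ∑ g, (if g ∈ N then (1 : ℂ) else 0) * (ξ : X → ℂ) g := by
      rw [Finset.mul_sum]
      apply Finset.sum_congr rfl
      intro g _
      simp only [hc]
      split_ifs <;> ring
    rw [this, h0, mul_zero, zero_div]
  rw [h5, resC_zero] at h3
  exact zero_ne_one h3

theorem rk_bl_of_rk_sbl {K : Subgroup G} {e : Set (IrrCharacter K)} {x : K}
    (h : RK (sbl M K e) (x : G)) : RK (bl M e) x := by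
  intro g
  have := h g
  rw [sbl_eq_emb] at this
  rw [← emb_coe K (bl M e) (g * x), ← emb_coe K (bl M e) g]
  exact this

theorem isDef_map (hM : IsPModular p M) {K : Subgroup G} {e : Set (IrrCharacter K)}
    (he : IsPBlock M e) {D : Subgroup K} (hD : IsDefectGroup p M e D) :
    IsDef p K (sbl M K e) (D.map K.subtype) := by
  have h1 : D.map K.subtype ≤ K := by
    rintro _ ⟨x, _, rfl⟩; exact x.2
  rw [← isDefectGroup_subgroupOf_iff hM he h1]
  have h2 : (D.map K.subtype).subgroupOf K = D :=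
    Subgroup.comap_map_eq_self_of_injective K.subtype_injective D
  rw [h2]; exact hD

theorem s4734 (hM : IsPModular p M) (π : Set ℕ) (hpπ : p ∈ π) (B : Set (IrrCharacter G))
    (hB : IsPBlock M B) (D : Subgroup G) (hBD : IsDefectGroup p M B D)
    (B₁ : Set (IrrCharacter ↥(Subgroup.normalizer (D : Set G))))
    (hB₁ : IsInducedBlock M (Subgroup.normalizer (D : Set G)) B₁ B)
    (hB₁D : IsDefectGroup p M B₁ (D.subgroupOf (Subgroup.normalizer (D : Set G))))
    (hker : ∀ n : ↥(Subgroup.normalizer (D : Set G)),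
      n ∈ piCore {q | q ∉ π} ↥(Subgroup.normalizer (D : Set G)) → n ∈ blockKer B₁)
    (G₀ : Subgroup G) (B₀ : Set (IrrCharacter ↥G₀)) (hB₀ : IsInducedBlock M G₀ B₀ B)
    (D₀ : Subgroup ↥G₀) (hD₀ : IsDefectGroup p M B₀ D₀)
    (hC : Subgroup.centralizer ((D₀.map G₀.subtype : Subgroup G) : Set G) ≤ G₀) :
    ∀ x : ↥G₀, x ∈ piCore {q | q ∉ π} ↥G₀ → x ∈ blockKer B₀ := by
  have key := ker_descends hpπ (isBlk_top_bl hB) ((isDefectGroup_iff_isDef_top hM hB D).1 hBD)
    (isBlk_sbl hB₁.1) (ind_of_isInducedBlock hB₁)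
    ((isDefectGroup_subgroupOf_iff hM hB₁.1 Subgroup.le_normalizer).1 hB₁D)
    (by
      intro x hx
      obtain ⟨h, hx'⟩ := mem_pc.1 hx
      exact rk_sbl_of_ker (hker _ hx'))
    (isBlk_sbl hB₀.1) (ind_of_isInducedBlock hB₀) (isDef_map hM hB₀.1 hD₀) hC
  have hNp : ¬ p ∣ Nat.card (piCore {q | q ∉ π} ↥G₀) :=
    fun hd => (Cfsg.Agent.S3743.piCore_mem _ _).2 p hp.out hd hpπ
  apply ker_of_rk hM hB₀.1 _ hNp
  intro x hx
  apply rk_bl_of_rk_sbl
  exact key _ (mem_pc.2 ⟨x.2, hx⟩)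

end

end Cfsg.Agent.Lib.Helper26.BP
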