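import Cfsg.Agent.Lib.Helper26.BPKer
import Cfsg.Agent.Lib.Helper24.BlockSection

/-!
# Kernels of blocks: applications
-/

set_option autoImplicit false
set_option linter.unusedSectionVars false
set_option linter.unusedVariables false
set_option linter.style.haveILetI false

open Cfsg Cfsg.FusionSystem
open Cfsg.Agent.Lib.Helper7 Cfsg.Agent.Lib.Helper24

namespace Cfsg.Agent.Lib.Helper26.BP

noncomputable section
open Classical

universe u
variable {M : Ideal AlgInt} [M.IsPrime] {p : ℕ} [hp : Fact p.Prime]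
variable {G : Type u} [Group G] [Fintype G] [CharP (resField M) p]

theorem s4728 (hM : IsPModular p M) (π : Set ℕ) (hpπ : p ∈ π) (B : Set (IrrCharacter G))
    (hB : IsPBlock M B) (D : Subgroup G) (hBD : IsDefectGroup p M B D)
    (B₁ : Set (IrrCharacter ↥(Subgroup.normalizer (D : Set G))))
    (hB₁ : IsInducedBlock M (Subgroup.normalizer (D : Set G)) B₁ B)
    (hB₁D : IsDefectGroup p M B₁ (D.subgroupOf (Subgroup.normalizer (D : Set G))))
    (D₀ : Subgroup G) (hD₀ : IsPGroup p D₀) (H₀ : Subgroup G)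
    (hH₀ : H₀ = D₀ ⊔ Subgroup.centralizer (D₀ : Set G)) (b : Set (IrrCharacter ↥H₀))
    (hb : IsInducedBlock M H₀ b B)
    (hcompl : ∀ x : ↥(Subgroup.centralizer (D₀ : Set G)),
      (∀ q : ℕ, q.Prime → q ∣ orderOf x → q ∉ π) →
        x ∈ piCore {q | q ∉ π} ↥(Subgroup.centralizer (D₀ : Set G)))
    (hkerb : ∀ x : ↥(Subgroup.centralizer (D₀ : Set G)),
      x ∈ piCore {q | q ∉ π} ↥(Subgroup.centralizer (D₀ : Set G)) →
        ∀ θ ∈ b, ∀ h : ↥H₀, (h : G) = (x : G) → (θ : ↥H₀ → ℂ) h = (θ : ↥H₀ → ℂ) 1) :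
    ∀ n : ↥(Subgroup.normalizer (D : Set G)),
      n ∈ piCore {q | q ∉ π} ↥(Subgroup.normalizer (D : Set G)) → n ∈ blockKer B₁ := by
  subst hH₀
  have key := ker_ascends hM hpπ (isBlk_top_bl hB) ((isDefectGroup_iff_isDef_top hM hB D).1 hBD)
    (isBlk_sbl hB₁.1) (ind_of_isInducedBlock hB₁)
    ((isDefectGroup_subgroupOf_iff hM hB₁.1 Subgroup.le_normalizer).1 hB₁D) hD₀
    (isBlk_sbl hb.1) (ind_of_isInducedBlock hb)
    (by
      intro x hx hxo
      have h1 := hcompl ⟨x, hx⟩ (by rw [Subgroup.orderOf_mk]; exact hxo)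
      have h2 : (⟨x, (le_sup_right : _ ≤ D₀ ⊔ Subgroup.centralizer (D₀ : Set G)) hx⟩ :
          ↥(D₀ ⊔ Subgroup.centralizer (D₀ : Set G))) ∈ blockKer b :=
        fun θ hθ => hkerb ⟨x, hx⟩ h1 θ hθ _ rfl
      exact rk_sbl_of_ker h2)
  have hNp : ¬ p ∣ Nat.card (piCore {q | q ∉ π} ↥(Subgroup.normalizer (D : Set G))) :=
    fun hd => (Cfsg.Agent.S3743.piCore_mem _ _).2 p hp.out hd hpπ
  apply ker_of_rk hM hB₁.1 _ hNp
  intro x hx
  apply rk_bl_of_rk_sbl
  exact key _ (mem_pc.2 ⟨x.2, hx⟩)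

theorem s4727 (hM : IsPModular p M) (π : Set ℕ) (hpπ : p ∈ π) (B : Set (IrrCharacter G))
    (hB : IsPBlock M B) (D : Subgroup G) (hBD : IsDefectGroup p M B D)
    (B₁ : Set (IrrCharacter ↥(Subgroup.normalizer (D : Set G))))
    (hB₁ : IsInducedBlock M (Subgroup.normalizer (D : Set G)) B₁ B)
    (hB₁D : IsDefectGroup p M B₁ (D.subgroupOf (Subgroup.normalizer (D : Set G))))
    (hker : ∀ n : ↥(Subgroup.normalizer (D : Set G)),
      n ∈ piCore {q | q ∉ π} ↥(Subgroup.normalizer (D : Set G)) → n ∈ blockKer B₁)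
    (y : G) (hy : ∃ k : ℕ, orderOf y = p ^ k)
    (hC : ∀ x : ↥(Subgroup.centralizer ({y} : Set G)),
      (∀ q : ℕ, q.Prime → q ∣ orderOf x → q ∉ π) →
        x ∈ piCore {q | q ∉ π} ↥(Subgroup.centralizer ({y} : Set G))) :
    ∀ χ ∈ B, ∀ x : G, x ∈ Subgroup.centralizer ({y} : Set G) →
      (∀ q : ℕ, q.Prime → q ∣ orderOf x → q ∉ π) →
      (χ : G → ℂ) (y * x) = (χ : G → ℂ) y := by
  intro χ hχ x hx hxo
  set C := Subgroup.centralizer ({y} : Set G) with hCdef
  set w : C := ⟨x, hx⟩ with hw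
  have hwo : orderOf w = orderOf x := Subgroup.orderOf_mk x hx
  have hwreg : ¬ p ∣ orderOf w := by
    rw [hwo]
    exact fun hd => hxo p hp.out hd hpπ
  have h1reg : ¬ p ∣ orderOf (1 : C) := by
    rw [orderOf_one]
    exact hM.1.one_lt.ne' ∘ Nat.dvd_one.1
  have hwcore : w ∈ piCore {q | q ∉ π} ↥C := hC w (by rw [hwo]; exact hxo)
  have e1 := blockPart_indSet hM hy hB χ w hwreg
  have e2 := blockPart_indSet hM hy hB χ 1 h1reg
  rw [Set.indicator_of_mem hχ] at e1 e2
  have hyC : y ∈ C := by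
    rw [hCdef, Subgroup.mem_centralizer_iff]
    intro z hz
    rw [Set.mem_singleton_iff.1 hz]
  have e3 : blockPart (indSet M C B) (fun c : C => (χ : G → ℂ) (y * (c : G))) w
      = blockPart (indSet M C B) (fun c : C => (χ : G → ℂ) (y * (c : G))) 1 := by
    haveI := Fintype.ofFinite (IrrCharacter C)
    rw [blockPart_apply, blockPart_apply]
    apply Finset.sum_congr rfl
    intro ξ _
    by_cases hξ : ξ ∈ indSet M C B
    · rw [Set.indicator_of_mem hξ, Set.indicator_of_mem hξ]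
      have hind : IsInducedBlock M C (blockOf M (ξ : C → ℂ)) B := hξ
      obtain ⟨D₀, hD₀⟩ := exists_defectGroup hM hind.1
      -- `⟨y⟩` is a normal `p`-subgroup of `C`
      set Y : Subgroup C := Subgroup.zpowers (⟨y, hyC⟩ : C) with hY
      have hcen : ∀ c : C, c * (⟨y, hyC⟩ : C) = ⟨y, hyC⟩ * c := by
        intro c
        ext
        exact ((Subgroup.mem_centralizer_iff.1 c.2) y rfl).symm
      haveI hYn : Y.Normal := by
        constructor
        intro n hn g
        obtain ⟨k, rfl⟩ := Subgroup.mem_zpowers_iff.1 hn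
        have : g * (⟨y, hyC⟩ : C) ^ k * g⁻¹ = (⟨y, hyC⟩ : C) ^ k := by
          have hc : Commute g ((⟨y, hyC⟩ : C) ^ k) := (show Commute g _ from hcen g).zpow_right k
          rw [hc.eq, mul_inv_cancel_right]
        rw [this]
        exact hn
      have hYp : IsPGroup p Y := by
        obtain ⟨k, hk⟩ := hy
        apply IsPGroup.of_card (n := k)
        rw [hY, Nat.card_zpowers, Subgroup.orderOf_mk, hk]
      have hYD := normal_le_defectGroup hM hind.1 hD₀ Y hYp
      have hyD : y ∈ D₀.map C.subtype :=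
        ⟨⟨y, hyC⟩, hYD (Subgroup.mem_zpowers _), rfl⟩
      have hCC : Subgroup.centralizer ((D₀.map C.subtype : Subgroup G) : Set G) ≤ C := by
        apply Subgroup.centralizer_le
        intro z hz
        rw [Set.mem_singleton_iff.1 hz]
        exact hyD
      have h5 := s4734 hM π hpπ B hB D hBD B₁ hB₁ hB₁D hker C _ hind D₀ hD₀ hCC w hwcore
      have hξξ : ξ ∈ blockOf M (ξ : C → ℂ) := fun g => by
        rw [sub_self]; exact memLocalIdeal_zero
      rw [h5 ξ hξξ]
    · rw [Set.indicator_of_notMem hξ, Set.indicator_of_notMem hξ]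
  rw [e1, e2] at e3
  simpa using e3

end

end Cfsg.Agent.Lib.Helper26.BP
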