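import Cfsg.Agent.Lib.Helper26.CtrF

/-!
# Major subsections: nonvanishing of contributions, and `k(B) ≤ p^d` when `l(b) = 1`
-/

set_option autoImplicit false
set_option linter.style.haveILetI false
set_option linter.unusedSectionVars false
open Cfsg
open Cfsg.Agent.Lib.Helper7 Cfsg.Agent.Lib.Helper24
open scoped ComplexConjugate

namespace Cfsg.Agent.Lib.Helper26.Ctr

universe u
variable {G : Type u} [Group G] {M : Ideal AlgInt} {p : ℕ}

theorem index_section [Finite G] (hp : p.Prime) {x : G} (hx : ∃ k : ℕ, orderOf x = p ^ k)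
    (c : Subgroup.centralizer ({x} : Set G)) (hc : ¬ p ∣ orderOf c) :
    (Subgroup.centralizer ({x} : Set G)).index
      * (Subgroup.centralizer ({c} : Set (Subgroup.centralizer ({x} : Set G)))).index
      = (Subgroup.centralizer ({x * (c : G)} : Set G)).index := by
  have h1 := card_centralizer_section hp hx c hc
  have h2 := (Subgroup.centralizer ({x} : Set G)).index_mul_card
  have h3 := (Subgroup.centralizer ({c} : Set (Subgroup.centralizer ({x} : Set G)))).index_mul_card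
  have h4 := (Subgroup.centralizer ({x * (c : G)} : Set G)).index_mul_card
  have hpos : 0 < Nat.card (Subgroup.centralizer ({x * (c : G)} : Set G)) := Nat.card_pos
  apply Nat.eq_of_mul_eq_mul_right hpos
  rw [h4, ← h2, ← h3, h1, mul_assoc]

theorem lemT_aux [Fintype G] (hM : IsPModular p M) {x : G}
    [Fintype (Subgroup.centralizer ({x} : Set G))] (hx : ∃ k : ℕ, orderOf x = p ^ k)
    {F : Subgroup.centralizer ({x} : Set G) → ℂ}
    (hF : IsClassFunction (Subgroup.centralizer ({x} : Set G)) F)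
    (hFR : ∀ c, MemLocalRing M (F c)) {χ ψ : IrrCharacter G}
    (hs : SameBlock M (χ : G → ℂ) (ψ : G → ℂ)) :
    MemLocalIdeal M
      (((Subgroup.centralizer ({x} : Set G)).index : ℂ) *
          (∑ c : Subgroup.centralizer ({x} : Set G),
            regInd p _ c * F c * (χ : G → ℂ) (x * (c : G))) / (χ : G → ℂ) 1
        - ((Subgroup.centralizer ({x} : Set G)).index : ℂ) *
          (∑ c : Subgroup.centralizer ({x} : Set G),
            regInd p _ c * F c * (ψ : G → ℂ) (x * (c : G))) / (ψ : G → ℂ) 1) := by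
  classical
  haveI := hM.2.1.isPrime
  haveI := Fintype.ofFinite (ConjClasses (Subgroup.centralizer ({x} : Set G)))
  have hcl : ∀ θ : IrrCharacter G, IsClassFunction (Subgroup.centralizer ({x} : Set G))
      (fun c => regInd p _ c * F c * (θ : G → ℂ) (x * (c : G))) := by
    intro θ g k
    show regInd p _ (k * g * k⁻¹) * F (k * g * k⁻¹) * _ = _
    have h3 : (θ : G → ℂ) (x * ((k * g * k⁻¹ : Subgroup.centralizer ({x} : Set G)) : G))
        = (θ : G → ℂ) (x * (g : G)) := isClassFunction_shift x θ g k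
    rw [isClassFunction_regInd p g k, hF g k, h3]
  have key : ∀ θ : IrrCharacter G,
      ((Subgroup.centralizer ({x} : Set G)).index : ℂ) *
          (∑ c : Subgroup.centralizer ({x} : Set G),
            regInd p _ c * F c * (θ : G → ℂ) (x * (c : G))) / (θ : G → ℂ) 1
      = ∑ K : ConjClasses (Subgroup.centralizer ({x} : Set G)),
          regInd p _ K.out * F K.out * centralChar (θ : G → ℂ) (x * (K.out : G)) := by
    intro θ
    rw [sum_eq_sum_conjClasses (hcl θ), Finset.mul_sum, Finset.sum_div]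
    apply Finset.sum_congr rfl
    intro K _
    by_cases hK : p ∣ orderOf K.out
    · rw [regInd_of_singular hK]; simp
    · rw [centralChar, ← index_section hM.1 hx K.out hK]
      push_cast
      ring
  rw [key, key, ← Finset.sum_sub_distrib]
  apply memLocalIdeal_sum
  intro K _
  rw [← mul_sub]
  apply memLocalIdeal_mul_left _ (hs _)
  apply memLocalRing_mul _ (hFR _)
  by_cases hK : p ∣ orderOf K.out
  · rw [regInd_of_singular hK]; exact memLocalRing_zero
  · rw [regInd_of_regular hK]; exact memLocalRing_one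

theorem lemT [Fintype G] (hM : IsPModular p M) {H : Subgroup G} [Fintype H] {x : G}
    (hH : H = Subgroup.centralizer ({x} : Set G)) (hx : ∃ k : ℕ, orderOf x = p ^ k)
    {F : H → ℂ} (hF : IsClassFunction H F)
    (hFR : ∀ c, MemLocalRing M (F c)) {χ ψ : IrrCharacter G}
    (hs : SameBlock M (χ : G → ℂ) (ψ : G → ℂ)) :
    MemLocalIdeal M
      ((H.index : ℂ) * (∑ c : H, regInd p _ c * F c * (χ : G → ℂ) (x * (c : G))) / (χ : G → ℂ) 1
        - (H.index : ℂ) * (∑ c : H, regInd p _ c * F c * (ψ : G → ℂ) (x * (c : G)))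
          / (ψ : G → ℂ) 1) := by
  subst hH
  exact lemT_aux hM hx hF hFR hs

theorem memLocalRing_fp [Fintype G] [M.IsPrime] {H : Subgroup G} [Fintype H]
    (e : Set (IrrCharacter H)) {y : G} (hyH : y ∈ H) (hyc : ∀ c : H, Commute y (c : G))
    {χ : G → ℂ} (hχ : IsCharacter G χ) (c : H) : MemLocalRing M (fp H e y χ c) := by
  classical
  haveI := Fintype.ofFinite (IrrCharacter H)
  rw [fp_eq_sum e hyH hyc (isClassFunction_of_isCharacter hχ), Finset.sum_apply]
  apply memLocalRing_sum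
  intro ξ _
  exact memLocalRing_mul (memLocalRing_co hyH hyc hχ ξ)
    (memLocalRing_of_isIntegral (char_isIntegral (isCharacter_of_irr ξ.2) _))

/-- `|G| m_{χψ} / ψ(1)` is constant modulo the local ideal for `ψ` in a block. -/
theorem card_mm_congr [Fintype G] (hM : IsPModular p M) {H : Subgroup G} [Fintype H] {y : G}
    (hH : H = Subgroup.centralizer ({y} : Set G)) (hy : ∃ k : ℕ, orderOf y = p ^ k)
    {e : Set (IrrCharacter H)} (he : IsBlockUnion M e) {χ : G → ℂ} (hχ : IsCharacter G χ)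
    {ψ ψ' : IrrCharacter G} (hs : SameBlock M (ψ : G → ℂ) (ψ' : G → ℂ)) :
    MemLocalIdeal M ((Nat.card G : ℂ) * mm p H e y χ (ψ : G → ℂ) / (ψ : G → ℂ) 1
      - (Nat.card G : ℂ) * mm p H e y χ (ψ' : G → ℂ) / (ψ' : G → ℂ) 1) := by
  classical
  haveI := hM.2.1.isPrime
  have hyH : y ∈ H := by rw [hH]; exact Subgroup.mem_centralizer_singleton_iff.2 rfl
  have hyc : ∀ c : H, Commute y (c : G) := fun c =>
    (Subgroup.mem_centralizer_singleton_iff.1 (hH ▸ c.2)).symm
  have hH' : H = Subgroup.centralizer ({y⁻¹} : Set G) := by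
    rw [hH]
    ext g
    rw [Subgroup.mem_centralizer_singleton_iff, Subgroup.mem_centralizer_singleton_iff]
    constructor
    · intro h
      exact (Commute.inv_right (show Commute g y from h)).eq
    · intro h
      have := (Commute.inv_right (show Commute g y⁻¹ from h)).eq
      simpa using this
  have hy' : ∃ k : ℕ, orderOf y⁻¹ = p ^ k := by rw [orderOf_inv]; exact hy
  have hFc : IsClassFunction H (fun c => fp H e y χ c⁻¹) := by
    intro g k
    show fp H e y χ (k * g * k⁻¹)⁻¹ = fp H e y χ g⁻¹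
    have : (k * g * k⁻¹)⁻¹ = k * g⁻¹ * k⁻¹ := by group
    rw [this]
    exact isClassFunction_blockPart e _ g⁻¹ k
  have key : ∀ θ : IrrCharacter G, (Nat.card G : ℂ) * mm p H e y χ (θ : G → ℂ)
      = (H.index : ℂ) * ∑ c : H, regInd p _ c * fp H e y χ c⁻¹ * (θ : G → ℂ) (y⁻¹ * (c : G)) := by
    intro θ
    have h1 := card_mul_mm hM he hyc χ (isCharacter_of_irr θ.2)
    have h2 : (Nat.card G : ℂ) = (H.index : ℂ) * (Nat.card H : ℂ) := by
      exact_mod_cast H.index_mul_card.symm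
    rw [h2, mul_assoc, h1]
    congr 1
    apply Fintype.sum_equiv (Equiv.inv H)
    intro c
    show _ = regInd p _ c⁻¹ * fp H e y χ c⁻¹⁻¹ * (θ : G → ℂ) (y⁻¹ * ((c⁻¹ : H) : G))
    rw [inv_inv]
    by_cases hc : p ∣ orderOf c
    · rw [regInd_of_singular (by rwa [orderOf_inv])]; simp [shC, hc]
    · rw [regInd_of_regular (by rwa [orderOf_inv])]; simp [shC, hc]
  rw [key, key]
  exact lemT hM hH' hy' hFc (fun c => memLocalRing_fp e hyH hyc hχ _) hs

/-- For a major subsection, `m_{χψ} ≠ 0` whenever `χ` has height zero. -/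
theorem mm_ne_zero_major [Fintype G] (hM : IsPModular p M) {H : Subgroup G} [Fintype H] {y : G}
    (hH : H = Subgroup.centralizer ({y} : Set G)) (hy : ∃ k : ℕ, orderOf y = p ^ k)
    {e : Set (IrrCharacter H)} {B : Set (IrrCharacter G)} (hind : IsInducedBlock M H e B)
    (hd : blockDefect p e = blockDefect p B)
    {χ ψ : IrrCharacter G} (hχ : χ ∈ B) (h0 : blockHeight p B (χ : G → ℂ) = 0) (hψ : ψ ∈ B) :
    mm p H e y (χ : G → ℂ) (ψ : G → ℂ) ≠ 0 := by
  classical
  haveI := hM.2.1.isPrime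
  have hyH : y ∈ H := by rw [hH]; exact Subgroup.mem_centralizer_singleton_iff.2 rfl
  have hyc : ∀ c : H, Commute y (c : G) := fun c =>
    (Subgroup.mem_centralizer_singleton_iff.1 (hH ▸ c.2)).symm
  have h1 := pq_mm_unit hM hind hy hyH hyc hχ h0 hχ h0
  have h2 := card_mm_congr hM hH hy (isBlockUnion_of_isPBlock hind.1) (isCharacter_of_irr χ.2)
    (sameBlock_of_mem hind.2.1 hψ hχ)
  intro hzero
  rw [hzero, mul_zero, zero_div, zero_sub] at h2
  have h3 := memLocalIdeal_neg h2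
  rw [neg_neg] at h3
  apply h1
  set n := charDegree (χ : G → ℂ) with hn
  have hn0 : n ≠ 0 := (charDegree_pos χ).ne'
  have hnc : (n : ℂ) = (χ : G → ℂ) 1 := charDegree_cast (isCharacter_of_irr χ.2)
  have hnf := factorization_of_height_zero hχ h0
  have hsa := sInf_le_factorization_card hind.2.1 p
  have hdB : blockDefect p B = (Nat.card G).factorization p
      - sInf ((fun χ : IrrCharacter G => (charDegree (χ : G → ℂ)).factorization p) '' B) := rfl
  have hR : MemLocalRing M (((n * p ^ blockDefect p B : ℕ) : ℂ) / (Nat.card G : ℂ)) := by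
    rw [memLocalRing_div_iff hM (mul_ne_zero hn0 (pow_ne_zero _ hM.1.ne_zero)) Nat.card_pos.ne',
      Nat.factorization_mul hn0 (pow_ne_zero _ hM.1.ne_zero), Nat.factorization_pow]
    simp only [Finsupp.coe_add, Finsupp.coe_smul, Pi.add_apply, Pi.smul_apply, smul_eq_mul]
    rw [hM.1.factorization_self, mul_one, hdB]
    rw [← hn] at hnf
    omega
  have h4 := memLocalIdeal_mul_left hR h3
  have hG0 : (Nat.card G : ℂ) ≠ 0 := by exact_mod_cast Nat.card_pos.ne'
  have hn0' : (χ : G → ℂ) 1 ≠ 0 := by rw [← hnc]; exact_mod_cast hn0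
  have h5 : ((n * p ^ blockDefect p B : ℕ) : ℂ) / (Nat.card G : ℂ)
      * ((Nat.card G : ℂ) * mm p H e y (χ : G → ℂ) (χ : G → ℂ) / (χ : G → ℂ) 1)
      = (p : ℂ) ^ blockDefect p e * mm p H e y (χ : G → ℂ) (χ : G → ℂ) := by
    rw [hd]
    push_cast
    rw [hnc]
    field_simp
  rwa [h5] at h4

theorem card_sq_le_of_ne_zero [Fintype G] [Fintype (IrrCharacter G)] (hM : IsPModular p M)
    {B : Set (IrrCharacter G)} {y : G} {k : ℕ} (hk : orderOf y = p ^ k)
    {H : Subgroup G} [Fintype H] (hH : H = Subgroup.centralizer ({y} : Set G))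
    {e : Set (IrrCharacter H)} (hind : IsInducedBlock M H e B) (F0 : Finset (IrrCharacter G))
    (hF0 : ∀ χ ∈ F0, χ ∈ B)
    (hne : ∀ χ ∈ F0, ∀ ψ ∈ F0, mm p H e y (χ : G → ℂ) (ψ : G → ℂ) ≠ 0) :
    F0.card ^ 2 ≤ p ^ (2 * blockDefect p e) * blockRank p e := by
  classical
  have hyH : y ∈ H := by rw [hH]; exact Subgroup.mem_centralizer_singleton_iff.2 rfl
  have hyc : ∀ c : H, Commute y (c : G) := fun c =>
    (Subgroup.mem_centralizer_singleton_iff.1 (hH ▸ c.2)).symm
  set J := (Finset.range (p ^ k)).filter (fun j => j.Coprime (p ^ k)) with hJ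
  set FB := Finset.univ.filter (fun χ : IrrCharacter G => χ ∈ B) with hFB
  set q := blockDefect p e with hq
  have hsub : F0 ⊆ FB := by
    intro χ hχ
    rw [hFB, Finset.mem_filter]
    exact ⟨Finset.mem_univ _, hF0 χ hχ⟩
  have hup : ∑ j ∈ J, ∑ χ ∈ FB, ∑ ψ ∈ FB,
      ‖(p : ℂ) ^ q * mm p H e (y ^ j) (χ : G → ℂ) (ψ : G → ℂ)‖ ^ 2
      = ((p ^ k).totient : ℝ) * ((p : ℝ) ^ (2 * q) * (blockRank p e : ℝ)) := by
    have h1 : ∀ j ∈ J, ∑ χ ∈ FB, ∑ ψ ∈ FB,
        ‖(p : ℂ) ^ q * mm p H e (y ^ j) (χ : G → ℂ) (ψ : G → ℂ)‖ ^ 2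
        = (p : ℝ) ^ (2 * q) * (blockRank p e : ℝ) := by
      intro j hj
      have hjc : j.Coprime (orderOf y) := by rw [hk]; exact (Finset.mem_filter.1 hj).2
      rw [← sum_mm_normsq hM (hH.trans (centralizer_pow_eq hjc))
        ⟨k, by rw [Nat.Coprime.orderOf_pow hjc.symm, hk]⟩ hind, Finset.mul_sum]
      apply Finset.sum_congr rfl
      intro χ _
      rw [Finset.mul_sum]
      apply Finset.sum_congr rfl
      intro ψ _
      rw [norm_mul, mul_pow, norm_pow, Complex.norm_natCast, ← pow_mul, mul_comm q 2]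
    rw [Finset.sum_congr rfl h1, Finset.sum_const, card_coprime_filter, nsmul_eq_mul]
  have hlow : (F0.card : ℝ) ^ 2 * ((p ^ k).totient : ℝ) ≤ ∑ j ∈ J, ∑ χ ∈ FB, ∑ ψ ∈ FB,
      ‖(p : ℂ) ^ q * mm p H e (y ^ j) (χ : G → ℂ) (ψ : G → ℂ)‖ ^ 2 := by
    rw [Finset.sum_comm]
    have h2 : ∀ χ ∈ F0, (F0.card : ℝ) * ((p ^ k).totient : ℝ) ≤ ∑ j ∈ J, ∑ ψ ∈ FB,
        ‖(p : ℂ) ^ q * mm p H e (y ^ j) (χ : G → ℂ) (ψ : G → ℂ)‖ ^ 2 := by
      intro χ hχ
      rw [Finset.sum_comm]
      have h3 : ∀ ψ ∈ F0, ((p ^ k).totient : ℝ) ≤ ∑ j ∈ J,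
          ‖(p : ℂ) ^ q * mm p H e (y ^ j) (χ : G → ℂ) (ψ : G → ℂ)‖ ^ 2 := by
        intro ψ hψ
        exact mm_avg hM hind.1 hk hyH hyc (isCharacter_of_irr χ.2) (isCharacter_of_irr ψ.2)
          (hne χ hχ ψ hψ)
      have h4 := Finset.card_nsmul_le_sum F0 _ _ h3
      rw [nsmul_eq_mul] at h4
      refine le_trans h4 (Finset.sum_le_sum_of_subset_of_nonneg hsub ?_)
      intro ψ _ _
      exact Finset.sum_nonneg (fun j _ => by positivity)
    have h5 := Finset.card_nsmul_le_sum F0 _ _ h2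
    rw [nsmul_eq_mul] at h5
    have h6 : (F0.card : ℝ) ^ 2 * ((p ^ k).totient : ℝ)
        = (F0.card : ℝ) * ((F0.card : ℝ) * ((p ^ k).totient : ℝ)) := by ring
    rw [h6]
    refine le_trans h5 (Finset.sum_le_sum_of_subset_of_nonneg hsub ?_)
    intro χ _ _
    exact Finset.sum_nonneg (fun j _ => Finset.sum_nonneg (fun ψ _ => by positivity))
  rw [hup] at hlow
  have hpos : (0 : ℝ) < ((p ^ k).totient : ℝ) := by
    exact_mod_cast Nat.totient_pos.2 (pow_pos hM.1.pos k)
  have h7 : (F0.card : ℝ) ^ 2 ≤ (p : ℝ) ^ (2 * q) * (blockRank p e : ℝ) := by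
    have : ((p ^ k).totient : ℝ) * (F0.card : ℝ) ^ 2
        ≤ ((p ^ k).totient : ℝ) * ((p : ℝ) ^ (2 * q) * (blockRank p e : ℝ)) := by
      rw [mul_comm]; exact hlow
    exact le_of_mul_le_mul_left this hpos
  exact_mod_cast h7

/-- if `l(b) = 1`, the `p`-regular parts of the `fp χ` are all multiples of one function. -/
theorem exists_gen_of_rank_one [Fintype G] {H : Subgroup G} [Fintype H]
    {e : Set (IrrCharacter H)} (h1 : blockRank p e = 1) {y : G} (hyH : y ∈ H)
    (hyc : ∀ c : H, Commute y (c : G)) :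
    ∃ φ : H → ℂ, ∀ χ : G → ℂ, IsClassFunction G χ →
      ∃ d : ℂ, pRegularPart p (fp H e y χ) = d • φ := by
  classical
  haveI := Fintype.ofFinite (IrrCharacter H)
  rw [blockRank] at h1
  obtain ⟨v, _, hv⟩ := finrank_eq_one_iff'.1 h1
  refine ⟨(v : H → ℂ), fun χ hχ => ?_⟩
  have hmem : pRegularPart p (fp H e y χ) ∈ Submodule.span ℂ
      ((fun ξ : IrrCharacter H => pRegularPart p (ξ : H → ℂ)) '' e) := by
    rw [fp_eq_sum e hyH hyc hχ, pReg_sum_smul]
    apply Submodule.sum_mem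
    intro ξ hξ
    apply Submodule.smul_mem
    exact Submodule.subset_span ⟨ξ, (Finset.mem_filter.1 hξ).2, rfl⟩
  obtain ⟨d, hd⟩ := hv ⟨_, hmem⟩
  exact ⟨d, by rw [← Submodule.coe_smul, hd]⟩

theorem mm_eq_of_gen [Fintype G] {H : Subgroup G} [Fintype H] {e : Set (IrrCharacter H)} {y : G}
    {φ : H → ℂ} {χ ψ : G → ℂ} {d d' : ℂ} (hd : pRegularPart p (fp H e y χ) = d • φ)
    (hd' : pRegularPart p (fp H e y ψ) = d' • φ) :
    mm p H e y χ ψ = d * conj d' * classInner φ φ := by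
  rw [mm, classInner_pReg_left]
  show classInner (pRegularPart p (fp H e y χ)) (pRegularPart p (fp H e y ψ)) = _
  rw [hd, hd', classInner, classInner, mul_left_comm]
  congr 1
  rw [Finset.mul_sum]
  apply Finset.sum_congr rfl
  intro c _
  simp only [Pi.smul_apply, smul_eq_mul, map_mul]
  ring

/-- **`k(B) ≤ p^d`** if `B` has a major subsection `(y, b)` with `l(b) = 1`. -/
theorem card_le_of_rank_one [Finite G] (hM : IsPModular p M) {B : Set (IrrCharacter G)} {y : G}
    (hy : ∃ k : ℕ, orderOf y = p ^ k) {H : Subgroup G}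
    (hH : H = Subgroup.centralizer ({y} : Set G))
    {e : Set (IrrCharacter H)} (hind : IsInducedBlock M H e B)
    (hd : blockDefect p e = blockDefect p B) (h1 : blockRank p e = 1) :
    Nat.card B ≤ p ^ blockDefect p B := by
  classical
  haveI := hM.2.1.isPrime
  haveI := Fintype.ofFinite G
  haveI := Fintype.ofFinite (IrrCharacter G)
  haveI := Fintype.ofFinite H
  have hyH : y ∈ H := by rw [hH]; exact Subgroup.mem_centralizer_singleton_iff.2 rfl
  have hyc : ∀ c : H, Commute y (c : G) := fun c =>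
    (Subgroup.mem_centralizer_singleton_iff.1 (hH ▸ c.2)).symm
  obtain ⟨k, hk⟩ := hy
  obtain ⟨φ, hφ⟩ := exists_gen_of_rank_one h1 hyH hyc
  obtain ⟨χ₀, hχ₀, hh⟩ := exists_height_zero hind.2.1 p
  have h0 : blockHeight p B (χ₀ : G → ℂ) = 0 := by rw [blockHeight, hh, Nat.sub_self]
  obtain ⟨d₀, hd₀⟩ := hφ (χ₀ : G → ℂ) (isClassFunction_irr χ₀)
  have hne : ∀ χ ∈ Finset.univ.filter (fun χ : IrrCharacter G => χ ∈ B),
      ∀ ψ ∈ Finset.univ.filter (fun χ : IrrCharacter G => χ ∈ B),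
      mm p H e y (χ : G → ℂ) (ψ : G → ℂ) ≠ 0 := by
    intro χ hχ ψ hψ
    obtain ⟨d, hd1⟩ := hφ (χ : G → ℂ) (isClassFunction_irr χ)
    obtain ⟨d', hd2⟩ := hφ (ψ : G → ℂ) (isClassFunction_irr ψ)
    have e1 := mm_ne_zero_major hM hH ⟨k, hk⟩ hind hd hχ₀ h0 (Finset.mem_filter.1 hχ).2
    have e2 := mm_ne_zero_major hM hH ⟨k, hk⟩ hind hd hχ₀ h0 (Finset.mem_filter.1 hψ).2
    rw [mm_eq_of_gen hd₀ hd1] at e1
    rw [mm_eq_of_gen hd₀ hd2] at e2
    rw [mm_eq_of_gen hd1 hd2]
    have a1 : d ≠ 0 := by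
      rintro rfl
      simp at e1
    have a2 : d' ≠ 0 := by
      rintro rfl
      simp at e2
    have a3 : classInner φ φ ≠ 0 := right_ne_zero_of_mul e1
    exact mul_ne_zero (mul_ne_zero a1 ((map_ne_zero _).2 a2)) a3
  have h2 := card_sq_le_of_ne_zero hM hk hH hind _ (fun χ hχ => (Finset.mem_filter.1 hχ).2) hne
  rw [h1, mul_one, hd, mul_comm 2, pow_mul] at h2
  have h3 : Nat.card B = (Finset.univ.filter (fun χ : IrrCharacter G => χ ∈ B)).card := by
    rw [Nat.card_eq_fintype_card, Fintype.card_subtype]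
  rw [h3]
  exact (Nat.pow_le_pow_iff_left (by norm_num)).1 h2

end Cfsg.Agent.Lib.Helper26.Ctr
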