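import Cfsg.Agent.Lib.Helper26.BPAb
import Cfsg.Agent.Lib.Helper26.BPKer
import Cfsg.Agent.S4511
import Cfsg.Agent.S0919

/-!
# Counting the characters of a block by subsections, in the idempotent model
-/

set_option autoImplicit false
set_option linter.unusedSectionVars false
set_option linter.unusedVariables false
set_option linter.style.haveILetI false

open Cfsg Cfsg.FusionSystem
open Cfsg.Agent.Lib.Helper7 Cfsg.Agent.Lib.Helper24

namespace Cfsg.Agent.Lib.Helper26.BP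

noncomputable section
open Classical

universe u

theorem pReg_comp {K K' : Type u} [Group K] [Group K'] (p : ℕ) (σ : K ≃* K') (φ : K' → ℂ) :
    pRegularPart p (fun k => φ (σ k)) = fun k => pRegularPart p φ (σ k) := by
  ext k
  simp only [pRegularPart, IsPRegular, MulEquiv.orderOf_eq]
  congr

theorem blockRank_preimage {K K' : Type u} [Group K] [Group K'] (p : ℕ) (σ : K ≃* K')
    (f : Set (IrrCharacter K)) : blockRank p (mapIrr σ ⁻¹' f) = blockRank p f := by
  rw [blockRank, blockRank]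
  set L : (K → ℂ) ≃ₗ[ℂ] (K' → ℂ) := LinearEquiv.funCongrLeft ℂ ℂ σ.symm.toEquiv with hL
  have hLa : ∀ (φ : K → ℂ) (k' : K'), L φ k' = φ (σ.symm k') := fun φ k' => rfl
  have himg : (fun χ : IrrCharacter K' => pRegularPart p (χ : K' → ℂ)) '' (mapIrr σ ⁻¹' f)
      = L '' ((fun χ : IrrCharacter K => pRegularPart p (χ : K → ℂ)) '' f) := by
    ext φ
    constructor
    · rintro ⟨ξ', hξ', rfl⟩
      refine ⟨_, ⟨mapIrr σ ξ', hξ', rfl⟩, ?_⟩
      ext k'
      rw [hLa]
      have := congrFun (pReg_comp p σ (ξ' : K' → ℂ)) (σ.symm k')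
      simp only [MulEquiv.apply_symm_apply] at this
      exact this
    · rintro ⟨_, ⟨ξ, hξ, rfl⟩, rfl⟩
      refine ⟨mapIrr σ.symm ξ, ?_, ?_⟩
      · show mapIrr σ (mapIrr σ.symm ξ) ∈ f
        rw [mapIrr_mapIrr_symm]; exact hξ
      · ext k'
        rw [hLa]
        exact congrFun (pReg_comp p σ.symm (ξ : K → ℂ)) k'
  rw [himg]
  have h2 := Submodule.map_span (L : (K → ℂ) →ₗ[ℂ] (K' → ℂ))
    ((fun χ : IrrCharacter K => pRegularPart p (χ : K → ℂ)) '' f)
  have h3 : Submodule.span ℂ (L '' ((fun χ : IrrCharacter K => pRegularPart p (χ : K → ℂ)) '' f))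
      = (Submodule.span ℂ ((fun χ : IrrCharacter K => pRegularPart p (χ : K → ℂ)) '' f)).map
        (L : (K → ℂ) →ₗ[ℂ] (K' → ℂ)) := h2.symm
  rw [h3]
  exact LinearEquiv.finrank_map_eq L _

variable {M : Ideal AlgInt} [M.IsPrime] {p : ℕ} [hp : Fact p.Prime]
variable {G : Type u} [Group G] [Fintype G]

/-- the `p`-regular rank of a block idempotent of `K` -/
def rk (p : ℕ) (K : Subgroup G) (ε : KG M G) : ℕ :=
  if h : IsBlk M K ε then blockRank p h.choose else 0

theorem rk_sbl {K : Subgroup G} {e : Set (IrrCharacter K)} (he : IsPBlock M e) :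
    rk p K (sbl M K e) = blockRank p e := by
  have h : IsBlk M K (sbl M K e) := isBlk_sbl he
  rw [rk, dif_pos h]
  congr 1
  exact (sbl_injective he h.choose_spec.1 h.choose_spec.2).symm

theorem rk_cj (x : G) {K : Subgroup G} {ε : KG M G} (h : IsBlk M K ε) :
    rk p (cjS x K) (cj x ε) = rk p K ε := by
  obtain ⟨e, he, rfl⟩ := h
  rw [← sbl_cjBlk x rfl e, rk_sbl (isPBlock_cjBlk x rfl he), rk_sbl he]
  exact blockRank_preimage p _ e

variable [CharP (resField M) p]

theorem centralizer_zpowers' (x : G) :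
    Subgroup.centralizer ((Subgroup.zpowers x : Subgroup G) : Set G)
      = Subgroup.centralizer ({x} : Set G) := by
  rw [Subgroup.zpowers_eq_closure, Subgroup.centralizer_closure]

theorem ns_self_of_central {H Q : Subgroup G} (hQ : IsPGroup p Q) (hQH : Q ≤ H)
    (hH : H ≤ Subgroup.centralizer (Q : Set G)) {ε : KG M G} (hε : IsBlk M H ε) :
    NS p H ((⊥, ε) : FP M G) (Q, ε) := by
  refine ⟨⟨bot_le, IsPGroup.of_bot, ?_⟩, ⟨hQH, hQ, ?_⟩, bot_le, le_normalizer_bot Q,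
    hε.inv.mono hQH, ?_⟩
  · show IsBlk M (cen H ⊥) ε
    rw [cen_bot]; exact hε
  · show IsBlk M (cen H Q) ε
    rw [cen, inf_eq_left.2 hH]; exact hε
  · show br Q ε * ε = ε
    rw [br_eq_self (hε.supp.mono hH), hε.idem]

theorem isInducedBlock_iff_ns (hM : IsPModular p M) {B : Set (IrrCharacter G)}
    (hB : IsPBlock M B) {Q H : Subgroup G} (hQ : IsPGroup p Q) (hQH : Q ≤ H)
    (hH : H = Subgroup.centralizer (Q : Set G)) {e : Set (IrrCharacter H)} (he : IsPBlock M e) :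
    IsInducedBlock M H e B ↔ NS p ⊤ ((⊥, bl M B) : FP M G) (Q, sbl M H e) := by
  have key : ∀ B' : Set (IrrCharacter G), IsInducedBlock M H e B' →
      NS p ⊤ ((⊥, bl M B') : FP M G) (Q, sbl M H e) := by
    intro B' hB'
    exact NS.bot_of_ind (isBlk_top_bl hB'.2.1) (ind_of_isInducedBlock hB')
      (ns_self_of_central hQ hQH hH.le (isBlk_sbl he)) hH.ge
  refine ⟨key B, fun h => ?_⟩
  obtain ⟨B', hB'⟩ := Cfsg.Agent.S0919.result p M hM Q H hQ hQH hH.ge
    (hH.le.trans (centralizer_le_normalizer' Q)) e he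
  have h1 := (key B' hB').unique h rfl
  have h2 : bl M B' = bl M B := congrArg Prod.snd h1
  rw [← bl_injective hB'.2.1 hB h2]
  exact hB'

/-- the block idempotents `ε` of `C_G(x)` such that `(x, ε)` is a subsection of `β` -/
def subs (p : ℕ) (β : KG M G) (x : G) : Finset (KG M G) :=
  (blks M (Subgroup.centralizer ({x} : Set G))).filter
    (fun ε => NS p ⊤ ((⊥, β) : FP M G) (Subgroup.zpowers x, ε))

theorem isPGroup_zpowers' {x : G} (hx : ∃ k : ℕ, orderOf x = p ^ k) :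
    IsPGroup p (Subgroup.zpowers x) := by
  obtain ⟨k, hk⟩ := hx
  apply IsPGroup.of_card (n := k)
  rw [Nat.card_zpowers, hk]

theorem finsum_rank_eq (hM : IsPModular p M) {B : Set (IrrCharacter G)} (hB : IsPBlock M B)
    {x : G} (hx : ∃ k : ℕ, orderOf x = p ^ k) :
    ∑ᶠ b ∈ {b : Set (IrrCharacter ↥(Subgroup.centralizer ({x} : Set G))) |
        IsInducedBlock M (Subgroup.centralizer ({x} : Set G)) b B}, blockRank p b
      = ∑ ε ∈ subs p (bl M B) x, rk p (Subgroup.centralizer ({x} : Set G)) ε := by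
  have hQ := isPGroup_zpowers' (p := p) hx
  have hQH : Subgroup.zpowers x ≤ Subgroup.centralizer ({x} : Set G) :=
    Subgroup.zpowers_le.2 (Subgroup.mem_centralizer_singleton_iff.2 rfl)
  have hH := (centralizer_zpowers' x).symm
  rw [← finsum_mem_coe_finset]
  apply finsum_mem_eq_of_bijOn (sbl M (Subgroup.centralizer ({x} : Set G)))
  · refine ⟨?_, ?_, ?_⟩
    · intro b hb
      rw [Finset.mem_coe, subs, Finset.mem_filter, mem_blks]
      exact ⟨isBlk_sbl hb.1, (isInducedBlock_iff_ns hM hB hQ hQH hH hb.1).1 hb⟩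
    · intro b hb b' hb' h
      exact sbl_injective hb.1 hb'.1 h
    · intro ε hε
      rw [Finset.mem_coe, subs, Finset.mem_filter, mem_blks] at hε
      obtain ⟨⟨e, he, rfl⟩, h2⟩ := hε
      exact ⟨e, (isInducedBlock_iff_ns hM hB hQ hQH hH he).2 h2, rfl⟩
  · intro b hb
    exact (rk_sbl hb.1).symm

theorem card_eq_sum_subs (hM : IsPModular p M) {B : Set (IrrCharacter G)} (hB : IsPBlock M B)
    (X : Finset G) (hX : ∀ x ∈ X, ∃ k : ℕ, orderOf x = p ^ k)
    (hXrep : ∀ g : G, (∃ k : ℕ, orderOf g = p ^ k) → ∃! x, x ∈ X ∧ IsConj g x) :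
    Nat.card B = ∑ x ∈ X, ∑ ε ∈ subs p (bl M B) x,
      rk p (Subgroup.centralizer ({x} : Set G)) ε := by
  rw [Cfsg.Agent.S4511.result p M hM B hB X hX hXrep]
  apply Finset.sum_congr rfl
  intro x hx
  exact finsum_rank_eq hM hB (hX x hx)

theorem orderOf_conj' (c g : G) : orderOf (c * g * c⁻¹) = orderOf g :=
  MulEquiv.orderOf_eq (MulAut.conj c) g

theorem exists_reps (p : ℕ) : ∃ X : Finset G, (∀ x ∈ X, ∃ k : ℕ, orderOf x = p ^ k) ∧
    ∀ g : G, (∃ k : ℕ, orderOf g = p ^ k) → ∃! x, x ∈ X ∧ IsConj g x := by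
  have hout : ∀ g : G, IsConj g (ConjClasses.mk g).out := by
    intro g
    rw [← ConjClasses.mk_eq_mk_iff_isConj]
    exact (Quotient.out_eq _).symm
  refine ⟨(Finset.univ.filter (fun g : G => ∃ k : ℕ, orderOf g = p ^ k)).image
    (fun g => (ConjClasses.mk g).out), ?_, ?_⟩
  · intro x hx
    obtain ⟨g, hg, rfl⟩ := Finset.mem_image.1 hx
    obtain ⟨k, hk⟩ := (Finset.mem_filter.1 hg).2
    obtain ⟨c, hc⟩ := _root_.isConj_iff.1 (hout g)
    exact ⟨k, by rw [← hc, orderOf_conj', hk]⟩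
  · intro g hg
    refine ⟨(ConjClasses.mk g).out, ⟨Finset.mem_image.2 ⟨g, Finset.mem_filter.2
      ⟨Finset.mem_univ _, hg⟩, rfl⟩, hout g⟩, ?_⟩
    rintro y ⟨hy, hgy⟩
    obtain ⟨g', _, rfl⟩ := Finset.mem_image.1 hy
    have : ConjClasses.mk g = ConjClasses.mk g' := by
      rw [ConjClasses.mk_eq_mk_iff_isConj]
      exact hgy.trans (hout g').symm
    rw [this]

theorem cjS_zpowers (g u : G) :
    cjS g (Subgroup.zpowers u) = Subgroup.zpowers (g * u * g⁻¹) :=
  MonoidHom.map_zpowers (MulAut.conj g).toMonoidHom u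

theorem cjS_centralizer_singleton (g u : G) :
    cjS g (Subgroup.centralizer ({u} : Set G)) = Subgroup.centralizer ({g * u * g⁻¹} : Set G) := by
  rw [← centralizer_zpowers', cjS_centralizer, cjS_zpowers, centralizer_zpowers']

theorem NS.isBlk_singleton {β η : KG M G} {v : G}
    (h : NS p ⊤ ((⊥, β) : FP M G) (Subgroup.zpowers v, η)) :
    IsBlk M (Subgroup.centralizer ({v} : Set G)) η := by
  have := h.2.1.blk
  rwa [cen_top, centralizer_zpowers'] at this

theorem NS.orderOf_eq {β η : KG M G} {v : G}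
    (h : NS p ⊤ ((⊥, β) : FP M G) (Subgroup.zpowers v, η)) : ∃ k : ℕ, orderOf v = p ^ k := by
  obtain ⟨n, hn⟩ := IsPGroup.iff_card.1 h.2.1.pg
  exact ⟨n, by rw [← hn]; exact (Nat.card_zpowers v).symm⟩

theorem sum_subs_aux (hM : IsPModular p M) {B : Set (IrrCharacter G)} (hB : IsPBlock M B)
    (ε : G → KG M G) (U : Finset G)
    (hU : ∀ u ∈ U, NS p ⊤ ((⊥, bl M B) : FP M G) (Subgroup.zpowers u, ε u))
    (hinj : ∀ u ∈ U, ∀ v ∈ U, ∀ g : G, g * u * g⁻¹ = v → cj g (ε u) = ε v → u = v) :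
    ∑ u ∈ U, rk p (Subgroup.centralizer ({u} : Set G)) (ε u) ≤ Nat.card B ∧
    ((∀ (v : G) (η : KG M G), NS p ⊤ ((⊥, bl M B) : FP M G) (Subgroup.zpowers v, η) →
        ∃ u ∈ U, ∃ g : G, g * v * g⁻¹ = u ∧ cj g η = ε u) →
      ∑ u ∈ U, rk p (Subgroup.centralizer ({u} : Set G)) (ε u) = Nat.card B) := by
  obtain ⟨X, hX, hXrep⟩ := exists_reps (G := G) p
  have hex : ∀ u : G, ∃ t : G × G, u ∈ U → (t.1 ∈ X ∧ t.2 * u * t.2⁻¹ = t.1) := by
    intro u
    by_cases hu : u ∈ U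
    · obtain ⟨x, ⟨hxX, hxc⟩, _⟩ := hXrep u (hU u hu).orderOf_eq
      obtain ⟨c, hc⟩ := _root_.isConj_iff.1 hxc
      exact ⟨(x, c), fun _ => ⟨hxX, hc⟩⟩
    · exact ⟨(1, 1), fun h => absurd h hu⟩
  choose t ht using hex
  set Φ : G → (Σ _ : G, KG M G) := fun u => ⟨(t u).1, cj (t u).2 (ε u)⟩ with hΦ
  set F : (Σ _ : G, KG M G) → ℕ := fun s => rk p (Subgroup.centralizer ({s.1} : Set G)) s.2
    with hF
  have hcard : Nat.card B = ∑ s ∈ X.sigma (fun x => subs p (bl M B) x), F s := by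
    rw [card_eq_sum_subs hM hB X hX hXrep, Finset.sum_sigma']
  have hact : ∀ u ∈ U, NS p ⊤ ((⊥, bl M B) : FP M G)
      (Subgroup.zpowers (t u).1, cj (t u).2 (ε u)) := by
    intro u hu
    have h1 := NS.bot_act (hU u hu) (x := (t u).2) (Subgroup.mem_top _)
    have h2 : act (t u).2 ((Subgroup.zpowers u, ε u) : FP M G)
        = (Subgroup.zpowers (t u).1, cj (t u).2 (ε u)) := by
      rw [act]
      show (cjS (t u).2 (Subgroup.zpowers u), _) = _
      rw [cjS_zpowers, (ht u hu).2]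
    rwa [h2] at h1
  have hmem : ∀ u ∈ U, Φ u ∈ X.sigma (fun x => subs p (bl M B) x) := by
    intro u hu
    rw [Finset.mem_sigma]
    refine ⟨(ht u hu).1, ?_⟩
    show cj (t u).2 (ε u) ∈ subs p (bl M B) (t u).1
    rw [subs, Finset.mem_filter, mem_blks]
    exact ⟨(hact u hu).isBlk_singleton, hact u hu⟩
  have hFΦ : ∀ u ∈ U, F (Φ u) = rk p (Subgroup.centralizer ({u} : Set G)) (ε u) := by
    intro u hu
    show rk p (Subgroup.centralizer ({(t u).1} : Set G)) (cj (t u).2 (ε u)) = _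
    rw [← (ht u hu).2, ← cjS_centralizer_singleton]
    exact rk_cj _ (hU u hu).isBlk_singleton
  have hΦinj : Set.InjOn Φ U := by
    intro u hu v hv huv
    have h1 : (t u).1 = (t v).1 := congrArg Sigma.fst huv
    have h2 : cj (t u).2 (ε u) = cj (t v).2 (ε v) := by
      have := (Sigma.mk.inj_iff.1 huv).2
      exact eq_of_heq this
    apply hinj u hu v hv ((t v).2⁻¹ * (t u).2)
    · have e1 := (ht u hu).2
      have e2 := (ht v hv).2
      rw [h1, ← e2] at e1
      calc (t v).2⁻¹ * (t u).2 * u * ((t v).2⁻¹ * (t u).2)⁻¹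
          = (t v).2⁻¹ * ((t u).2 * u * (t u).2⁻¹) * (t v).2 := by group
        _ = v := by rw [e1]; group
    · rw [cj_mul, h2, cj_inv_cj]
  have hsum : ∑ u ∈ U, rk p (Subgroup.centralizer ({u} : Set G)) (ε u)
      = ∑ s ∈ U.image Φ, F s := by
    rw [Finset.sum_image hΦinj]
    exact Finset.sum_congr rfl (fun u hu => (hFΦ u hu).symm)
  have hsub : U.image Φ ⊆ X.sigma (fun x => subs p (bl M B) x) := by
    intro s hs
    obtain ⟨u, hu, rfl⟩ := Finset.mem_image.1 hs
    exact hmem u hu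
  refine ⟨?_, fun hsurj => ?_⟩
  · rw [hsum, hcard]
    exact Finset.sum_le_sum_of_subset hsub
  · rw [hsum, hcard]
    congr 1
    apply Finset.Subset.antisymm hsub
    rintro ⟨x, η⟩ hs
    rw [Finset.mem_sigma] at hs
    have hxX : x ∈ X := hs.1
    have hη : η ∈ subs p (bl M B) x := hs.2
    rw [subs, Finset.mem_filter, mem_blks] at hη
    obtain ⟨u, hu, g, hg, hgη⟩ := hsurj x η hη.2
    rw [Finset.mem_image]
    refine ⟨u, hu, ?_⟩
    have h1 : (t u).1 = x := by
      obtain ⟨x', _, huniq⟩ := hXrep x (hX x hxX)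
      rw [huniq x ⟨hxX, IsConj.refl x⟩]
      apply huniq
      refine ⟨(ht u hu).1, _root_.isConj_iff.2 ⟨(t u).2 * g, ?_⟩⟩
      rw [← (ht u hu).2, ← hg]; group
    have h2 : cj (t u).2 (ε u) = η := by
      rw [← hgη, ← cj_mul]
      apply hη.1.inv
      rw [Subgroup.mem_centralizer_singleton_iff]
      have e1 : (t u).2 * g * x * ((t u).2 * g)⁻¹ = x := by
        have e2 := (ht u hu).2
        rw [h1] at e2
        calc (t u).2 * g * x * ((t u).2 * g)⁻¹ = (t u).2 * (g * x * g⁻¹) * (t u).2⁻¹ := by group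
          _ = x := by rw [hg, e2]
      calc (t u).2 * g * x = (t u).2 * g * x * ((t u).2 * g)⁻¹ * ((t u).2 * g) := by group
        _ = x * ((t u).2 * g) := by rw [e1]
    show (⟨(t u).1, cj (t u).2 (ε u)⟩ : Σ _ : G, KG M G) = ⟨x, η⟩
    rw [h1, h2]

theorem ab_factor' (hM : IsPModular p M) {a b m : FP M G} (ha : LE p ⊤ a m) (hb : LE p ⊤ b m)
    (hm : IsPair p ⊤ m) (htm : Terminal p ⊤ m) (hab : ∀ x ∈ m.1, ∀ y ∈ m.1, x * y = y * x)
    {x : G} (hx : act x a = b) :
    ∃ c ∈ Subgroup.centralizer (b.1 : Set G), c * x ∈ stabP m := by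
  have hpb := hb.isPair_left hm
  have hnsb := hb.ns_of_ab hm hab
  have hC : Subgroup.centralizer (b.1 : Set G) ≤ stabP b := by
    have := hpb.cen_le_stabP
    rwa [cen_top] at this
  have hPC := le_centralizer_of_ab hab hb.fst_le
  have h1 := hnsb.bot_sub hM le_rfl hC hPC
  have hns' : NS p ⊤ b (act x m) := by
    have := (ha.ns_of_ab hm hab).act (x := x) (Subgroup.mem_top x)
    rwa [hx] at this
  have hxN : cjS x a.1 = b.1 := congrArg Prod.fst hx
  have hPC' : (act x m).1 ≤ Subgroup.centralizer (b.1 : Set G) := by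
    have := cjS_mono (x := x) (le_centralizer_of_ab hab ha.fst_le)
    rwa [cjS_centralizer, hxN] at this
  have h2 := hns'.bot_sub hM le_rfl hC hPC'
  obtain ⟨c, hc, hcm⟩ := Terminal.conj h1 (htm.mono le_top) h2
    ((htm.act (Subgroup.mem_top x)).mono le_top)
  exact ⟨c, hc, by rw [mem_stabP, act_mul]; exact hcm⟩

/-- the block idempotent of `C_G(u)` below the pair `m` -/
def eps (p : ℕ) (m : FP M G) (u : G) : KG M G :=
  if h : ∃ ε, LE p ⊤ ((Subgroup.zpowers u, ε) : FP M G) m then h.choose else 0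

theorem eps_le {m : FP M G} (hm : IsPair p ⊤ m) {u : G} (hu : u ∈ m.1) :
    LE p ⊤ ((Subgroup.zpowers u, eps p m u) : FP M G) m := by
  have h : ∃ ε, LE p ⊤ ((Subgroup.zpowers u, ε) : FP M G) m :=
    exists_le hm (Subgroup.zpowers_le.2 hu)
  rw [eps, dif_pos h]
  exact h.choose_spec

theorem eps_eq {m : FP M G} (hm : IsPair p ⊤ m) {u : G} {η : KG M G}
    (h : LE p ⊤ ((Subgroup.zpowers u, η) : FP M G) m) : η = eps p m u := by
  have hu : u ∈ m.1 := h.fst_le (Subgroup.mem_zpowers u)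
  exact congrArg Prod.snd (h.unique (eps_le hm hu) rfl)

theorem act_zpowers (g u : G) (η : KG M G) :
    act g ((Subgroup.zpowers u, η) : FP M G) = (Subgroup.zpowers (g * u * g⁻¹), cj g η) := by
  rw [act]
  show (cjS g (Subgroup.zpowers u), _) = _
  rw [cjS_zpowers]

theorem eps_stab {m : FP M G} (hm : IsPair p ⊤ m) {u t : G} (hu : u ∈ m.1) (ht : t ∈ stabP m) :
    t * u * t⁻¹ ∈ m.1 ∧ cj t (eps p m u) = eps p m (t * u * t⁻¹) := by
  have h1 := (eps_le hm hu).act (x := t) (Subgroup.mem_top t)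
  rw [mem_stabP.1 ht, act_zpowers] at h1
  exact ⟨h1.fst_le (Subgroup.mem_zpowers _), eps_eq hm h1⟩

theorem card_eq_sum_ab (hM : IsPModular p M) {B : Set (IrrCharacter G)} (hB : IsPBlock M B)
    {m : FP M G} (hm : NS p ⊤ ((⊥, bl M B) : FP M G) m) (htm : Terminal p ⊤ m)
    (hab : ∀ x ∈ m.1, ∀ y ∈ m.1, x * y = y * x) (U : Finset G) (hUP : ∀ u ∈ U, u ∈ m.1)
    (hU1 : ∀ u ∈ U, ∀ v ∈ U, ∀ t ∈ stabP m, t * u * t⁻¹ = v → u = v)
    (hU2 : ∀ v ∈ m.1, ∃ u ∈ U, ∃ t ∈ stabP m, t * v * t⁻¹ = u) :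
    ∑ u ∈ U, rk p (Subgroup.centralizer ({u} : Set G)) (eps p m u) = Nat.card B := by
  have hpm := hm.2.1
  apply (sum_subs_aux hM hB (eps p m) U
    (fun u hu => NS.bot_of_ge hm (eps_le hpm (hUP u hu))) ?_).2
  · intro v η hη
    obtain ⟨x, _, hx⟩ := Terminal.conj_le hm htm hη
    rw [act_zpowers] at hx
    have hu' : x * v * x⁻¹ ∈ m.1 := hx.fst_le (Subgroup.mem_zpowers _)
    obtain ⟨u, hu, t, ht, htu⟩ := hU2 _ hu'
    refine ⟨u, hu, t * x, ?_, ?_⟩
    · rw [← htu]; group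
    · rw [cj_mul, eps_eq hpm hx, (eps_stab hpm hu' ht).2, htu]
  · intro u hu v hv g hg hgε
    have hx : act g ((Subgroup.zpowers u, eps p m u) : FP M G)
        = (Subgroup.zpowers v, eps p m v) := by
      rw [act_zpowers, hg, hgε]
    obtain ⟨c, hc, hcg⟩ := ab_factor' hM (eps_le hpm (hUP u hu)) (eps_le hpm (hUP v hv)) hpm htm
      hab hx
    apply hU1 u hu v hv (c * g) hcg
    have hcv : c * v = v * c :=
      ((Subgroup.mem_centralizer_iff.1 hc) v (Subgroup.mem_zpowers v)).symm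
    calc c * g * u * (c * g)⁻¹ = c * (g * u * g⁻¹) * c⁻¹ := by group
      _ = v := by rw [hg, hcv]; group

theorem eps_one {β : KG M G} {m : FP M G} (hm : NS p ⊤ ((⊥, β) : FP M G) m) :
    eps p m 1 = β := by
  have h : LE p ⊤ ((Subgroup.zpowers (1 : G), β) : FP M G) m := by
    rw [Subgroup.zpowers_one_eq_bot]; exact hm.le
  exact (eps_eq hm.2.1 h).symm

theorem rk_one {B : Set (IrrCharacter G)} (hB : IsPBlock M B) :
    rk p (Subgroup.centralizer ({(1 : G)} : Set G)) (bl M B) = blockRank p B := by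
  have h1 : Subgroup.centralizer ({(1 : G)} : Set G) = ⊤ := by
    ext g
    simp [Subgroup.mem_centralizer_singleton_iff]
  rw [h1, ← sbl_top B, rk_sbl (isPBlock_preimage _ hB)]
  exact blockRank_preimage p _ B

end

end Cfsg.Agent.Lib.Helper26.BP
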