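import Cfsg.Agent.Lib.Helper26.CtrG
import Cfsg.Agent.Lib.Helper26.CtrH
import Cfsg.Agent.Lib.Helper26.BPIdx
import Cfsg.Agent.S4669

/-!
# Nilpotent blocks with abelian defect groups: `l(B) = 1` and `k(B) = |P|`
-/

set_option autoImplicit false
set_option linter.unusedSectionVars false
set_option linter.unusedVariables false
set_option linter.style.haveILetI false

open Cfsg Cfsg.FusionSystem
open Cfsg.Agent.Lib.Helper7 Cfsg.Agent.Lib.Helper24

namespace Cfsg.Agent.Lib.Helper26.BP

noncomputable section
open Classical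

universe u

theorem blockRank_pos {K : Type u} [Group K] [Finite K] {p : ℕ} (hp : p.Prime)
    {e : Set (IrrCharacter K)} (hne : e.Nonempty) : 0 < blockRank p e := by
  obtain ⟨ξ, hξ⟩ := hne
  rw [blockRank]
  apply Nat.pos_of_ne_zero
  intro h0
  rw [Submodule.finrank_eq_zero] at h0
  have hmem : pRegularPart p (ξ : K → ℂ) ∈ Submodule.span ℂ
      ((fun χ : IrrCharacter K => pRegularPart p (χ : K → ℂ)) '' e) :=
    Submodule.subset_span ⟨ξ, hξ, rfl⟩
  rw [h0, Submodule.mem_bot] at hmem
  have h1 := congrFun hmem 1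
  have h2 : pRegularPart p (ξ : K → ℂ) 1 = (ξ : K → ℂ) 1 :=
    Ctr.pReg_apply_of_reg _ (by rw [orderOf_one, Nat.dvd_one]; exact hp.one_lt.ne')
  rw [h2, ← charDegree_cast (isCharacter_of_irr ξ.2)] at h1
  have h3 := charDegree_pos ξ
  have h4 : (charDegree (ξ : K → ℂ) : ℂ) = 0 := h1
  rw [Nat.cast_eq_zero] at h4
  omega

variable {M : Ideal AlgInt} [M.IsPrime] {p : ℕ} [hp : Fact p.Prime]
variable {G : Type u} [Group G] [Fintype G]
variable [CharP (resField M) p]

/-- the local data attached to an element `u` of an abelian defect group -/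
theorem local_data (hM : IsPModular p M) {B : Set (IrrCharacter G)} {P : Subgroup G}
    {e : Set (IrrCharacter (Subgroup.centralizer (P : Set G)))}
    (hmax : IsMaximalBrauerPair p M B P e) {u : G} (hu : u ∈ P) :
    ∃ f : Set (IrrCharacter (Subgroup.centralizer ((Subgroup.zpowers u : Subgroup G) : Set G))),
      IsPBlock M f ∧ eps p ((P, sbl M _ e) : FP M G) u = sbl M _ f ∧
      SubpairLE p M (Subgroup.zpowers u) f P e ∧ IsBrauerPairOf p M B (Subgroup.zpowers u) f ∧
      IsInducedBlock M _ f B ∧
      rk p (Subgroup.centralizer ({u} : Set G)) (eps p ((P, sbl M _ e) : FP M G) u)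
        = blockRank p f := by
  have hPe := hmax.1.1
  have hB := hmax.1.2.1
  have hm := (isBrauerPairOf_iff hB hPe).1 hmax.1
  have hle := eps_le hm.2.1 (u := u) hu
  have hpa := hle.isPair_left hm.2.1
  obtain ⟨f, hf, hfe⟩ := exists_of_isBlk_cen_top hpa.blk
  have hfe' : eps p ((P, sbl M _ e) : FP M G) u = sbl M _ f := hfe
  have hQf : IsBrauerPair p M (Subgroup.zpowers u) f := ⟨hpa.pg, hf⟩
  have hns := NS.bot_of_ge hm hle
  rw [hfe'] at hle hns
  have hQH : Subgroup.zpowers u
      ≤ Subgroup.centralizer ((Subgroup.zpowers u : Subgroup G) : Set G) := by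
    rw [centralizer_zpowers']
    exact Subgroup.zpowers_le.2 (Subgroup.mem_centralizer_singleton_iff.2 rfl)
  refine ⟨f, hf, hfe', (subpairLE_iff hQf hPe).2 hle, (isBrauerPairOf_iff hB hQf).2 hns,
    (isInducedBlock_iff_ns hM hB hpa.pg hQH rfl hf).2 hns, ?_⟩
  rw [hfe', ← centralizer_zpowers', rk_sbl hf]

theorem stabP_le_of_nil (hM : IsPModular p M) {B : Set (IrrCharacter G)} {P : Subgroup G}
    {e : Set (IrrCharacter (Subgroup.centralizer (P : Set G)))}
    (hmax : IsMaximalBrauerPair p M B P e) (hab : ∀ x ∈ P, ∀ y ∈ P, x * y = y * x)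
    (hnil : IsNilpotentBlock p M B) :
    stabP ((P, sbl M _ e) : FP M G) ≤ Subgroup.centralizer (P : Set G) := by
  intro t ht
  have h1 := mem_stabP_iff.1 ht
  exact (s4687 hM hmax hab).1 hnil t h1.1 ((stabilizesBlock_iff hmax.1.1.2 t).2
    ⟨normalizer_le_normalizer_centralizer _ h1.1, h1.2⟩)

theorem exists_maximal_of_defect (hM : IsPModular p M) {B : Set (IrrCharacter G)}
    (hB : IsPBlock M B) {P : Subgroup G} (hD : IsDefectGroup p M B P) :
    ∃ e : Set (IrrCharacter (Subgroup.centralizer (P : Set G))),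
      IsMaximalBrauerPair p M B P e := by
  have hDef := (isDefectGroup_iff_isDef_top hM hB P).1 hD
  obtain ⟨η, hm, htm⟩ := exists_terminal_of_isDef (isBlk_top_bl hB) hDef
  have hblk : IsBlk M (cen ⊤ P) η := hm.2.1.blk
  obtain ⟨e, he, rfl⟩ := exists_of_isBlk_cen_top hblk
  exact ⟨e, maximal_of_terminal ((isBrauerPairOf_iff hB ⟨hm.2.1.pg, he⟩).2 hm) htm⟩

/-- the count of characters of a nilpotent block with abelian defect group -/
theorem card_eq_sum_nil (hM : IsPModular p M) {B : Set (IrrCharacter G)} {P : Subgroup G}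
    {e : Set (IrrCharacter (Subgroup.centralizer (P : Set G)))}
    (hmax : IsMaximalBrauerPair p M B P e) (hab : ∀ x ∈ P, ∀ y ∈ P, x * y = y * x)
    (hnil : IsNilpotentBlock p M B) :
    ∑ u ∈ (P : Set G).toFinset, rk p (Subgroup.centralizer ({u} : Set G))
      (eps p ((P, sbl M _ e) : FP M G) u) = Nat.card B := by
  have hPe := hmax.1.1
  have hB := hmax.1.2.1
  have hm := (isBrauerPairOf_iff hB hPe).1 hmax.1
  have htm := terminal_of_maximal hmax
  have hst := stabP_le_of_nil hM hmax hab hnil
  apply card_eq_sum_ab hM hB hm htm hab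
  · intro u hu
    simpa using hu
  · intro u hu v _ t ht htu
    have hu' : u ∈ P := by simpa using hu
    have h1 := (Subgroup.mem_centralizer_iff.1 (hst ht)) u hu'
    rw [← htu, ← h1]; group
  · intro v hv
    exact ⟨v, by simpa using hv, 1, Subgroup.one_mem _, by group⟩

theorem rk_eps_pos (hM : IsPModular p M) {B : Set (IrrCharacter G)} {P : Subgroup G}
    {e : Set (IrrCharacter (Subgroup.centralizer (P : Set G)))}
    (hmax : IsMaximalBrauerPair p M B P e) {u : G} (hu : u ∈ P) :
    1 ≤ rk p (Subgroup.centralizer ({u} : Set G)) (eps p ((P, sbl M _ e) : FP M G) u) := by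
  obtain ⟨f, hf, -, -, -, -, hrk⟩ := local_data hM hmax hu
  rw [hrk]
  exact blockRank_pos hp.out (isPBlock_nonempty hf)

theorem rk_eps_one {B : Set (IrrCharacter G)} {P : Subgroup G}
    {e : Set (IrrCharacter (Subgroup.centralizer (P : Set G)))}
    (hmax : IsMaximalBrauerPair p M B P e) :
    rk p (Subgroup.centralizer ({(1 : G)} : Set G)) (eps p ((P, sbl M _ e) : FP M G) 1)
      = blockRank p B := by
  have hB := hmax.1.2.1
  have hm := (isBrauerPairOf_iff hB hmax.1.1).1 hmax.1
  rw [eps_one hm, rk_one hB]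

theorem card_toFinset_subgroup (P : Subgroup G) : (P : Set G).toFinset.card = Nat.card P := by
  rw [Set.toFinset_card, Nat.card_eq_fintype_card]
  rfl

theorem blockDefect_local (hM : IsPModular p M) {B : Set (IrrCharacter G)} (hB : IsPBlock M B)
    {P H : Subgroup G} (hD : IsDefectGroup p M B P) (hPH : P ≤ H) {f : Set (IrrCharacter H)}
    (hf : IsPBlock M f) (hfD : IsDefectGroup p M f ((P ⊓ H).subgroupOf H)) :
    blockDefect p f = blockDefect p B := by
  have h1 := card_defectGroup hM hf hfD
  have h2 := card_defectGroup hM hB hD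
  rw [inf_eq_left.2 hPH, Nat.card_congr (Subgroup.subgroupOfEquivOfLe hPH).toEquiv, h2] at h1
  exact (Nat.pow_right_injective hp.out.two_le h1).symm

end

section induction

universe u

variable {M : Ideal AlgInt} [M.IsPrime] {p : ℕ} [hp : Fact p.Prime] [CharP (resField M) p]

open Classical in
theorem rank_one_aux (hM : IsPModular p M) : ∀ (n : ℕ) (G : Type u) [Group G] [Fintype G],
    Nat.card G ≤ n → ∀ (B : Set (IrrCharacter G)) (P : Subgroup G), IsNilpotentBlock p M B →
      IsDefectGroup p M B P → (∀ x ∈ P, ∀ y ∈ P, x * y = y * x) → blockRank p B = 1 := by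
  intro n
  induction n with
  | zero =>
    intro G _ _ hG
    have := Nat.card_pos (α := G)
    omega
  | succ n ih =>
    intro G _ _ hG B P hnil hD hab
    have hB := hnil.1
    by_cases hPZ : P ≤ Subgroup.center G
    · exact Cfsg.Agent.S4669.result p M hM B hB P hD hPZ
    obtain ⟨u, huP, huZ⟩ := SetLike.not_le_iff_exists.1 hPZ
    obtain ⟨e, hmax⟩ := exists_maximal_of_defect hM hB hD
    obtain ⟨f, hf, hfe, hle, hBP, hind, hrk⟩ := local_data hM hmax huP
    obtain ⟨hfnil, hfdef⟩ := s4688 hM hmax hnil hBP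
    have hfD := hfdef hle
    have hPH : P ≤ Subgroup.centralizer ((Subgroup.zpowers u : Subgroup G) : Set G) :=
      le_centralizer_of_ab hab (Subgroup.zpowers_le.2 huP)
    have hlt : Nat.card (Subgroup.centralizer ((Subgroup.zpowers u : Subgroup G) : Set G))
        < Nat.card G := by
      rw [← Subgroup.card_top (G := G)]
      apply card_lt_of_lt
      rw [lt_top_iff_ne_top]
      intro htop
      apply huZ
      rw [Subgroup.mem_center_iff]
      intro g
      have hg : g ∈ Subgroup.centralizer ((Subgroup.zpowers u : Subgroup G) : Set G) := by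
        rw [htop]; exact Subgroup.mem_top g
      exact ((Subgroup.mem_centralizer_iff.1 hg) u (Subgroup.mem_zpowers u)).symm
    have hf1 : blockRank p f = 1 := by
      apply ih _ (by omega) f _ hfnil hfD
      intro x hx y hy
      apply Subtype.ext
      exact hab _ (Subgroup.mem_subgroupOf.1 hx).1 _ (Subgroup.mem_subgroupOf.1 hy).1
    have hd := blockDefect_local hM hB hD hPH hf hfD
    obtain ⟨k, hk⟩ := IsPGroup.iff_card.1 hBP.1.1
    rw [Nat.card_zpowers] at hk
    have hup := Ctr.card_le_of_rank_one hM ⟨k, hk⟩ (centralizer_zpowers' u) hind hd hf1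
    rw [← card_defectGroup hM hB hD] at hup
    have hcount := card_eq_sum_nil hM hmax hab hnil
    have h1P : (1 : G) ∈ (P : Set G).toFinset := by simp
    rw [← Finset.add_sum_erase _ _ h1P, rk_eps_one hmax] at hcount
    have hlow := Finset.card_nsmul_le_sum ((P : Set G).toFinset.erase 1)
      (fun u => rk p (Subgroup.centralizer ({u} : Set G)) (eps p ((P, sbl M _ e) : FP M G) u)) 1
      (fun v hv => rk_eps_pos hM hmax (by simpa using (Finset.mem_erase.1 hv).2))
    rw [Finset.card_erase_of_mem h1P, card_toFinset_subgroup, smul_eq_mul, mul_one] at hlow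
    have hpos := blockRank_pos hp.out (isPBlock_nonempty hB)
    have hPpos : 0 < Nat.card P := Nat.card_pos
    omega

/-- **A nilpotent block with abelian defect group has exactly one Brauer character.** -/
theorem rank_one_of_nil_ab {G : Type u} [Group G] [Fintype G] (hM : IsPModular p M)
    {B : Set (IrrCharacter G)} {P : Subgroup G} (hnil : IsNilpotentBlock p M B)
    (hD : IsDefectGroup p M B P) (hab : ∀ x ∈ P, ∀ y ∈ P, x * y = y * x) :
    blockRank p B = 1 := rank_one_aux hM _ G le_rfl B P hnil hD hab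

open Classical in
/-- the local blocks of a block with abelian defect group at an element with nilpotent local
block have rank one -/
theorem rk_eps_eq_one_of_nil {G : Type u} [Group G] [Fintype G] (hM : IsPModular p M)
    {B : Set (IrrCharacter G)} {P : Subgroup G}
    {e : Set (IrrCharacter (Subgroup.centralizer (P : Set G)))}
    (hmax : IsMaximalBrauerPair p M B P e) (hab : ∀ x ∈ P, ∀ y ∈ P, x * y = y * x)
    (hnil : IsNilpotentBlock p M B) {u : G} (hu : u ∈ P) :
    rk p (Subgroup.centralizer ({u} : Set G)) (eps p ((P, sbl M _ e) : FP M G) u) = 1 := by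
  obtain ⟨f, hf, hfe, hle, hBP, hind, hrk⟩ := local_data hM hmax hu
  obtain ⟨hfnil, hfdef⟩ := s4688 hM hmax hnil hBP
  rw [hrk]
  apply rank_one_of_nil_ab hM hfnil (hfdef hle)
  intro x hx y hy
  apply Subtype.ext
  exact hab _ (Subgroup.mem_subgroupOf.1 hx).1 _ (Subgroup.mem_subgroupOf.1 hy).1

open Classical in
/-- **A nilpotent block with abelian defect group `P` has exactly `|P|` characters.** -/
theorem card_of_nil_ab {G : Type u} [Group G] [Fintype G] (hM : IsPModular p M)
    {B : Set (IrrCharacter G)} {P : Subgroup G} (hnil : IsNilpotentBlock p M B)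
    (hD : IsDefectGroup p M B P) (hab : ∀ x ∈ P, ∀ y ∈ P, x * y = y * x) :
    Nat.card B = Nat.card P := by
  obtain ⟨e, hmax⟩ := exists_maximal_of_defect hM hnil.1 hD
  rw [← card_eq_sum_nil hM hmax hab hnil, Finset.sum_congr rfl (fun u hu =>
    rk_eps_eq_one_of_nil hM hmax hab hnil (u := u) (by simpa using hu)), Finset.sum_const,
    card_toFinset_subgroup, smul_eq_mul, mul_one]

end induction

end Cfsg.Agent.Lib.Helper26.BP
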