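import Cfsg.Agent.Lib.Helper26.CtrI
import Cfsg.Agent.Lib.Helper26.BPApp2
import Cfsg.Agent.Lib.Helper7.BlockHK

/-!
# Local blocks of a block with abelian defect group
-/

set_option autoImplicit false
set_option linter.unusedSectionVars false
set_option linter.unusedVariables false
set_option linter.style.haveILetI false

open Cfsg Cfsg.FusionSystem
open Cfsg.Agent.Lib.Helper7 Cfsg.Agent.Lib.Helper24

namespace Cfsg.Agent.Lib.Helper26.BP

noncomputable section
open Classical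

universe u
variable {M : Ideal AlgInt} [M.IsPrime] {p : ℕ} [hp : Fact p.Prime]
variable {G : Type u} [Group G] [Fintype G]
variable [CharP (resField M) p]

theorem emb_sbl_tower {K N : Subgroup G} (hKN : K ≤ N) (e : Set (IrrCharacter K)) :
    emb N (sbl M (K.subgroupOf N) (towerBlock hKN e)) = sbl M K e := by
  ext g
  by_cases hg : g ∈ K
  · have hgN := hKN hg
    have hgK : (⟨g, hgN⟩ : N) ∈ K.subgroupOf N := Subgroup.mem_subgroupOf.2 hg
    rw [emb_of_mem _ _ hgN, sbl, sbl, red_apply, red_apply, subgroupBlockCoeff_of_mem _ _ hgK,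
      subgroupBlockCoeff_of_mem _ _ hg, blockCoeff_blockComap]
    rfl
  · have e1 : sbl M K e g = 0 := by
      rw [sbl, red_apply, subgroupBlockCoeff_of_not_mem _ _ hg, resC_zero]
    rw [e1]
    by_cases hgN : g ∈ N
    · have hgK : (⟨g, hgN⟩ : N) ∉ K.subgroupOf N := fun h => hg (Subgroup.mem_subgroupOf.1 h)
      rw [emb_of_mem _ _ hgN, sbl, red_apply, subgroupBlockCoeff_of_not_mem _ _ hgK, resC_zero]
    · rw [emb_of_not_mem _ _ hgN]

theorem ind_of_isInducedBlockIn {K N : Subgroup G} (hKN : K ≤ N) {e : Set (IrrCharacter K)}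
    {d : Set (IrrCharacter N)} (h : IsInducedBlockIn M N K e d) :
    Ind K (sbl M N d) (sbl M K e) := by
  obtain ⟨w, hws, hwi, hw⟩ := ind_of_isInducedBlock (isInducedBlock_of_isInducedBlockIn hKN h)
  refine ⟨emb N w, ?_, ?_, ?_⟩
  · intro g hg
    by_cases hgN : g ∈ N
    · rw [emb_of_mem _ _ hgN]
      exact hws ⟨g, hgN⟩ (fun h => hg (Subgroup.mem_subgroupOf.1 h))
    · rw [emb_of_not_mem _ _ hgN]
  · intro x hx
    have h1 := cj_emb N (⟨x, hKN hx⟩ : N) w
    have h2 := hwi ⟨x, hKN hx⟩ (Subgroup.mem_subgroupOf.2 hx)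
    rw [h2] at h1
    exact h1
  · rw [← emb_sbl_tower hKN e, ← hw, emb_mul]
    congr 1
    rw [sbl_eq_emb]
    ext g
    by_cases hgN : g ∈ N
    · rw [emb_of_mem _ _ hgN]
      by_cases hg : g ∈ K
      · rw [tr_of_mem _ hg, emb_of_mem _ _ hgN,
          tr_of_mem _ (show (⟨g, hgN⟩ : N) ∈ K.subgroupOf N from Subgroup.mem_subgroupOf.2 hg)]
      · rw [tr_of_not_mem _ hg,
          tr_of_not_mem _ (show (⟨g, hgN⟩ : N) ∉ K.subgroupOf N from
            fun h => hg (Subgroup.mem_subgroupOf.1 h))]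
    · rw [emb_of_not_mem _ _ hgN, tr_of_not_mem _ (fun h => hgN (hKN h))]

theorem ns_of_isInducedBlockIn {Q P : Subgroup G} (hQP : Q ≤ P) (hP : IsPGroup p P)
    (hab : ∀ x ∈ P, ∀ y ∈ P, x * y = y * x)
    {c : Set (IrrCharacter (Subgroup.centralizer (P : Set G)))}
    {f : Set (IrrCharacter (Subgroup.centralizer (Q : Set G)))}
    (h : IsInducedBlockIn M (Subgroup.centralizer (Q : Set G))
      (Subgroup.centralizer (P : Set G)) c f) :
    NS p ⊤ ((Q, sbl M _ f) : FP M G) (P, sbl M _ c) := by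
  have hKN : Subgroup.centralizer (P : Set G) ≤ Subgroup.centralizer (Q : Set G) :=
    Subgroup.centralizer_le (by exact_mod_cast hQP)
  have hQ : IsPGroup p Q := hP.to_le hQP
  have hpQ := isPair_of_isBrauerPair (p := p) (⟨hQ, h.2.1⟩ : IsBrauerPair p M Q f)
  have hpP := isPair_of_isBrauerPair (p := p) (⟨hP, h.1⟩ : IsBrauerPair p M P c)
  have hPC := le_centralizer_of_ab hab hQP
  have hinv : Inv P (sbl M _ f) := (isBlk_sbl h.2.1).inv.mono hPC
  refine ⟨hpQ, hpP, hQP, hPC.trans (centralizer_le_normalizer' Q), hinv, ?_⟩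
  obtain ⟨w, -, -, hw⟩ := ind_of_isInducedBlockIn hKN h
  show br P (sbl M _ f) * sbl M _ c = sbl M _ c
  have hid := br_idem hP hinv (isBlk_sbl h.2.1).idem
  have hw' : br P (sbl M _ f) * w = sbl M _ c := hw
  rw [← hw', ← mul_assoc, hid]

/-- the local block at `a₀ ≤ m` is nilpotent if the stabilizer of `m` meets `C(a₀)` in `C(m)` -/
theorem relNil_of_ab (hM : IsPModular p M) {β : KG M G} {a₀ m : FP M G}
    (hm : NS p ⊤ ((⊥, β) : FP M G) m) (htm : Terminal p ⊤ m)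
    (hab : ∀ x ∈ m.1, ∀ y ∈ m.1, x * y = y * x) (h0 : LE p ⊤ a₀ m)
    (hfree : stabP m ⊓ Subgroup.centralizer (a₀.1 : Set G) ≤ Subgroup.centralizer (m.1 : Set G)) :
    RelNil p (Subgroup.centralizer (a₀.1 : Set G)) a₀.2 := by
  intro b hb x hxC hxb hreg
  have hpa := h0.isPair_left hm.2.1
  have h1 := NS.sup_of_cen hpa hb
  have hxb' := mem_stabP_iff.1 hxb
  have h3 : x ∈ stabP ((a₀.1 ⊔ b.1, b.2) : FP M G) := by
    rw [mem_stabP_iff]
    refine ⟨?_, hxb'.2⟩
    rw [← cjS_eq_self_iff]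
    show (a₀.1 ⊔ b.1).map _ = a₀.1 ⊔ b.1
    rw [Subgroup.map_sup]
    have e1 : cjS x a₀.1 = a₀.1 := cjS_eq_self_iff.2 (centralizer_le_normalizer' _ hxC)
    have e2 : cjS x b.1 = b.1 := cjS_eq_self_iff.2 hxb'.1
    exact congrArg₂ (· ⊔ ·) e1 e2
  obtain ⟨m', hle', htm'⟩ := exists_terminal_ge h1.2.1
  have hβa₀ := NS.bot_of_ge hm h0
  have hβm' : NS p ⊤ ((⊥, β) : FP M G) m' := NS.bot_of_le hβa₀ (h1.le.trans hle')
  obtain ⟨g, -, hg⟩ := Terminal.conj hm htm hβm' htm'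
  have h4 : LE p ⊤ (act g a₀) m := by
    have := (h1.le.trans hle').act (x := g) (Subgroup.mem_top g)
    rwa [hg] at this
  obtain ⟨c, hc, hcg⟩ := ab_factor' hM h4 h0 hm.2.1 htm hab (x := g⁻¹)
    (by rw [← act_mul, inv_mul_cancel, act_one])
  have h5 : LE p ⊤ (act c ((a₀.1 ⊔ b.1, b.2) : FP M G)) m := by
    have e1 := hle'.act (x := g) (Subgroup.mem_top g)
    rw [hg] at e1
    have e2 := e1.act (x := c * g⁻¹) (Subgroup.mem_top _)
    rw [mem_stabP.1 hcg, ← act_mul] at e2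
    simpa [mul_assoc] using e2
  have hx' : c * x * c⁻¹ ∈ stabP (act c ((a₀.1 ⊔ b.1, b.2) : FP M G)) := by
    rw [stabP_act, mem_cjS]
    simpa [mul_assoc] using h3
  obtain ⟨c', hc', hcx⟩ := ab_factor hM h5 hm.2.1 htm hab hx'
  have hsub : a₀.1 ≤ (act c ((a₀.1 ⊔ b.1, b.2) : FP M G)).1 := by
    have e1 : cjS c a₀.1 = a₀.1 := cjS_eq_self_iff.2 (centralizer_le_normalizer' _ hc)
    calc a₀.1 = cjS c a₀.1 := e1.symm
      _ ≤ cjS c (a₀.1 ⊔ b.1) := cjS_mono le_sup_left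
  have hc'C : c' ∈ Subgroup.centralizer (a₀.1 : Set G) :=
    Subgroup.centralizer_le (by exact_mod_cast hsub) hc'
  have hmemC : c' * (c * x * c⁻¹) ∈ Subgroup.centralizer (a₀.1 : Set G) :=
    Subgroup.mul_mem _ hc'C (Subgroup.mul_mem _ (Subgroup.mul_mem _ hc hxC) (Subgroup.inv_mem _ hc))
  have h6 := hfree ⟨hcx, hmemC⟩
  have h7 : c' * (c * x * c⁻¹)
      ∈ Subgroup.centralizer ((act c ((a₀.1 ⊔ b.1, b.2) : FP M G)).1 : Set G) :=
    Subgroup.centralizer_le (by exact_mod_cast h5.fst_le) h6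
  have h8 : c * x * c⁻¹
      ∈ Subgroup.centralizer ((act c ((a₀.1 ⊔ b.1, b.2) : FP M G)).1 : Set G) := by
    have := Subgroup.mul_mem _ (Subgroup.inv_mem _ hc') h7
    simpa using this
  rw [act_fst, ← cjS_centralizer, mem_cjS] at h8
  have h9 : x ∈ Subgroup.centralizer ((a₀.1 ⊔ b.1 : Subgroup G) : Set G) := by
    simpa [mul_assoc] using h8
  exact Subgroup.centralizer_le (by exact_mod_cast (le_sup_right : b.1 ≤ a₀.1 ⊔ b.1)) h9

/-- for abelian `P`, the local block at `a ≤ m` has defect group `P` -/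
theorem isDef_of_ab {β : KG M G} {a m : FP M G} (hm : NS p ⊤ ((⊥, β) : FP M G) m)
    (htm : Terminal p ⊤ m) (hab : ∀ x ∈ m.1, ∀ y ∈ m.1, x * y = y * x) (ha : LE p ⊤ a m) :
    IsDef p (Subgroup.centralizer (a.1 : Set G)) a.2 m.1 := by
  have h1 := (isDef_iff_forall_card_le hm htm ha Kcen Kcen_le_stabP
    (fun _ => le_top) (fun x _ b => Kcen_act x b)).2 (by
      intro x _ hx
      have e1 : m.1 ⊓ Kcen a = m.1 := inf_eq_left.2 (le_centralizer_of_ab hab ha.fst_le)
      rw [e1]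
      exact Nat.card_le_card_of_injective _ (Subgroup.inclusion_injective inf_le_left))
  have e1 : m.1 ⊓ Kcen a = m.1 := inf_eq_left.2 (le_centralizer_of_ab hab ha.fst_le)
  rw [e1] at h1
  exact h1

/-- summary: the block `f` of `C_G(Q)` below `(P, c)`, `P` abelian, under the freeness
hypothesis at `Q`, is nilpotent of rank one -/
theorem local_nil (hM : IsPModular p M) {β : KG M G} {Q P : Subgroup G}
    {c : Set (IrrCharacter (Subgroup.centralizer (P : Set G)))}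
    {f : Set (IrrCharacter (Subgroup.centralizer (Q : Set G)))} (hf : IsPBlock M f)
    (hm : NS p ⊤ ((⊥, β) : FP M G) (P, sbl M _ c)) (htm : Terminal p ⊤ ((P, sbl M _ c) : FP M G))
    (hab : ∀ x ∈ P, ∀ y ∈ P, x * y = y * x)
    (h0 : LE p ⊤ ((Q, sbl M _ f) : FP M G) (P, sbl M _ c))
    (hfree : stabP ((P, sbl M _ c) : FP M G) ⊓ Subgroup.centralizer (Q : Set G)
      ≤ Subgroup.centralizer (P : Set G)) :
    IsNilpotentBlock p M f ∧ blockRank p f = 1 ∧ Nat.card f = Nat.card P ∧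
      IsDefectGroup p M f (P.subgroupOf (Subgroup.centralizer (Q : Set G))) := by
  have hnil : IsNilpotentBlock p M f :=
    isNilpotentBlock_of_relNil hf (relNil_of_ab hM hm htm hab h0 hfree)
  have hPC : P ≤ Subgroup.centralizer (Q : Set G) := le_centralizer_of_ab hab h0.fst_le
  have hD : IsDefectGroup p M f (P.subgroupOf (Subgroup.centralizer (Q : Set G))) :=
    (isDefectGroup_subgroupOf_iff hM hf hPC).2 (isDef_of_ab hm htm hab h0)
  have hab' : ∀ x ∈ P.subgroupOf (Subgroup.centralizer (Q : Set G)),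
      ∀ y ∈ P.subgroupOf (Subgroup.centralizer (Q : Set G)), x * y = y * x := by
    intro x hx y hy
    apply Subtype.ext
    exact hab _ (Subgroup.mem_subgroupOf.1 hx) _ (Subgroup.mem_subgroupOf.1 hy)
  refine ⟨hnil, rank_one_of_nil_ab hM hnil hD hab', ?_, hD⟩
  rw [card_of_nil_ab hM hnil hD hab', Nat.card_congr (Subgroup.subgroupOfEquivOfLe hPC).toEquiv]

end

end Cfsg.Agent.Lib.Helper26.BP
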