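import Mathlib

/-!
# `p'`-elements acting on cyclic `p`-groups
-/

set_option autoImplicit false
set_option linter.unusedSectionVars false

namespace Cfsg.Agent.Lib.Helper26.CycAct

variable {G : Type*} [Group G] [Finite G] {p : ℕ} [hp : Fact p.Prime]

theorem conj_pow_gen {y g : G} {k : ℕ} (h : y * g * y⁻¹ = g ^ k) (i : ℕ) :
    y ^ i * g * (y ^ i)⁻¹ = g ^ (k ^ i) := by
  induction i with
  | zero => simp
  | succ i ih =>
    have : y ^ (i + 1) * g * (y ^ (i + 1))⁻¹ = y * (y ^ i * g * (y ^ i)⁻¹) * y⁻¹ := by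
      rw [pow_succ']; group
    rw [this, ih, ← conj_pow, h, ← pow_mul, pow_succ']

/-- a `p'`-element normalizing a cyclic `p`-group and centralizing a nontrivial element of it
centralizes the whole group -/
theorem centralizes_cyclic {P : Subgroup G} (hP : IsPGroup p P) (hcyc : IsCyclic P) {y x : G}
    (hyN : y ∈ Subgroup.normalizer (P : Set G)) (hreg : ¬ p ∣ orderOf y) (hx : x ∈ P)
    (hx1 : x ≠ 1) (hyx : y * x * y⁻¹ = x) : y ∈ Subgroup.centralizer (P : Set G) := by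
  obtain ⟨g₀, hg₀⟩ := hcyc.exists_generator
  obtain ⟨n, hn⟩ := IsPGroup.iff_card.1 hP
  have hN : orderOf (g₀ : G) = p ^ n := by
    rw [Subgroup.orderOf_coe, orderOf_eq_card_of_forall_mem_zpowers hg₀, hn]
  have hgen : ∀ z ∈ P, ∃ a : ℕ, (g₀ : G) ^ a = z := by
    intro z hz
    have h1 := hg₀ ⟨z, hz⟩
    rw [← mem_powers_iff_mem_zpowers] at h1
    obtain ⟨a, ha⟩ := h1
    exact ⟨a, by simpa using congrArg Subtype.val ha⟩
  obtain ⟨k, hk⟩ := hgen _ ((Subgroup.mem_normalizer_iff.1 hyN (g₀ : G)).1 g₀.2)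
  have hk' : y * (g₀ : G) * y⁻¹ = (g₀ : G) ^ k := hk.symm
  obtain ⟨a, ha⟩ := hgen x hx
  have h1 : k ^ orderOf y ≡ 1 [MOD p ^ n] := by
    rw [← hN, ← pow_eq_pow_iff_modEq, ← conj_pow_gen hk', pow_orderOf_eq_one]
    simp
  have h2 : k * a ≡ a [MOD p ^ n] := by
    rw [← hN, ← pow_eq_pow_iff_modEq, pow_mul, ← hk', conj_pow, ha, hyx]
  have h3 : ¬ p ^ n ∣ a := by
    intro hd
    apply hx1
    rw [← ha, ← hN] at *
    exact orderOf_dvd_iff_pow_eq_one.1 hd
  have h4 : (p : ℤ) ∣ (k : ℤ) - 1 := by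
    by_contra hnd
    have hc : IsCoprime ((p : ℤ) ^ n) ((k : ℤ) - 1) :=
      ((Nat.prime_iff_prime_int.1 hp.out).irreducible.coprime_iff_not_dvd.2 hnd).pow_left
    have hd : ((p : ℤ) ^ n) ∣ ((k : ℤ) - 1) * a := by
      have := (Nat.modEq_iff_dvd.1 h2.symm)
      push_cast at this
      have e : ((k : ℤ) - 1) * a = (k : ℤ) * a - a := by ring
      rw [e]; exact this
    have := hc.dvd_of_dvd_mul_left hd
    apply h3
    exact_mod_cast this
  have h5 : ((k : ZMod (p ^ n))) ^ (p ^ n) = 1 := by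
    have e1 := dvd_sub_pow_of_dvd_sub h4 n
    have e2 : ((p ^ n : ℕ) : ℤ) ∣ (k : ℤ) ^ p ^ n - 1 := by
      rw [one_pow] at e1
      refine dvd_trans ?_ e1
      push_cast
      exact pow_dvd_pow _ (Nat.le_succ n)
    have e3 := (ZMod.intCast_zmod_eq_zero_iff_dvd _ (p ^ n)).2 e2
    push_cast at e3
    exact sub_eq_zero.1 e3
  have h6 : ((k : ZMod (p ^ n))) ^ orderOf y = 1 := by
    have := (ZMod.natCast_eq_natCast_iff _ _ _).2 h1
    push_cast at this
    exact this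
  have h7 : (k : ZMod (p ^ n)) = 1 := by
    rw [← orderOf_eq_one_iff, ← Nat.dvd_one]
    have hc : Nat.Coprime (orderOf y) (p ^ n) :=
      Nat.Coprime.pow_right n ((Nat.Prime.coprime_iff_not_dvd hp.out).2 hreg).symm
    rw [← hc]
    exact Nat.dvd_gcd (orderOf_dvd_of_pow_eq_one h6) (orderOf_dvd_of_pow_eq_one h5)
  have h8 : k ≡ 1 [MOD p ^ n] := by
    rw [← ZMod.natCast_eq_natCast_iff]
    push_cast
    exact h7
  have h9 : y * (g₀ : G) * y⁻¹ = (g₀ : G) := by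
    rw [hk']
    conv_rhs => rw [← pow_one (g₀ : G)]
    rw [pow_eq_pow_iff_modEq, hN]
    exact h8
  rw [Subgroup.mem_centralizer_iff]
  intro z hz
  obtain ⟨b, rfl⟩ := hgen z hz
  have h10 : y * (g₀ : G) ^ b * y⁻¹ = (g₀ : G) ^ b := by rw [← conj_pow, h9]
  calc (g₀ : G) ^ b * y = y * (g₀ : G) ^ b * y⁻¹ * y := by rw [h10]
    _ = y * (g₀ : G) ^ b := by group

/-- subgroups of a cyclic group are normalized by everything normalizing the group -/
theorem normalizer_le_of_cyclic {P Q : Subgroup G} (hcyc : IsCyclic P) (hQP : Q ≤ P) :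
    Subgroup.normalizer (P : Set G) ≤ Subgroup.normalizer (Q : Set G) := by
  obtain ⟨g₀, hg₀⟩ := hcyc.exists_generator
  have hgen : ∀ z ∈ P, ∃ a : ℕ, (g₀ : G) ^ a = z := by
    intro z hz
    have h1 := hg₀ ⟨z, hz⟩
    rw [← mem_powers_iff_mem_zpowers] at h1
    obtain ⟨a, ha⟩ := h1
    exact ⟨a, by simpa using congrArg Subtype.val ha⟩
  have key : ∀ t ∈ Subgroup.normalizer (P : Set G), ∀ q ∈ Q, t * q * t⁻¹ ∈ Q := by
    intro t ht q hq
    obtain ⟨k, hk⟩ := hgen _ ((Subgroup.mem_normalizer_iff.1 ht (g₀ : G)).1 g₀.2)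
    obtain ⟨a, rfl⟩ := hgen q (hQP hq)
    have : t * (g₀ : G) ^ a * t⁻¹ = ((g₀ : G) ^ a) ^ k := by
      rw [← conj_pow, ← hk, ← pow_mul, ← pow_mul, mul_comm]
    rw [this]
    exact Q.pow_mem hq k
  intro t ht
  rw [Subgroup.mem_normalizer_iff]
  intro h
  refine ⟨key t ht h, fun hh => ?_⟩
  have := key t⁻¹ (Subgroup.inv_mem _ ht) _ hh
  simpa [mul_assoc] using this

end Cfsg.Agent.Lib.Helper26.CycAct
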