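import Cfsg.Agent.Lib.Helper26.CtrJ
import Cfsg.Agent.Lib.Helper26.CycAct

/-!
# Blocks with cyclic defect groups: the local blocks
-/

set_option autoImplicit false
set_option linter.unusedSectionVars false
set_option linter.unusedVariables false
set_option linter.style.haveILetI false

open Cfsg Cfsg.FusionSystem
open Cfsg.Agent.Lib.Helper7 Cfsg.Agent.Lib.Helper24

namespace Cfsg.Agent.Lib.Helper26.BP

noncomputable section
open Classical

universe u
variable {M : Ideal AlgInt} [M.IsPrime] {p : ℕ} [hp : Fact p.Prime]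
variable {G : Type u} [Group G] [Fintype G]
variable [CharP (resField M) p]

/-- the maximal pair attached to a root `c` of a block with abelian defect group -/
theorem setup_ab (hM : IsPModular p M) {B : Set (IrrCharacter G)} (hB : IsPBlock M B)
    {P : Subgroup G} (hPD : IsDefectGroup p M B P) (hab : ∀ x ∈ P, ∀ y ∈ P, x * y = y * x)
    {c : Set (IrrCharacter (Subgroup.centralizer (P : Set G)))}
    (hc : IsInducedBlock M (Subgroup.centralizer (P : Set G)) c B) :
    IsPGroup p P ∧ NS p ⊤ ((⊥, bl M B) : FP M G) (P, sbl M _ c) ∧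
      Terminal p ⊤ ((P, sbl M _ c) : FP M G) := by
  have hDef := (isDefectGroup_iff_isDef_top hM hB P).1 hPD
  have hm := (isInducedBlock_iff_ns hM hB hDef.2.1 (le_centralizer_of_ab hab le_rfl) rfl hc.1).1 hc
  exact ⟨hDef.2.1, hm, terminal_top_of_isDef hDef hm⟩

theorem ab_of_cyclic {P : Subgroup G} (hcyc : IsCyclic P) : ∀ x ∈ P, ∀ y ∈ P, x * y = y * x := by
  intro x hx y hy
  letI := IsCyclic.commGroup (α := P)
  exact congrArg Subtype.val (mul_comm (⟨x, hx⟩ : P) ⟨y, hy⟩)

/-- the inertial group acts freely on a cyclic defect group -/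
theorem free_of_cyclic (hM : IsPModular p M) {β : KG M G} {m : FP M G}
    (hm : NS p ⊤ ((⊥, β) : FP M G) m) (htm : Terminal p ⊤ m) (hcyc : IsCyclic m.1) {t x : G}
    (ht : t ∈ stabP m) (hx : x ∈ m.1) (hx1 : x ≠ 1) (htx : t * x * t⁻¹ = x) :
    t ∈ Subgroup.centralizer (m.1 : Set G) := by
  have hab := ab_of_cyclic hcyc
  have hz : Subgroup.zpowers t ≤ stabP m := by rwa [Subgroup.zpowers_le]
  have hzx : Subgroup.zpowers t ≤ Subgroup.centralizer ({x} : Set G) := by
    rw [Subgroup.zpowers_le, Subgroup.mem_centralizer_singleton_iff]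
    calc t * x = t * x * t⁻¹ * t := by group
      _ = x * t := by rw [htx]
  refine mem_of_parts (p := p) (fun y hy hreg => ?_) (fun U hU hUp => ?_)
  · have hyx : y * x * y⁻¹ = x := by
      have := Subgroup.mem_centralizer_singleton_iff.1 (hzx hy)
      rw [this]; group
    exact CycAct.centralizes_cyclic hm.2.1.pg hcyc (stabP_le_normalizer m (hz hy)) hreg hx hx1 hyx
  · exact (htm.pgroup_le hM hm hUp (hU.trans hz)).trans
      (sup_le (le_centralizer_of_ab hab le_rfl) le_rfl)

theorem s4645 (hM : IsPModular p M) {B : Set (IrrCharacter G)} (hB : IsPBlock M B)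
    {P : Subgroup G} (hPD : IsDefectGroup p M B P) (hcyc : IsCyclic P)
    {c : Set (IrrCharacter (Subgroup.centralizer (P : Set G)))}
    (hc : IsInducedBlock M (Subgroup.centralizer (P : Set G)) c B) {T : Subgroup G}
    (hT : ∀ g : G, g ∈ T ↔ (g ∈ Subgroup.normalizer (P : Set G) ∧
      StabilizesBlock (Subgroup.centralizer (P : Set G)) c g))
    {Q : Subgroup G} (hQP : Q ≤ P) (hQ1 : Q ≠ ⊥)
    {f : Set (IrrCharacter (Subgroup.centralizer (Q : Set G)))}
    (hf : IsInducedBlockIn M (Subgroup.centralizer (Q : Set G))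
      (Subgroup.centralizer (P : Set G)) c f) {T' : Subgroup G}
    (hT' : ∀ g : G, g ∈ T' ↔ (g ∈ Subgroup.normalizer (Q : Set G) ∧
      StabilizesBlock (Subgroup.centralizer (Q : Set G)) f g)) :
    T' = T ⊔ Subgroup.centralizer (Q : Set G) ∧
      (Subgroup.centralizer (Q : Set G)).relIndex T'
        = (Subgroup.centralizer (P : Set G)).relIndex T ∧
      blockRank p f = 1 ∧ IsNilpotentBlock p M f := by
  have hab := ab_of_cyclic hcyc
  obtain ⟨hPp, hm, htm⟩ := setup_ab hM hB hPD hab hc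
  have h0 := ns_of_isInducedBlockIn hQP hPp hab hf
  have eT := eq_stabP hc.1 hT
  have eT' := eq_stabP hf.2.1 hT'
  obtain ⟨x, hxQ, hx1⟩ : ∃ x : G, x ∈ Q ∧ x ≠ 1 := by
    obtain ⟨x, hx⟩ := Subgroup.ne_bot_iff_exists_ne_one.1 hQ1
    exact ⟨x, x.2, fun h => hx (Subtype.ext h)⟩
  have hfree : stabP ((P, sbl M _ c) : FP M G) ⊓ Subgroup.centralizer (Q : Set G)
      ≤ Subgroup.centralizer (P : Set G) := by
    intro t ht
    apply free_of_cyclic hM hm htm hcyc ht.1 (hQP hxQ) hx1
    have := (Subgroup.mem_centralizer_iff.1 ht.2) x hxQ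
    rw [← this]; group
  obtain ⟨hnil, hrk, -, -⟩ := local_nil hM hf.2.1 hm htm hab h0.le hfree
  have hpa := h0.1
  have hCT' : Subgroup.centralizer (Q : Set G) ≤ T' := by
    have := hpa.cen_le_stabP
    rwa [cen_top, ← eT'] at this
  have hTT' : T ≤ T' := by
    rw [eT, eT']
    refine le_trans (le_inf le_rfl ?_) (inf_normalizer_le_stabP_of_le h0.le)
    exact (stabP_le_normalizer _).trans (CycAct.normalizer_le_of_cyclic hcyc hQP)
  have key : ∀ x ∈ T', ∃ y ∈ T, ∃ c ∈ Subgroup.centralizer (Q : Set G), x = y * c := by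
    intro x hx
    have hx' : x⁻¹ ∈ stabP ((Q, sbl M _ f) : FP M G) := by
      rw [← eT']; exact T'.inv_mem hx
    obtain ⟨c, hc, hcx⟩ := ab_factor hM h0.le hm.2.1 htm hab hx'
    refine ⟨(c * x⁻¹)⁻¹, ?_, c, hc, by group⟩
    rw [eT]; exact Subgroup.inv_mem _ hcx
  refine ⟨?_, ?_, hrk, hnil⟩
  · apply le_antisymm
    · intro x hx
      obtain ⟨y, hy, c, hc, rfl⟩ := key x hx
      exact Subgroup.mul_mem _ (Subgroup.mem_sup_left hy) (Subgroup.mem_sup_right hc)
    · exact sup_le hTT' hCT'
  · have hTN : T' ≤ Subgroup.normalizer (Q : Set G) := fun y hy => ((hT' y).1 hy).1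
    rw [relIndex_of_factor hTT' hCT' (hTN.trans (normalizer_le_normalizer_centralizer Q)) key,
      ← Subgroup.inf_relIndex_right]
    congr 1
    apply le_antisymm
    · intro t ht
      exact hfree ⟨eT ▸ ht.2, ht.1⟩
    · refine le_inf (Subgroup.centralizer_le (by exact_mod_cast hQP)) ?_
      have := hm.2.1.cen_le_stabP
      rwa [cen_top, ← eT] at this

end

end Cfsg.Agent.Lib.Helper26.BP
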