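import Cfsg.Agent.Lib.Helper26.CtrK

/-!
# Blocks with Klein four defect groups
-/

set_option autoImplicit false
set_option linter.unusedSectionVars false
set_option linter.unusedVariables false
set_option linter.style.haveILetI false

open Cfsg Cfsg.FusionSystem
open Cfsg.Agent.Lib.Helper7 Cfsg.Agent.Lib.Helper24
open scoped ComplexConjugate

namespace Cfsg.Agent.Lib.Helper26.BP

noncomputable section
open Classical

universe u

theorem klein_aut {V : Type*} [Group V] [IsKleinFour V] (α : MulAut V) {x : V} (hx : x ≠ 1)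
    (hαx : α x = x) : α ^ 2 = 1 := by
  ext z
  show (α ^ 2) z = z
  rw [pow_two, MulAut.mul_apply]
  by_cases hz1 : z = 1
  · subst hz1; simp
  by_cases hzx : z = x
  · subst hzx; rw [hαx, hαx]
  by_cases hw : α z = z
  · rw [hw, hw]
  have hw1 : α z ≠ 1 := fun h => hz1 (by simpa using h)
  have hwx : α z ≠ x := fun h => hzx (α.injective (h.trans hαx.symm))
  have h1 : α z = x * z := IsKleinFour.eq_mul_of_ne_all hx hz1 (Ne.symm hzx) hw1 hwx hw
  rw [h1, map_mul, hαx, h1, ← mul_assoc, IsKleinFour.mul_self, one_mul]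

variable {G : Type u} [Group G] [Fintype G]

theorem ab_of_klein {P : Subgroup G} (hV : IsKleinFour P) : ∀ x ∈ P, ∀ y ∈ P, x * y = y * x := by
  intro x hx y hy
  have := (IsKleinFour.isMulCommutative (G := P)).is_comm.comm (⟨x, hx⟩ : P) ⟨y, hy⟩
  exact congrArg Subtype.val this

/-- an element of odd order normalizing a four-group and fixing a nontrivial element of it
centralizes it -/
theorem klein_regular {P : Subgroup G} (hV : IsKleinFour P) {y x : G}
    (hyN : y ∈ Subgroup.normalizer (P : Set G)) (hreg : IsPRegular 2 y) (hx : x ∈ P) (hx1 : x ≠ 1)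
    (hyx : y * x * y⁻¹ = x) : y ∈ Subgroup.centralizer (P : Set G) := by
  set α := P.normalizerMonoidHom ⟨y, hyN⟩ with hα
  have h1 : α ⟨x, hx⟩ = ⟨x, hx⟩ := Subtype.ext hyx
  have h2 := klein_aut α (x := ⟨x, hx⟩) (fun h => hx1 (congrArg Subtype.val h)) h1
  have h3 : α ^ orderOf y = 1 := by
    rw [hα, ← map_pow]
    have : (⟨y, hyN⟩ : Subgroup.normalizer (P : Set G)) ^ orderOf y = 1 := by
      apply Subtype.ext
      simp [pow_orderOf_eq_one]
    rw [this, map_one]
  have h4 : α = 1 := by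
    rw [← orderOf_eq_one_iff, ← Nat.dvd_one]
    have hc : Nat.Coprime (orderOf y) 2 :=
      ((Nat.Prime.coprime_iff_not_dvd Nat.prime_two).2 hreg).symm
    rw [← hc]
    exact Nat.dvd_gcd (orderOf_dvd_of_pow_eq_one h3) (orderOf_dvd_of_pow_eq_one h2)
  exact (normalizerMonoidHom_eq_one_iff ⟨y, hyN⟩).1 h4

theorem klein_free {P T : Subgroup G} (hV : IsKleinFour P)
    (hTN : T ≤ Subgroup.normalizer (P : Set G))
    (h2 : ∀ U : Subgroup G, U ≤ T → IsPGroup 2 U → U ≤ Subgroup.centralizer (P : Set G))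
    {t x : G} (ht : t ∈ T) (hx : x ∈ P) (hx1 : x ≠ 1) (htx : t * x * t⁻¹ = x) :
    t ∈ Subgroup.centralizer (P : Set G) := by
  haveI : Fact (Nat.Prime 2) := ⟨Nat.prime_two⟩
  have hz : Subgroup.zpowers t ≤ T := by rwa [Subgroup.zpowers_le]
  have hzx : Subgroup.zpowers t ≤ Subgroup.centralizer ({x} : Set G) := by
    rw [Subgroup.zpowers_le, Subgroup.mem_centralizer_singleton_iff]
    calc t * x = t * x * t⁻¹ * t := by group
      _ = x * t := by rw [htx]
  refine mem_of_parts (p := 2) (fun y hy hreg => ?_) (fun U hU hUp => h2 U (hU.trans hz) hUp)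
  have hyx : y * x * y⁻¹ = x := by
    have := Subgroup.mem_centralizer_singleton_iff.1 (hzx hy)
    rw [this]; group
  exact klein_regular hV (hTN (hz hy)) hreg hx hx1 hyx

theorem klein_index {P T : Subgroup G} (hV : IsKleinFour P)
    (hCT : Subgroup.centralizer (P : Set G) ≤ T) (hTN : T ≤ Subgroup.normalizer (P : Set G))
    (h2 : ∀ U : Subgroup G, U ≤ T → IsPGroup 2 U → U ≤ Subgroup.centralizer (P : Set G))
    {a : G} (ha : a ∈ P) (ha1 : a ≠ 1) :
    (Subgroup.centralizer (P : Set G)).relIndex T = 1 ∨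
      ((Subgroup.centralizer (P : Set G)).relIndex T = 3 ∧
        ∀ v ∈ P, v ≠ 1 → ∃ t ∈ T, t * a * t⁻¹ = v) := by
  haveI : Fact (Nat.Prime 2) := ⟨Nat.prime_two⟩
  letI : MulAction T G := MulAction.compHom G ((MulAut.conj : G →* MulAut G).comp T.subtype)
  have hsm : ∀ (t : T) (g : G), t • g = (t : G) * g * (t : G)⁻¹ := fun t g => rfl
  have hstab : MulAction.stabilizer T a = (Subgroup.centralizer (P : Set G)).subgroupOf T := by
    ext t
    rw [MulAction.mem_stabilizer_iff, hsm, Subgroup.mem_subgroupOf]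
    constructor
    · intro h
      exact klein_free hV hTN h2 t.2 ha ha1 h
    · intro h
      rw [← (Subgroup.mem_centralizer_iff.1 h) a ha]; group
  have hidx : (Subgroup.centralizer (P : Set G)).relIndex T = (MulAction.orbit T a).ncard := by
    rw [Subgroup.relIndex, ← hstab, MulAction.index_stabilizer]
  have hsub : MulAction.orbit T a ⊆ (P : Set G) \ {1} := by
    rintro _ ⟨t, rfl⟩
    show (t • a) ∈ _
    rw [hsm]
    refine ⟨(Subgroup.mem_normalizer_iff.1 (hTN t.2) a).1 ha, ?_⟩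
    intro h
    apply ha1
    have h' : (t : G) * a * (t : G)⁻¹ = 1 := h
    have : a = (t : G)⁻¹ * ((t : G) * a * (t : G)⁻¹) * (t : G) := by group
    rw [this, h']; group
  have hcard : ((P : Set G) \ {1}).ncard = 3 := by
    rw [Set.ncard_sdiff_singleton_of_mem P.one_mem]
    have : (P : Set G).ncard = 4 := by
      rw [← Nat.card_coe_set_eq]; exact hV.card_four
    rw [this]
  have hle : (MulAction.orbit T a).ncard ≤ 3 := by
    rw [← hcard]; exact Set.ncard_le_ncard hsub (Set.toFinite _)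
  have hpos : (Subgroup.centralizer (P : Set G)).relIndex T ≠ 0 := by
    rw [Subgroup.relIndex]; exact Subgroup.index_ne_zero_of_finite
  have hne2 : (Subgroup.centralizer (P : Set G)).relIndex T ≠ 2 := by
    intro h
    have hsq : ∀ t ∈ T, t * t ∈ Subgroup.centralizer (P : Set G) := by
      intro t ht
      have := Subgroup.mul_self_mem_of_index_two (H := (Subgroup.centralizer (P : Set G)).subgroupOf T)
        h ⟨t, ht⟩
      exact Subgroup.mem_subgroupOf.1 this
    have hTC : T ≤ Subgroup.centralizer (P : Set G) := by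
      intro t ht
      have hz : Subgroup.zpowers t ≤ T := by rwa [Subgroup.zpowers_le]
      refine mem_of_parts (p := 2) (fun y hy hreg => ?_) (fun U hU hUp => h2 U (hU.trans hz) hUp)
      have hodd : Odd (orderOf y) := Nat.not_even_iff_odd.1 (fun h => hreg h.two_dvd)
      obtain ⟨k, hk⟩ := hodd
      have : y = (y * y) ^ (k + 1) := by
        rw [← pow_two, ← pow_mul]
        have e : 2 * (k + 1) = orderOf y + 1 := by omega
        rw [e, pow_succ, pow_orderOf_eq_one, one_mul]
      rw [this]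
      exact Subgroup.pow_mem _ (hsq y (hz hy)) _
    rw [Subgroup.relIndex_eq_one.2 hTC] at h
    omega
  rw [hidx] at hpos hne2 ⊢
  have h13 : (MulAction.orbit T a).ncard = 1 ∨ (MulAction.orbit T a).ncard = 3 := by omega
  rcases h13 with h | h
  · exact Or.inl h
  · refine Or.inr ⟨h, fun v hv hv1 => ?_⟩
    have heq : MulAction.orbit T a = (P : Set G) \ {1} :=
      Set.eq_of_subset_of_ncard_le hsub (by rw [hcard, h]) (Set.toFinite _)
    have hvm : v ∈ MulAction.orbit T a := by rw [heq]; exact ⟨hv, hv1⟩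
    obtain ⟨t, ht⟩ := hvm
    exact ⟨t, t.2, ht⟩

open Cfsg.Agent.Lib.Helper26.Ctr in
/-- for an involution `y` the numbers `p^q m_{χψ}` are rational integers -/
theorem mm_int_of_sq {M : Ideal AlgInt} {p : ℕ} (hM : IsPModular p M) {H : Subgroup G}
    [Fintype H] {e : Set (IrrCharacter H)} (he : IsPBlock M e) {y : G} (hy2 : orderOf y ∣ 2)
    (hyH : y ∈ H) (hyc : ∀ c : H, Commute y (c : G)) {χ ψ : G → ℂ} (hχ : IsCharacter G χ)
    (hψ : IsCharacter G ψ) :
    ∃ N : ℤ, (p : ℂ) ^ blockDefect p e * mm p H e y χ ψ = (N : ℂ) := by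
  haveI := Fintype.ofFinite (IrrCharacter H)
  have hzc := mk_mem_center hyH hyc
  have hz : orderOf (⟨y, hyH⟩ : H) ∣ 2 := by rwa [← Subgroup.orderOf_coe]
  obtain ⟨A, hA⟩ := mmK_coeff hM hzc (isCharacter_restrict hχ H) (isCharacter_restrict hψ H) he
  have h1 := hA 1
  have h3 := mm_pow_eq (p := p) e hyH χ ψ 1
  rw [← h3] at h1
  simp only [pow_one] at h1
  have hw : ∀ i : IrrCharacter H × IrrCharacter H, ∃ s : ℤ,
      lam (⟨y, hyH⟩ : H) (i.1 : H → ℂ) * conj (lam (⟨y, hyH⟩ : H) (i.2 : H → ℂ)) = (s : ℂ) := by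
    intro i
    have e1 := lam_mul_conj_pow hzc i.1 i.2
    obtain ⟨r, hr⟩ := hz
    have e2 : (lam (⟨y, hyH⟩ : H) (i.1 : H → ℂ)
        * conj (lam (⟨y, hyH⟩ : H) (i.2 : H → ℂ))) ^ 2 = 1 := by
      rw [hr, pow_mul, e1, one_pow]
    rw [pow_two, mul_self_eq_one_iff] at e2
    rcases e2 with e2 | e2
    · exact ⟨1, by rw [e2]; simp⟩
    · exact ⟨-1, by rw [e2]; simp⟩
  choose s hs using hw
  refine ⟨∑ i ∈ (Finset.univ.filter (· ∈ e)) ×ˢ (Finset.univ.filter (· ∈ e)), A i * s i, ?_⟩
  rw [h1]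
  push_cast
  apply Finset.sum_congr rfl
  intro i _
  rw [hs]

theorem card_of_row {ι : Type*} (S : Finset ι) (N : ι → ℤ) {i₀ : ι} (hi₀ : i₀ ∈ S)
    (hne : ∀ i ∈ S, N i ≠ 0) (hodd : Odd (N i₀)) (hsum : ∑ i ∈ S, N i ^ 2 = 4 * N i₀) :
    S.card = 4 := by
  rw [← Finset.add_sum_erase _ _ hi₀] at hsum
  have hR0 : 0 ≤ ∑ i ∈ S.erase i₀, N i ^ 2 := Finset.sum_nonneg (fun i _ => sq_nonneg _)
  have hn0 := hne i₀ hi₀
  have hn1 : 0 < N i₀ := by
    by_contra h
    have : N i₀ < 0 := lt_of_le_of_ne (not_lt.1 h) hn0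
    nlinarith [sq_nonneg (N i₀)]
  have hn4 : N i₀ ≤ 4 := by nlinarith [sq_nonneg (N i₀)]
  have hR : ∑ i ∈ S.erase i₀, N i ^ 2 = 3 := by
    obtain ⟨k, hk⟩ := hodd
    have : k = 0 ∨ k = 1 := by omega
    rcases this with rfl | rfl
    · rw [hk] at hsum; linarith
    · rw [hk] at hsum; linarith
  have hone : ∀ i ∈ S.erase i₀, N i ^ 2 = 1 := by
    intro i hi
    have h1 : N i ^ 2 ≤ 3 := by
      rw [← hR]
      exact Finset.single_le_sum (f := fun i => N i ^ 2) (fun i _ => sq_nonneg _) hi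
    have h2 := hne i (Finset.mem_of_mem_erase hi)
    have h3 : -1 ≤ N i := by nlinarith
    have h4 : N i ≤ 1 := by nlinarith
    have : N i = -1 ∨ N i = 1 := by omega
    rcases this with h | h <;> rw [h] <;> norm_num
  rw [Finset.sum_congr rfl hone, Finset.sum_const, Finset.card_erase_of_mem hi₀] at hR
  have hpos : 0 < S.card := Finset.card_pos.2 ⟨i₀, hi₀⟩
  simp only [nsmul_eq_mul, mul_one] at hR
  have : ((S.card - 1 : ℕ) : ℤ) = 3 := hR
  omega

open Cfsg.Agent.Lib.Helper26.Ctr in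
/-- a `2`-block of defect `2` with a major subsection at an involution has four characters -/
theorem card_eq_four {M : Ideal AlgInt} (hM : IsPModular 2 M) {B : Set (IrrCharacter G)} {y : G}
    (hy : orderOf y = 2) {H : Subgroup G} (hH : H = Subgroup.centralizer ({y} : Set G))
    {e : Set (IrrCharacter H)} (hind : IsInducedBlock M H e B)
    (hd : blockDefect 2 e = blockDefect 2 B) (hd2 : blockDefect 2 B = 2) : Nat.card B = 4 := by
  haveI := hM.2.1.isPrime
  haveI := Fintype.ofFinite (IrrCharacter G)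
  have hyH : y ∈ H := by rw [hH]; exact Subgroup.mem_centralizer_singleton_iff.2 rfl
  have hyc : ∀ c : H, Commute y (c : G) := fun c =>
    (Subgroup.mem_centralizer_singleton_iff.1 (hH ▸ c.2)).symm
  have hy' : ∃ k : ℕ, orderOf y = 2 ^ k := ⟨1, by rw [hy, pow_one]⟩
  obtain ⟨χ₀, hχ₀, hh⟩ := exists_height_zero hind.2.1 2
  have h0 : blockHeight 2 B (χ₀ : G → ℂ) = 0 := by rw [blockHeight, hh, Nat.sub_self]
  have hint : ∀ ψ : IrrCharacter G, ∃ N : ℤ,
      ((2 : ℕ) : ℂ) ^ blockDefect 2 e * mm 2 H e y (χ₀ : G → ℂ) (ψ : G → ℂ) = (N : ℂ) :=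
    fun ψ => mm_int_of_sq hM hind.1 (by rw [hy]) hyH hyc (isCharacter_of_irr χ₀.2)
      (isCharacter_of_irr ψ.2)
  choose N hN using hint
  have h3 : Nat.card B = (Finset.univ.filter (fun χ : IrrCharacter G => χ ∈ B)).card := by
    rw [Nat.card_eq_fintype_card, Fintype.card_subtype]
  rw [h3]
  have hq : blockDefect 2 e = 2 := hd.trans hd2
  apply card_of_row _ N (i₀ := χ₀) (Finset.mem_filter.2 ⟨Finset.mem_univ _, hχ₀⟩)
  · intro ψ hψ hz
    have e1 := mm_ne_zero_major hM hH hy' hind hd hχ₀ h0 (Finset.mem_filter.1 hψ).2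
    have e2 := hN ψ
    rw [hz, Int.cast_zero] at e2
    rcases mul_eq_zero.1 e2 with e3 | e3
    · exact absurd e3 (pow_ne_zero _ (by norm_num))
    · exact e1 e3
  · have e1 := pq_mm_unit hM hind hy' hyH hyc hχ₀ h0 hχ₀ h0
    rw [hN χ₀] at e1
    by_contra hodd
    rw [Int.not_odd_iff_even] at hodd
    obtain ⟨r, hr⟩ := hodd
    apply e1
    have : ((N χ₀ : ℤ) : ℂ) = ((2 : ℕ) : ℂ) * (r : ℂ) := by rw [hr]; push_cast; ring
    rw [this]
    exact memLocalIdeal_mul_right (memLocalIdeal_p hM) (memLocalRing_intCast r)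
  · have e1 := mm_parseval_B hM hH hy' hind (χ₀ : G → ℂ)
    have e2 : ((∑ ψ ∈ Finset.univ.filter (fun χ : IrrCharacter G => χ ∈ B), N ψ ^ 2 : ℤ) : ℂ)
        = ((4 * N χ₀ : ℤ) : ℂ) := by
      push_cast
      rw [← hN χ₀, ← e1, hq, Finset.mul_sum, Finset.mul_sum]
      apply Finset.sum_congr rfl
      intro ψ _
      have e3 : conj ((N ψ : ℤ) : ℂ) = ((N ψ : ℤ) : ℂ) := map_intCast _ _
      have e4 : ((N ψ : ℤ) : ℂ) ^ 2 = ((N ψ : ℤ) : ℂ) * conj ((N ψ : ℤ) : ℂ) := by
        rw [e3, pow_two]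
      rw [e4, ← hN ψ, hq, map_mul, map_pow, Complex.conj_natCast]
      push_cast
      ring
    exact_mod_cast e2

theorem s4637 {M : Ideal AlgInt} [M.IsPrime] [CharP (resField M) 2] (hM : IsPModular 2 M)
    {B : Set (IrrCharacter G)} (hB : IsPBlock M B) {P : Subgroup G}
    (hPD : IsDefectGroup 2 M B P) (hV : IsKleinFour P)
    {c : Set (IrrCharacter (Subgroup.centralizer (P : Set G)))}
    (hc : IsInducedBlock M (Subgroup.centralizer (P : Set G)) c B) {T : Subgroup G}
    (hT : ∀ g : G, g ∈ T ↔ (g ∈ Subgroup.normalizer (P : Set G) ∧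
      StabilizesBlock (Subgroup.centralizer (P : Set G)) c g)) :
    ((Subgroup.centralizer (P : Set G)).relIndex T = 1 ∨
      (Subgroup.centralizer (P : Set G)).relIndex T = 3) ∧ Nat.card B = 4 ∧
      blockRank 2 B = (Subgroup.centralizer (P : Set G)).relIndex T := by
  haveI : Fact (Nat.Prime 2) := ⟨Nat.prime_two⟩
  have hab := ab_of_klein hV
  obtain ⟨hPp, hm, htm⟩ := setup_ab hM hB hPD hab hc
  have eT := eq_stabP hc.1 hT
  have hmax : IsMaximalBrauerPair 2 M B P c :=
    maximal_of_terminal ((isBrauerPairOf_iff hB ⟨hPp, hc.1⟩).2 hm) htm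
  have hCT : Subgroup.centralizer (P : Set G) ≤ T := by
    have := hm.2.1.cen_le_stabP
    rwa [cen_top, ← eT] at this
  have hTN : T ≤ Subgroup.normalizer (P : Set G) := fun y hy => ((hT y).1 hy).1
  have h2 : ∀ U : Subgroup G, U ≤ T → IsPGroup 2 U → U ≤ Subgroup.centralizer (P : Set G) := by
    intro U hU hUp
    exact (htm.pgroup_le hM hm hUp (eT ▸ hU)).trans
      (sup_le (le_centralizer_of_ab hab le_rfl) le_rfl)
  obtain ⟨a, ha, ha1⟩ : ∃ a : G, a ∈ P ∧ a ≠ 1 := by
    haveI : Nontrivial P := by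
      rw [← Finite.one_lt_card_iff_nontrivial, hV.card_four]; norm_num
    obtain ⟨x, hx⟩ := exists_ne (1 : P)
    exact ⟨x, x.2, fun h => hx (Subtype.ext h)⟩
  have horder : orderOf a = 2 := by
    apply orderOf_eq_prime _ ha1
    have := IsKleinFour.mul_self (⟨a, ha⟩ : P)
    rw [pow_two]
    exact congrArg Subtype.val this
  obtain ⟨f, hf, hfe, hle, hBP, hind, hrk⟩ := local_data hM hmax ha
  have hfree : stabP ((P, sbl M _ c) : FP M G)
      ⊓ Subgroup.centralizer ((Subgroup.zpowers a : Subgroup G) : Set G)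
      ≤ Subgroup.centralizer (P : Set G) := by
    intro t ht
    apply klein_free hV hTN h2 (eT ▸ ht.1) ha ha1
    have := (Subgroup.mem_centralizer_iff.1 ht.2) a (Subgroup.mem_zpowers a)
    rw [← this]; group
  obtain ⟨hfnil, hf1, hfcard, hfD⟩ := local_nil hM hf hm htm hab (le_of_subpairLE hle) hfree
  have hPH : P ≤ Subgroup.centralizer ((Subgroup.zpowers a : Subgroup G) : Set G) :=
    le_centralizer_of_ab hab (Subgroup.zpowers_le.2 ha)
  have hcB := card_defectGroup hM hB hPD
  have hd : blockDefect 2 f = blockDefect 2 B := by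
    have h1 := card_defectGroup hM hf hfD
    rw [Nat.card_congr (Subgroup.subgroupOfEquivOfLe hPH).toEquiv, hcB] at h1
    exact (Nat.pow_right_injective le_rfl h1).symm
  have hd2 : blockDefect 2 B = 2 := by
    rw [hV.card_four] at hcB
    have h4 : (2 : ℕ) ^ 2 = 2 ^ blockDefect 2 B := by rw [← hcB]; norm_num
    exact (Nat.pow_right_injective le_rfl h4).symm
  have hk : Nat.card B = 4 := card_eq_four hM horder (centralizer_zpowers' a) hind hd hd2
  rcases klein_index hV hCT hTN h2 ha ha1 with h1 | ⟨h3, htrans⟩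
  · refine ⟨Or.inl h1, hk, ?_⟩
    have hTC := Subgroup.relIndex_eq_one.1 h1
    have hnil : IsNilpotentBlock 2 M B :=
      (s4687 hM hmax hab).2 (fun x hxN hst => hTC ((hT x).2 ⟨hxN, hst⟩))
    rw [h1]
    exact rank_one_of_nil_ab hM hnil hPD hab
  · refine ⟨Or.inr h3, hk, ?_⟩
    have hcount := card_eq_sum_ab hM hB hm htm hab ({1, a} : Finset G)
      (by
        intro u hu
        rcases Finset.mem_insert.1 hu with rfl | hu
        · exact P.one_mem
        · rw [Finset.mem_singleton.1 hu]; exact ha)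
      (by
        intro u hu v hv t _ htu
        rcases Finset.mem_insert.1 hu with rfl | hu
        · rw [← htu]; group
        · rw [Finset.mem_singleton] at hu
          rcases Finset.mem_insert.1 hv with rfl | hv
          · exfalso
            apply ha1
            rw [← hu]
            have : u = t⁻¹ * (t * u * t⁻¹) * t := by group
            rw [this, htu]; group
          · rw [hu, Finset.mem_singleton.1 hv])
      (by
        intro v hv
        by_cases hv1 : v = 1
        · exact ⟨1, by simp, 1, Subgroup.one_mem _, by rw [hv1]; group⟩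
        · obtain ⟨t, ht, htv⟩ := htrans v hv hv1
          refine ⟨a, by simp, t⁻¹, Subgroup.inv_mem _ (eT ▸ ht), ?_⟩
          rw [← htv]; group)
    rw [Finset.sum_pair (Ne.symm ha1), rk_eps_one hmax, hrk, hf1, hk] at hcount
    rw [h3]
    omega

end

end Cfsg.Agent.Lib.Helper26.BP
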