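import Cfsg.Agent.Lib.Helper26.CtrK
import Cfsg.Agent.Lib.Helper26.BPExt

/-!
# Abelian defect groups: free inertial action iff the local blocks are nilpotent
-/

set_option autoImplicit false
set_option linter.unusedSectionVars false
set_option linter.unusedVariables false
set_option linter.style.haveILetI false

open Cfsg Cfsg.FusionSystem
open Cfsg.Agent.Lib.Helper7 Cfsg.Agent.Lib.Helper24

namespace Cfsg.Agent.Lib.Helper26.BP

noncomputable section
open Classical

universe u
variable {M : Ideal AlgInt} [M.IsPrime] {p : ℕ} [hp : Fact p.Prime]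
variable {G : Type u} [Group G] [Fintype G]
variable [CharP (resField M) p]

theorem isInducedBlockIn_of_isInducedBlock {N K : Subgroup G} (hKN : K ≤ N)
    {e : Set (IrrCharacter K)} (he : IsPBlock M e) {d : Set (IrrCharacter N)}
    (h : IsInducedBlock M (K.subgroupOf N) (towerBlock hKN e) d) :
    IsInducedBlockIn M N K e d := by
  refine ⟨he, h.2.1, fun ξ hξ χ hχ n => ?_⟩
  rw [inducedCentralCharIn_eq hKN ξ n]
  exact h.2.2 (towerIrr hKN ξ) ((irrComap_mem_blockComap _).2 hξ) χ hχ n

theorem exists_inducedIn (hM : IsPModular p M) {Q P : Subgroup G} (hQP : Q ≤ P)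
    (hP : IsPGroup p P) (hab : ∀ x ∈ P, ∀ y ∈ P, x * y = y * x)
    {c : Set (IrrCharacter (Subgroup.centralizer (P : Set G)))} (hc : IsPBlock M c) :
    ∃ f : Set (IrrCharacter (Subgroup.centralizer (Q : Set G))),
      IsInducedBlockIn M (Subgroup.centralizer (Q : Set G))
        (Subgroup.centralizer (P : Set G)) c f := by
  have hKN : Subgroup.centralizer (P : Set G) ≤ Subgroup.centralizer (Q : Set G) :=
    Subgroup.centralizer_le (by exact_mod_cast hQP)
  have hPN : P ≤ Subgroup.centralizer (Q : Set G) := le_centralizer_of_ab hab hQP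
  have hPK : P ≤ Subgroup.centralizer (P : Set G) := le_centralizer_of_ab hab le_rfl
  obtain ⟨f, hf⟩ := Cfsg.Agent.S0919.result p M hM
    (P.subgroupOf (Subgroup.centralizer (Q : Set G)))
    ((Subgroup.centralizer (P : Set G)).subgroupOf (Subgroup.centralizer (Q : Set G)))
    (hP.of_equiv (Subgroup.subgroupOfEquivOfLe hPN).symm)
    (fun x hx => Subgroup.mem_subgroupOf.2 (hPK (Subgroup.mem_subgroupOf.1 hx)))
    (by
      intro x hx
      rw [Subgroup.mem_subgroupOf, Subgroup.mem_centralizer_iff]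
      intro y hy
      have := (Subgroup.mem_centralizer_iff.1 hx) ⟨y, hPN hy⟩ (Subgroup.mem_subgroupOf.2 hy)
      exact congrArg Subtype.val this)
    (by
      intro x hx
      have hx' := Subgroup.mem_subgroupOf.1 hx
      rw [Subgroup.mem_normalizer_iff]
      intro y
      rw [Subgroup.mem_subgroupOf, Subgroup.mem_subgroupOf]
      have h1 := centralizer_le_normalizer' P hx'
      exact (Subgroup.mem_normalizer_iff.1 h1) y)
    (towerBlock hKN c) (isPBlock_blockComap _ hc)
  exact ⟨f, isInducedBlockIn_of_isInducedBlock hKN hc hf⟩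

theorem ns_cen_of_ns {Q P : Subgroup G} (hab : ∀ x ∈ P, ∀ y ∈ P, x * y = y * x)
    {γ φ : KG M G} (h : NS p ⊤ ((Q, φ) : FP M G) (P, γ)) :
    NS p (Subgroup.centralizer (Q : Set G)) ((⊥, φ) : FP M G) (P, γ) := by
  obtain ⟨h1, h2, h3, h4, h5, h6⟩ := h
  have hPN : P ≤ Subgroup.centralizer (Q : Set G) := le_centralizer_of_ab hab h3
  refine ⟨⟨bot_le, IsPGroup.of_bot, ?_⟩, ⟨hPN, h2.pg, ?_⟩, bot_le, le_normalizer_bot _, h5, h6⟩
  · have := h1.blk
    rw [cen_top] at this
    rw [cen_bot]
    exact this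
  · have := h2.blk
    rw [cen_top] at this
    have e1 : cen (Subgroup.centralizer (Q : Set G)) P = Subgroup.centralizer (P : Set G) :=
      inf_eq_right.2 (Subgroup.centralizer_le (by exact_mod_cast h3))
    show IsBlk M (cen (Subgroup.centralizer (Q : Set G)) P) γ
    rw [e1]
    exact this

theorem s4650 (hM : IsPModular p M) {B : Set (IrrCharacter G)} (hB : IsPBlock M B)
    {P : Subgroup G} (hPD : IsDefectGroup p M B P) (hab : ∀ x ∈ P, ∀ y ∈ P, x * y = y * x)
    {c : Set (IrrCharacter (Subgroup.centralizer (P : Set G)))}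
    (hc : IsInducedBlock M (Subgroup.centralizer (P : Set G)) c B) {T : Subgroup G}
    (hT : ∀ g : G, g ∈ T ↔ (g ∈ Subgroup.normalizer (P : Set G) ∧
      StabilizesBlock (Subgroup.centralizer (P : Set G)) c g)) :
    (∀ g ∈ T, ∀ x ∈ P, x ≠ 1 → g * x * g⁻¹ = x → g ∈ Subgroup.centralizer (P : Set G)) ↔
      ∀ Q : Subgroup G, Q ≤ P → Q ≠ ⊥ →
        ∀ f : Set (IrrCharacter (Subgroup.centralizer (Q : Set G))),
          IsInducedBlockIn M (Subgroup.centralizer (Q : Set G))
            (Subgroup.centralizer (P : Set G)) c f → IsNilpotentBlock p M f := by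
  obtain ⟨hPp, hm, htm⟩ := setup_ab hM hB hPD hab hc
  have eT := eq_stabP hc.1 hT
  constructor
  · intro hfr Q hQP hQ1 f hf
    have h0 := ns_of_isInducedBlockIn hQP hPp hab hf
    obtain ⟨x, hxQ, hx1⟩ : ∃ x : G, x ∈ Q ∧ x ≠ 1 := by
      obtain ⟨x, hx⟩ := Subgroup.ne_bot_iff_exists_ne_one.1 hQ1
      exact ⟨x, x.2, fun h => hx (Subtype.ext h)⟩
    have hfree : stabP ((P, sbl M _ c) : FP M G) ⊓ Subgroup.centralizer (Q : Set G)
        ≤ Subgroup.centralizer (P : Set G) := by
      intro t ht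
      apply hfr t (eT ▸ ht.1) x (hQP hxQ) hx1
      have := (Subgroup.mem_centralizer_iff.1 ht.2) x hxQ
      rw [← this]; group
    exact (local_nil hM hf.2.1 hm htm hab h0.le hfree).1
  · intro hnil g hg x hx hx1 hgx
    have hQP : Subgroup.zpowers x ≤ P := Subgroup.zpowers_le.2 hx
    have hQ1 : Subgroup.zpowers x ≠ ⊥ := by
      rw [Ne, Subgroup.zpowers_eq_bot]; exact hx1
    obtain ⟨f, hf⟩ := exists_inducedIn hM hQP hPp hab hc.1
    have hfn := hnil _ hQP hQ1 f hf
    have hrel := relNil_of_isNilpotentBlock hf.2.1 hfn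
    have h0 := ns_cen_of_ns hab (ns_of_isInducedBlockIn hQP hPp hab hf)
    have hz : Subgroup.zpowers g ≤ T := by rwa [Subgroup.zpowers_le]
    have hzx : Subgroup.zpowers g
        ≤ Subgroup.centralizer ((Subgroup.zpowers x : Subgroup G) : Set G) := by
      rw [Subgroup.zpowers_le, centralizer_zpowers', Subgroup.mem_centralizer_singleton_iff]
      calc g * x = g * x * g⁻¹ * g := by group
        _ = x * g := by rw [hgx]
    refine mem_of_parts (p := p) (fun y hy hreg => ?_) (fun U hU hUp => ?_)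
    · exact hrel _ h0 y (hzx hy) (eT ▸ hz hy) hreg
    · exact (htm.pgroup_le hM hm hUp (eT ▸ hU.trans hz)).trans
        (sup_le (le_centralizer_of_ab hab le_rfl) le_rfl)

end

end Cfsg.Agent.Lib.Helper26.BP
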