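import Cfsg.Agent.Lib.Helper26.BPApp2
import Cfsg.Agent.Lib.Helper7.BlockFR
import Cfsg.Agent.Lib.Helper7.BlockKnorr2
import Cfsg.Agent.Lib.Helper24.BlockSupp

/-!
# A block over a normal `p`-subgroup is the trace of a block of the centralizer
-/

set_option autoImplicit false
set_option linter.unusedSectionVars false
set_option linter.unusedVariables false
set_option linter.style.haveILetI false

open Cfsg
open Cfsg.Agent.Lib.Helper7 Cfsg.Agent.Lib.Helper24

namespace Cfsg.Agent.Lib.Helper26.BP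

noncomputable section
open Classical

universe u
variable {M : Ideal AlgInt} [M.IsPrime] {p : ℕ} [hp : Fact p.Prime]
variable {G : Type u} [Group G] [Fintype G] {P : Subgroup G}

local notation "CP" => Subgroup.centralizer ((P : Subgroup G) : Set G)

/-- a block covering `e` is the block of the Brauer pair `(P, e)`, `P` normal -/
theorem mem_of_over (hM : IsPModular p M) [P.Normal] (hP : IsPGroup p P)
    {B : Set (IrrCharacter G)} {e : Set (IrrCharacter CP)}
    (hBe : IsBrauerPairOf p M B P e) {χ : IrrCharacter G}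
    {θ : IrrCharacter CP} (hθ : θ ∈ e)
    (hcon : classInner (fun n : CP => (χ : G → ℂ) n) (θ : CP → ℂ) ≠ 0) : χ ∈ B := by
  haveI := Fintype.ofFinite (ConjClasses G)
  have hB := hBe.2.1
  have hb := hBe.1.2
  have hext : extH CP (resH CP (blockCoeff B)) = blockCoeff B := by
    funext g
    by_cases hg : g ∈ CP
    · simp [extH, hg, resH]
    · rw [blockCoeff_eq_zero_of_not_mem_centralizer hM hB P hP hg]
      simp [extH, hg]
  have hcl : IsClassFunction G (extH CP (resH CP (blockCoeff B))) := by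
    rw [hext]; exact isClassFunction_blockCoeff B
  have h1 := Om_extH_sub CP hcl χ θ
  have h2 : Om (extH CP (resH CP (blockCoeff B))) χ - Om (resH CP (blockCoeff B)) θ = 0 := by
    rw [h1]
    apply Finset.sum_eq_zero
    intro K _
    by_cases hK : K.out ∈ CP
    · have := centralChar_eq_induced_of_constituent CP hcon ⟨K.out, hK⟩
      rw [this, sub_self, mul_zero]
    · simp [extH, hK]
  have h3 : Om (resH CP (blockCoeff B)) θ = brauerOmega P (blockCoeff B) (θ : CP → ℂ) := by
    rw [Om, brauerOmega, finsum_eq_sum_of_fintype, Finset.sum_div]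
    rfl
  have h4 := hBe.2.2 θ hθ
  rw [← h3, ← sub_eq_zero.1 h2, hext, Om_blockCoeff] at h4
  by_contra hχ
  rw [Set.indicator_of_notMem hχ, zero_sub] at h4
  exact not_memLocalIdeal_one (by simpa using memLocalIdeal_neg h4)

theorem s4654_aux (hM : IsPModular p M) [P.Normal] (hP : IsPGroup p P)
    {B : Set (IrrCharacter G)} {e : Set (IrrCharacter CP)}
    (hBe : IsBrauerPairOf p M B P e) {T : Subgroup G}
    (hT : ∀ x : G, x ∈ T ↔ StabilizesBlock CP e x) (g : G) :
    blockCoeff B g = (Nat.card T : ℂ)⁻¹ * ∑ x : G, subgroupBlockCoeff CP e (x⁻¹ * g * x) := by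
  have hB := hBe.2.1
  have hb := hBe.1.2
  have hT' : ∀ g : G, g ∈ T ↔ ∀ θ ∈ e, conjIrr CP θ g ∈ e := by
    intro g
    rw [hT, Cfsg.Agent.Lib.Helper7.stabilizesBlock_iff CP hb, mem_blockStab_iff CP hb]
  set c : G → ℂ := subgroupBlockCoeff CP e with hc
  set φ : G → ℂ := fun g => (Nat.card T : ℂ)⁻¹ * ∑ x : G, c (x⁻¹ * g * x) with hφ
  have hφc : IsClassFunction G φ := by
    intro g y
    simp only [hφ]
    congr 1
    apply Fintype.sum_equiv (Equiv.mulLeft y⁻¹)
    intro x
    simp only [Equiv.coe_mulLeft]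
    congr 1
    group
  -- covering
  obtain ⟨θ₀, hθ₀⟩ := isPBlock_nonempty hb
  obtain ⟨χ₀, hχ₀⟩ := exists_over CP θ₀
  have hcov : Covers CP B e := ⟨χ₀, mem_of_over hM hP hBe hθ₀ hχ₀, θ₀, hθ₀, hχ₀⟩
  have hsum : ∀ χ : IrrCharacter G, ∑ g, φ g * (χ : G → ℂ) g
      = (Nat.card T : ℂ)⁻¹ * (Nat.card G : ℂ) * bdeg e (fun n : CP => (χ : G → ℂ) n) := by
    intro χ
    have h0 : ∑ g, c g * (χ : G → ℂ) g = bdeg e (fun n : CP => (χ : G → ℂ) n) := by
      rw [bdeg, ← Finset.sum_filter_of_ne (p := fun g => g ∈ CP) (fun x _ hx => by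
        by_contra hn
        apply hx
        rw [hc, subgroupBlockCoeff_of_not_mem _ _ hn, zero_mul]),
        Finset.sum_subtype (p := fun g => g ∈ CP) (Finset.univ.filter (· ∈ CP)) (fun x => by simp)
          (fun g => c g * (χ : G → ℂ) g)]
      apply Finset.sum_congr rfl
      intro n _
      rw [hc, subgroupBlockCoeff_of_mem _ _ n.2]
    have h1 : ∀ x : G, ∑ g, c (x⁻¹ * g * x) * (χ : G → ℂ) g
        = bdeg e (fun n : CP => (χ : G → ℂ) n) := by
      intro x
      rw [← h0]
      apply Fintype.sum_equiv (MulAut.conj x⁻¹).toEquiv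
      intro g
      have e1 : (MulAut.conj x⁻¹).toEquiv g = x⁻¹ * g * x := by simp
      rw [e1]
      congr 1
      have := isClassFunction_irr χ g x⁻¹
      simpa using this.symm
    have h2 : ∑ g, φ g * (χ : G → ℂ) g
        = (Nat.card T : ℂ)⁻¹ * ∑ x : G, ∑ g, c (x⁻¹ * g * x) * (χ : G → ℂ) g := by
      rw [Finset.sum_comm, Finset.mul_sum]
      apply Finset.sum_congr rfl
      intro g _
      simp only [hφ]
      rw [mul_assoc, Finset.sum_mul]
    rw [h2, Finset.sum_congr rfl (fun x _ => h1 x), Finset.sum_const, Finset.card_univ,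
      nsmul_eq_mul, ← Nat.card_eq_fintype_card, mul_assoc]
  have hG : (Nat.card G : ℂ) = Nat.card T * T.index := by exact_mod_cast (T.card_mul_index).symm
  have hT0 : (Nat.card T : ℂ) ≠ 0 := by exact_mod_cast Nat.card_pos.ne'
  have hOm : Om φ = Om (blockCoeff B) := by
    funext χ
    rw [Om_blockCoeff, Om, hsum χ]
    have hχ1 := irr_apply_one_ne_zero χ.2
    by_cases hov : ∃ θ ∈ e, classInner (fun n : CP => (χ : G → ℂ) n) (θ : CP → ℂ) ≠ 0
    · obtain ⟨θ, hθ, hcon⟩ := hov
      have hχB := mem_of_over hM hP hBe hθ hcon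
      rw [Set.indicator_of_mem hχB]
      have hdeg := degree_eq_index_mul_bdeg CP T hb hT' ⟨θ, hθ, hcon⟩
      rw [hG, div_eq_one_iff_eq hχ1, hdeg]
      field_simp
    · have hχB : χ ∉ B := fun h => hov (over_of_covers CP hb hB hcov h)
      rw [Set.indicator_of_notMem hχB]
      obtain ⟨k, hk, hk2⟩ := bdeg_char e (isCharacter_restrict (isCharacter_of_irr χ.2) CP)
      have hk0 : k = 0 := by
        by_contra h
        exact hov (hk2.1 h)
      have : bdeg e (fun n : CP => (χ : G → ℂ) n) = 0 := by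
        rw [hk0] at hk
        simpa using hk
      rw [this, mul_zero, zero_div]
  exact (congrFun (Om_injective hφc (isClassFunction_blockCoeff B) hOm) g).symm

end

end Cfsg.Agent.Lib.Helper26.BP
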