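import Cfsg.Agent.Lib.Helper26.BPKer
import Cfsg.Agent.Lib.Helper7.BlockTransport
import Cfsg.Agent.Lib.Helper7.BlockFirst2
import Cfsg.Agent.Lib.Helper7.BlockSecondMain

/-!
# Induced blocks from subgroups containing the centralizer of a defect group
-/

set_option autoImplicit false
set_option linter.unusedSectionVars false
set_option linter.unusedVariables false
set_option linter.style.haveILetI false

open Cfsg
open Cfsg.Agent.Lib.Helper7 Cfsg.Agent.Lib.Helper24

namespace Cfsg.Agent.Lib.Helper26.BP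

noncomputable section
open Classical

universe u
variable {M : Ideal AlgInt} [M.IsPrime] {p : ℕ} [hp : Fact p.Prime]
variable {G : Type u} [Group G] [Fintype G] [CharP (resField M) p] {H : Subgroup G}

/-- a terminal pair of a block has a conjugate of any defect group as first component -/
theorem Terminal.fst_eq_cjS {β : KG M G} {m : FP M G} (hm : NS p ⊤ (⊥, β) m)
    (htm : Terminal p ⊤ m) {D : Subgroup G} (hD : IsDef p ⊤ β D) : ∃ x, m.1 = cjS x D := by
  obtain ⟨η, h1, h2⟩ := exists_terminal_of_isDef hm.bot_blk hD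
  obtain ⟨x, -, hx⟩ := Terminal.conj hm htm h1 h2
  exact ⟨x, by rw [← hx]; rfl⟩

theorem Terminal.isDef_fst {β : KG M G} {m : FP M G} (hm : NS p ⊤ (⊥, β) m)
    (htm : Terminal p ⊤ m) {D : Subgroup G} (hD : IsDef p ⊤ β D) : IsDef p ⊤ β m.1 := by
  obtain ⟨x, hx⟩ := htm.fst_eq_cjS hm hD
  refine ⟨le_top, hm.2.1.pg, hm.bot_br_ne_zero, ?_⟩
  intro Q hQ hQp hbr
  rw [hx, card_cjS]
  exact hD.2.2.2 Q hQ hQp hbr

theorem nested {β ε : KG M G} (hβ : IsBlk M ⊤ β) (hε : IsBlk M H ε) (hind : Ind H β ε)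
    {D₀ : Subgroup G} (hD₀ : IsDef p H ε D₀) (hC : Subgroup.centralizer (D₀ : Set G) ≤ H) :
    ∃ m : FP M G, NS p ⊤ (⊥, β) m ∧ Terminal p ⊤ m ∧ D₀ ≤ m.1 ∧
      m.1 ⊓ Subgroup.centralizer (D₀ : Set G) ≤ D₀ := by
  obtain ⟨η₀, g1, gt⟩ := exists_terminal_of_isDef hε hD₀
  have g2 : NS p ⊤ (⊥, β) (D₀, η₀) := NS.bot_of_ind hβ hind g1 hC
  obtain ⟨m, hle, htm⟩ := exists_terminal_ge g2.2.1
  have hm : NS p ⊤ (⊥, β) m := NS.bot_of_le g2 hle
  refine ⟨m, hm, htm, hle.fst_le, ?_⟩
  have hD₀m : D₀ ≤ m.1 := hle.fst_le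
  have hRm : D₀ ⊔ (m.1 ⊓ Subgroup.centralizer (D₀ : Set G)) ≤ m.1 := sup_le hD₀m inf_le_left
  obtain ⟨ρ, hρ⟩ := exists_le hm.2.1 hRm
  have hρp : IsPair p ⊤ ((D₀ ⊔ (m.1 ⊓ Subgroup.centralizer (D₀ : Set G)), ρ) : FP M G) :=
    hρ.isPair_left hm.2.1
  have hRN : D₀ ⊔ (m.1 ⊓ Subgroup.centralizer (D₀ : Set G))
      ≤ Subgroup.normalizer (D₀ : Set G) :=
    sup_le Subgroup.le_normalizer (inf_le_right.trans (centralizer_le_normalizer' D₀))
  obtain ⟨ε', hε'⟩ := exists_ns hρp (Q := D₀) le_sup_left hRN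
  have h3 : ((D₀, ε') : FP M G) = (D₀, η₀) := LE.unique (hε'.le.trans hρ) hle rfl
  rw [h3] at hε'
  have hne : br (D₀ ⊔ (m.1 ⊓ Subgroup.centralizer (D₀ : Set G))) η₀ ≠ 0 := by
    intro h0
    have h4 := hε'.2.2.2.2.2
    simp only at h4
    rw [h0, zero_mul] at h4
    exact hρp.blk.ne_zero h4.symm
  have h5 := gt _ (sup_le hD₀.1 (inf_le_right.trans hC)) hρp.pg le_sup_left hRN
    hε'.2.2.2.2.1 hne
  exact le_sup_right.trans h5

theorem blockComap_blockComap_symm {A A' : Type u} [Group A] [Group A'] (e : A ≃* A')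
    (c : Set (IrrCharacter A)) : blockComap e (blockComap e.symm c) = c := by
  ext χ
  rw [mem_blockComap, irrComap_mem_blockComap]

theorem defined_of_tower {K' : Subgroup H} {c : Set (IrrCharacter K')} {b : Set (IrrCharacter H)}
    (hind : IsInducedBlock M K' c b)
    (hdef : ∀ c₁ : Set (IrrCharacter (K'.map H.subtype)), IsPBlock M c₁ →
      InducedBlockDefined M (K'.map H.subtype) c₁) : InducedBlockDefined M H b := by
  have key : ∀ (K : Subgroup G) (hKH : K ≤ H) (K' : Subgroup H) (hK : K.subgroupOf H = K')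
      (c : Set (IrrCharacter K')), IsInducedBlock M K' c b →
      (∀ c₁ : Set (IrrCharacter K), IsPBlock M c₁ → InducedBlockDefined M K c₁) →
      InducedBlockDefined M H b := by
    intro K hKH K' hK c hind hdef
    subst hK
    have h1 : towerBlock hKH (blockComap (Subgroup.subgroupOfEquivOfLe hKH).symm c) = c :=
      blockComap_blockComap_symm _ c
    obtain ⟨B, hB⟩ := hdef (blockComap (Subgroup.subgroupOfEquivOfLe hKH).symm c)
      (isPBlock_blockComap _ hind.1)
    exact ⟨B, isInducedBlock_tower_up hKH (by rw [h1]; exact hind) hB⟩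
  exact key (K'.map H.subtype) (Subgroup.map_subtype_le K') K'
    (Subgroup.comap_map_eq_self_of_injective H.subtype_injective K') c hind hdef

theorem s4726 (hM : IsPModular p M) (H : Subgroup G) (b : Set (IrrCharacter ↥H))
    (hb : IsPBlock M b) (D₀ : Subgroup ↥H) (hD₀ : IsDefectGroup p M b D₀)
    (hC : Subgroup.centralizer ((D₀.map H.subtype : Subgroup G) : Set G) ≤ H) :
    InducedBlockDefined M H b ∧ ∀ B : Set (IrrCharacter G), IsInducedBlock M H b B →
      (∃ D : Subgroup G, IsDefectGroup p M B D ∧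
        (Subgroup.center ↥D).map D.subtype
          ≤ ((Subgroup.center ↥D₀).map D₀.subtype).map H.subtype ∧
        ((Subgroup.center ↥D₀).map D₀.subtype).map H.subtype ≤ D₀.map H.subtype ∧
        D₀.map H.subtype ≤ D) ∧
      (∀ D : Subgroup G, IsDefectGroup p M B D → IsMulCommutative ↥D →
        IsDefectGroup p M B (D₀.map H.subtype)) := by
  constructor
  · obtain ⟨c, hc, -⟩ := exists_brauer_correspondent hM (P := D₀)
      (H := Subgroup.normalizer (D₀ : Set H)) Subgroup.le_normalizer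
      (centralizer_le_normalizer' D₀) le_rfl hb hD₀
    apply defined_of_tower hc
    intro c₁ hc₁
    have hDef := isDef_map hM hb hD₀
    apply inducedBlockDefined_of_le hM (P := D₀.map H.subtype) hDef.2.1
      (Subgroup.map_mono Subgroup.le_normalizer) _ _ hc₁
    · intro x hx
      have hxH := hC hx
      refine ⟨⟨x, hxH⟩, ?_, rfl⟩
      apply centralizer_le_normalizer' D₀
      rw [Subgroup.mem_centralizer_iff]
      intro d hd
      apply Subtype.ext
      exact (Subgroup.mem_centralizer_iff.1 hx) d ⟨d, hd, rfl⟩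
    · exact Subgroup.le_normalizer_map _
  · intro B hind
    have hB := hind.2.1
    obtain ⟨m, hm, htm, h1, h2⟩ := nested (isBlk_top_bl hB) (isBlk_sbl hb)
      (ind_of_isInducedBlock hind) (isDef_map hM hb hD₀) hC
    obtain ⟨D', hD'⟩ := exists_defectGroup hM hB
    have hmD : IsDefectGroup p M B m.1 :=
      (isDefectGroup_iff_isDef_top hM hB _).2
        (htm.isDef_fst hm ((isDefectGroup_iff_isDef_top hM hB _).1 hD'))
    constructor
    · refine ⟨m.1, hmD, ?_, Subgroup.map_mono (Subgroup.map_subtype_le _), h1⟩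
      rintro _ ⟨z, hz, rfl⟩
      have hz' : ∀ y : m.1, y * z = z * y := fun y => Subgroup.mem_center_iff.1 hz y
      have hzc : (z : G) ∈ Subgroup.centralizer ((D₀.map H.subtype : Subgroup G) : Set G) := by
        rw [Subgroup.mem_centralizer_iff]
        intro d hd
        exact congrArg Subtype.val (hz' ⟨d, h1 hd⟩)
      obtain ⟨d, hd, hdz⟩ := h2 ⟨z.2, hzc⟩
      refine ⟨d, ⟨⟨d, hd⟩, ?_, rfl⟩, hdz⟩
      rw [SetLike.mem_coe, Subgroup.mem_center_iff]
      intro y
      apply Subtype.ext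
      apply Subtype.ext
      have := (Subgroup.mem_centralizer_iff.1 hzc) ((y : H) : G) ⟨y, y.2, rfl⟩
      rw [← hdz] at this
      exact this
    · intro D hD hab
      obtain ⟨x, hx⟩ := htm.fst_eq_cjS hm ((isDefectGroup_iff_isDef_top hM hB _).1 hD)
      have hcomm : ∀ a ∈ m.1, ∀ c ∈ m.1, a * c = c * a := by
        intro a ha c hc
        rw [hx, mem_cjS] at ha hc
        have h3 : (⟨_, ha⟩ : D) * ⟨_, hc⟩ = ⟨_, hc⟩ * ⟨_, ha⟩ := hab.is_comm.comm _ _
        have h4 := congrArg Subtype.val h3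
        simp only [Subgroup.coe_mul] at h4
        have h5 : x⁻¹ * (a * c) * x = x⁻¹ * (c * a) * x := by
          calc x⁻¹ * (a * c) * x = (x⁻¹ * a * x) * (x⁻¹ * c * x) := by group
            _ = (x⁻¹ * c * x) * (x⁻¹ * a * x) := h4
            _ = x⁻¹ * (c * a) * x := by group
        exact mul_left_cancel (mul_right_cancel h5)
      have h6 : m.1 ≤ D₀.map H.subtype := by
        intro a ha
        apply h2
        refine ⟨ha, ?_⟩
        show a ∈ Subgroup.centralizer ((D₀.map H.subtype : Subgroup G) : Set G)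
        rw [Subgroup.mem_centralizer_iff]
        intro d hd
        exact hcomm d (h1 hd) a ha
      have h7 : D₀.map H.subtype = m.1 := le_antisymm h1 h6
      rw [h7]
      exact hmD

end

end Cfsg.Agent.Lib.Helper26.BP
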