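import Cfsg.Agent.Lib.Helper26.BPKer
import Cfsg.Agent.Lib.Helper26.ProjExt2
import Cfsg.Agent.Lib.Helper7.BlockTransport
import Cfsg.Agent.Lib.Helper7.BlockCover2
import Cfsg.Agent.Lib.Helper25.Cop1
import Cfsg.Agent.Lib.Helper25.Irr

/-!
# Brauer pairs carrying a weight
-/

set_option autoImplicit false
set_option linter.unusedSectionVars false
set_option linter.unusedVariables false
set_option linter.style.haveILetI false

open Cfsg
open Cfsg.Agent.Lib.Helper7 Cfsg.Agent.Lib.Helper24

namespace Cfsg.Agent.Lib.Helper26.BP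

noncomputable section
open Classical

universe u

section grp

variable {p : ℕ} [hp : Fact p.Prime]
variable {X : Type u} [Group X] [Fintype X]

/-- a character of defect zero modulo the normal subgroup `Q` restricts to a normal subgroup `C`
with constituents of defect zero modulo `Q ⊓ C` -/
theorem exists_defect_zero_constituent (Q C : Subgroup X) [hQ : Q.Normal] [hC : C.Normal]
    (χ : IrrCharacter X) (hker : ∀ u ∈ Q, (χ : X → ℂ) u = (χ : X → ℂ) 1)
    (hdeg : (charDegree (χ : X → ℂ)).factorization p + (Nat.card Q).factorization p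
      = (Nat.card X).factorization p) :
    ∃ θ : IrrCharacter C, classInner (fun n : C => (χ : X → ℂ) n) (θ : C → ℂ) ≠ 0 ∧
      (∀ z : C, (z : X) ∈ Q → (θ : C → ℂ) z = (θ : C → ℂ) 1) ∧
      (charDegree (θ : C → ℂ)).factorization p + (Nat.card ↥(Q ⊓ C)).factorization p
        = (Nat.card C).factorization p := by
  obtain ⟨ψ, hψ⟩ := exists_quotient_char χ Q hker
  haveI : Fintype (X ⧸ Q) := Fintype.ofFinite _
  haveI hNn : (C.map (QuotientGroup.mk' Q)).Normal :=
    hC.map _ (QuotientGroup.mk'_surjective Q)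
  haveI : Fintype ↥(C.map (QuotientGroup.mk' Q)) := Fintype.ofFinite _
  obtain ⟨θb, hθb⟩ := exists_constituent_res (C.map (QuotientGroup.mk' Q)) ψ
  obtain ⟨e, he1, he2⟩ := degree_ratio (C.map (QuotientGroup.mk' Q)) ψ.2 θb.2 hθb
  let φ : C →* ↥(C.map (QuotientGroup.mk' Q)) :=
    ((QuotientGroup.mk' Q).comp C.subtype).codRestrict _
      (fun c => Subgroup.mem_map_of_mem _ c.2)
  have hφs : Function.Surjective φ := by
    rintro ⟨_, c, hc, rfl⟩
    exact ⟨⟨c, hc⟩, rfl⟩
  refine ⟨⟨fun c => (θb : ↥(C.map (QuotientGroup.mk' Q)) → ℂ) (φ c),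
    Cfsg.Agent.Lib.Helper25.isIrrCharacter_comp_surjective φ hφs θb.2⟩, ?_, ?_, ?_⟩
  · have h1 := Cfsg.Agent.Lib.Helper25.classInner_comp_surjective φ hφs
      (fun n : ↥(C.map (QuotientGroup.mk' Q)) => (ψ : X ⧸ Q → ℂ) n)
      (θb : ↥(C.map (QuotientGroup.mk' Q)) → ℂ)
    have h2 : (fun n : C => (χ : X → ℂ) n)
        = fun x : C => (ψ : X ⧸ Q → ℂ) ((φ x : ↥(C.map (QuotientGroup.mk' Q))) : X ⧸ Q) := by
      funext n
      exact hψ n
    show classInner (fun n : C => (χ : X → ℂ) n)
      (fun c => (θb : ↥(C.map (QuotientGroup.mk' Q)) → ℂ) (φ c)) ≠ 0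
    rw [h2, h1]
    exact hθb
  · intro z hz
    show (θb : ↥(C.map (QuotientGroup.mk' Q)) → ℂ) (φ z)
      = (θb : ↥(C.map (QuotientGroup.mk' Q)) → ℂ) (φ 1)
    have : φ z = φ 1 := by
      rw [map_one]
      apply Subtype.ext
      exact (QuotientGroup.eq_one_iff _).2 hz
    rw [this]
  · have hdθ : charDegree (fun c => (θb : ↥(C.map (QuotientGroup.mk' Q)) → ℂ) (φ c))
        = charDegree (θb : ↥(C.map (QuotientGroup.mk' Q)) → ℂ) := by
      simp only [charDegree, map_one]
    show (charDegree (fun c => (θb : ↥(C.map (QuotientGroup.mk' Q)) → ℂ) (φ c))).factorization p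
      + _ = _
    rw [hdθ]
    have hdegψ : charDegree (ψ : X ⧸ Q → ℂ) = charDegree (χ : X → ℂ) := by
      simp only [charDegree]
      rw [hψ 1]; rfl
    have hcardX : Nat.card X = Nat.card (X ⧸ Q) * Nat.card Q :=
      Subgroup.card_eq_card_quotient_mul_card_subgroup Q
    have hνX : (Nat.card X).factorization p
        = (Nat.card (X ⧸ Q)).factorization p + (Nat.card Q).factorization p := by
      rw [hcardX, Nat.factorization_mul Nat.card_pos.ne' Nat.card_pos.ne']; rfl
    have hmul : charDegree (ψ : X ⧸ Q → ℂ)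
        = e * charDegree (θb : ↥(C.map (QuotientGroup.mk' Q)) → ℂ) := by
      have : (charDegree (ψ : X ⧸ Q → ℂ) : ℂ)
          = ((e * charDegree (θb : ↥(C.map (QuotientGroup.mk' Q)) → ℂ) : ℕ) : ℂ) := by
        rw [charDegree_cast (isCharacter_of_irr ψ.2), he1]
        push_cast
        rw [charDegree_cast (isCharacter_of_irr θb.2)]
      exact_mod_cast this
    have he0 : e ≠ 0 := by
      rintro rfl
      rw [zero_mul] at hmul
      exact (charDegree_pos ψ).ne' hmul
    have hν1 : (charDegree (ψ : X ⧸ Q → ℂ)).factorization p = e.factorization p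
        + (charDegree (θb : ↥(C.map (QuotientGroup.mk' Q)) → ℂ)).factorization p := by
      rw [hmul, Nat.factorization_mul he0 (charDegree_pos θb).ne']; rfl
    have hidx0 : (C.map (QuotientGroup.mk' Q)).index ≠ 0 := Subgroup.index_ne_zero_of_finite
    have hν2 : e.factorization p ≤ ((C.map (QuotientGroup.mk' Q)).index).factorization p :=
      (Nat.factorization_le_iff_dvd he0 hidx0).2 he2 p
    have hν3 : (charDegree (θb : ↥(C.map (QuotientGroup.mk' Q)) → ℂ)).factorization p
        ≤ (Nat.card ↥(C.map (QuotientGroup.mk' Q))).factorization p :=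
      (Nat.factorization_le_iff_dvd (charDegree_pos θb).ne' Nat.card_pos.ne').2
        (charDegree_dvd_card θb) p
    have hν4 : (Nat.card (X ⧸ Q)).factorization p
        = (Nat.card ↥(C.map (QuotientGroup.mk' Q))).factorization p
          + ((C.map (QuotientGroup.mk' Q)).index).factorization p := by
      rw [← (C.map (QuotientGroup.mk' Q)).card_mul_index,
        Nat.factorization_mul Nat.card_pos.ne' hidx0]; rfl
    have hkerφ : φ.ker = (Q ⊓ C).subgroupOf C := by
      ext z
      rw [MonoidHom.mem_ker, Subgroup.mem_subgroupOf, Subgroup.mem_inf]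
      constructor
      · intro h
        have := congrArg Subtype.val h
        exact ⟨(QuotientGroup.eq_one_iff _).1 this, z.2⟩
      · intro h
        apply Subtype.ext
        exact (QuotientGroup.eq_one_iff _).2 h.1
    have hcardC : Nat.card C = Nat.card ↥(C.map (QuotientGroup.mk' Q)) * Nat.card ↥(Q ⊓ C) := by
      rw [Subgroup.card_eq_card_quotient_mul_card_subgroup φ.ker,
        Nat.card_congr (QuotientGroup.quotientKerEquivOfSurjective φ hφs).toEquiv, hkerφ,
        card_subgroupOf_of_le inf_le_right]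
    have hν5 : (Nat.card C).factorization p
        = (Nat.card ↥(C.map (QuotientGroup.mk' Q))).factorization p
          + (Nat.card ↥(Q ⊓ C)).factorization p := by
      rw [hcardC, Nat.factorization_mul Nat.card_pos.ne' Nat.card_pos.ne']; rfl
    rw [hdegψ] at hν1
    omega

/-- the degree of an irreducible character squared times the order of a subgroup of the kernel is
at most the group order -/
theorem card_mul_degree_sq_le {Y : Type u} [Group Y] [Fintype Y] (θ : IrrCharacter Y)
    (K : Subgroup Y) (hK : ∀ z ∈ K, (θ : Y → ℂ) z = (θ : Y → ℂ) 1) :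
    Nat.card K * charDegree (θ : Y → ℂ) ^ 2 ≤ Nat.card Y := by
  have h1 := classInner_irr_self θ.2
  have hc : (Nat.card Y : ℂ) ≠ 0 := by exact_mod_cast Nat.card_pos.ne'
  rw [classInner, inv_mul_eq_one₀ hc] at h1
  simp only [Complex.mul_conj] at h1
  have h2 : (Nat.card Y : ℝ) = ∑ g : Y, Complex.normSq ((θ : Y → ℂ) g) := by exact_mod_cast h1
  have h3 : ∑ g ∈ Finset.univ.filter (fun g : Y => g ∈ K), Complex.normSq ((θ : Y → ℂ) g)
      ≤ ∑ g : Y, Complex.normSq ((θ : Y → ℂ) g) :=
    Finset.sum_le_sum_of_subset_of_nonneg (Finset.filter_subset _ _)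
      (fun g _ _ => Complex.normSq_nonneg _)
  have h4 : ∑ g ∈ Finset.univ.filter (fun g : Y => g ∈ K), Complex.normSq ((θ : Y → ℂ) g)
      = (Nat.card K : ℝ) * (charDegree (θ : Y → ℂ) : ℝ) ^ 2 := by
    rw [Finset.sum_congr rfl (g := fun _ => (charDegree (θ : Y → ℂ) : ℝ) ^ 2), Finset.sum_const,
      nsmul_eq_mul]
    · congr 2
      rw [Nat.card_eq_fintype_card, Fintype.card_subtype]
    · intro g hg
      rw [hK g (Finset.mem_filter.1 hg).2, ← charDegree_cast (isCharacter_of_irr θ.2),
        Complex.normSq_natCast, sq]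
  rw [h4, ← h2] at h3
  exact_mod_cast h3

/-- a group with a character of defect zero modulo `Q` has no normal `p`-subgroup outside `Q` -/
theorem normal_pgroup_le_of_defect_zero (Q R : Subgroup X) [hQ : Q.Normal] [hRn : R.Normal]
    (hR : IsPGroup p R)
    (χ : IrrCharacter X) (hker : ∀ u ∈ Q, (χ : X → ℂ) u = (χ : X → ℂ) 1)
    (hdeg : (charDegree (χ : X → ℂ)).factorization p + (Nat.card Q).factorization p
      = (Nat.card X).factorization p) : R ≤ Q := by
  obtain ⟨θ, -, hk, hd⟩ := exists_defect_zero_constituent Q R χ hker hdeg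
  obtain ⟨a, ha⟩ := IsPGroup.iff_card.1 hR
  obtain ⟨b, hb⟩ := IsPGroup.iff_card.1 (hR.to_le (inf_le_right : Q ⊓ R ≤ R))
  obtain ⟨c, -, hc⟩ := (Nat.dvd_prime_pow hp.out).1 (ha ▸ charDegree_dvd_card θ)
  rw [ha, hb, hc, Nat.Prime.factorization_pow hp.out, Nat.Prime.factorization_pow hp.out,
    Nat.Prime.factorization_pow hp.out, Finsupp.single_eq_same, Finsupp.single_eq_same,
    Finsupp.single_eq_same] at hd
  have h1 := card_mul_degree_sq_le θ ((Q ⊓ R).subgroupOf R) (by
    intro z hz
    exact hk z (Subgroup.mem_subgroupOf.1 hz).1)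
  rw [card_subgroupOf_of_le inf_le_right, ha, hb, hc, ← pow_mul, ← pow_add] at h1
  have h2 : b + c * 2 ≤ a := (Nat.pow_le_pow_iff_right hp.out.one_lt).1 h1
  have h3 : b = a := by omega
  have h4 : Q ⊓ R = R := Subgroup.eq_of_le_of_card_ge inf_le_right (by rw [ha, hb, h3])
  exact inf_eq_right.1 h4

end grp

section blk

variable {X : Type u} [Group X] [Fintype X]

theorem Om_extH_eq_of_constituent (N : Subgroup X) [N.Normal] {c : N → ℂ}
    (hcl : IsClassFunction X (extH N c)) {χ : IrrCharacter X} {θ : IrrCharacter N}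
    (hcon : classInner (fun n : N => (χ : X → ℂ) n) (θ : N → ℂ) ≠ 0) :
    Om (extH N c) χ = Om c θ := by
  haveI := Fintype.ofFinite (ConjClasses X)
  have h1 := Om_extH_sub N hcl χ θ
  apply sub_eq_zero.1
  rw [h1]
  apply Finset.sum_eq_zero
  intro K _
  by_cases hK : K.out ∈ N
  · have := centralChar_eq_induced_of_constituent N hcon ⟨K.out, hK⟩
    rw [this, sub_self, mul_zero]
  · simp [extH, hK]

theorem mem_of_blockCoeff_eq_extH (N : Subgroup X) [N.Normal] {F : Set (IrrCharacter X)}
    {e : Set (IrrCharacter N)} (hFe : blockCoeff F = extH N (blockCoeff e))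
    {χ : IrrCharacter X} (hχ : χ ∈ F) {θ : IrrCharacter N}
    (hcon : classInner (fun n : N => (χ : X → ℂ) n) (θ : N → ℂ) ≠ 0) : θ ∈ e := by
  have hcl : IsClassFunction X (extH N (blockCoeff e)) := by
    rw [← hFe]; exact isClassFunction_blockCoeff F
  have h1 := Om_extH_eq_of_constituent N hcl hcon
  rw [← hFe, Om_blockCoeff, Om_blockCoeff, Set.indicator_of_mem hχ] at h1
  by_contra hθ
  rw [Set.indicator_of_notMem hθ] at h1
  exact one_ne_zero h1

end blk

variable {M : Ideal AlgInt} [M.IsPrime] {p : ℕ} [hp : Fact p.Prime]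
variable {G : Type u} [Group G] [Fintype G] [CharP (resField M) p]

theorem isDefectGroup_center_of_char (hM : IsPModular p M) {Q : Subgroup G}
    {e : Set (IrrCharacter (Subgroup.centralizer (Q : Set G)))} (he : IsBrauerPair p M Q e)
    {θ : IrrCharacter (Subgroup.centralizer (Q : Set G))} (hθ : θ ∈ e)
    (hker : ∀ z : Subgroup.centralizer (Q : Set G), (z : G) ∈ Q →
          (θ : Subgroup.centralizer (Q : Set G) → ℂ) z
            = (θ : Subgroup.centralizer (Q : Set G) → ℂ) 1)
    (hdeg : (charDegree (θ : Subgroup.centralizer (Q : Set G) → ℂ)).factorization p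
          + (Nat.card ↥(Q ⊓ Subgroup.centralizer (Q : Set G))).factorization p
          = (Nat.card (Subgroup.centralizer (Q : Set G))).factorization p) :
    IsDefectGroup p M e ((Q ⊓ Subgroup.centralizer (Q : Set G)).subgroupOf
      (Subgroup.centralizer (Q : Set G))) := by
  set Z : Subgroup (Subgroup.centralizer (Q : Set G)) := (Q ⊓ (Subgroup.centralizer (Q : Set G))).subgroupOf (Subgroup.centralizer (Q : Set G)) with hZ
  have hmemZ : ∀ z : (Subgroup.centralizer (Q : Set G)), z ∈ Z ↔ (z : G) ∈ Q := by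
    intro z
    rw [hZ, Subgroup.mem_subgroupOf, Subgroup.mem_inf]
    exact ⟨fun h => h.1, fun h => ⟨h, z.2⟩⟩
  have hZc : ∀ z ∈ Z, ∀ g : (Subgroup.centralizer (Q : Set G)), g * z = z * g := by
    intro z hz g
    apply Subtype.ext
    exact ((Subgroup.mem_centralizer_iff.1 g.2) z ((hmemZ z).1 hz)).symm
  haveI hZn : Z.Normal := by
    constructor
    intro z hz g
    rw [hZc z hz g, mul_assoc, mul_inv_cancel, mul_one]
    exact hz
  have hZp : IsPGroup p Z :=
    (he.1.to_le inf_le_left).of_equiv (Subgroup.subgroupOfEquivOfLe inf_le_right).symm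
  have hcardZ : Nat.card Z = Nat.card ↥(Q ⊓ (Subgroup.centralizer (Q : Set G))) := card_subgroupOf_of_le inf_le_right
  have hcardZ' : p ^ (Nat.card Z).factorization p = Nat.card Z := by
    obtain ⟨j, hj⟩ := IsPGroup.iff_card.1 hZp
    rw [hj, Nat.Prime.factorization_pow hp.out, Finsupp.single_eq_same]
  have hdef : IsDef p (Subgroup.centralizer (Q : Set G)) (sbl M (Subgroup.centralizer (Q : Set G)) e) (Q ⊓ (Subgroup.centralizer (Q : Set G))) := by
    refine ⟨inf_le_right, he.1.to_le inf_le_left, ?_, ?_⟩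
    · rw [br_eq_self ((isBlk_sbl he.2).supp.mono
        (Subgroup.centralizer_le (by exact_mod_cast (inf_le_left : Q ⊓ (Subgroup.centralizer (Q : Set G)) ≤ Q))))]
      exact (isBlk_sbl he.2).ne_zero
    · intro R hRC hR hbr
      have hmap : (R.subgroupOf (Subgroup.centralizer (Q : Set G))).map (Subgroup.centralizer (Q : Set G)).subtype = R := Subgroup.map_subgroupOf_eq_of_le hRC
      have h1 : br (R.subgroupOf (Subgroup.centralizer (Q : Set G))) (bl M e) ≠ 0 := by
        rw [br_bl_ne_zero_iff, hmap]; exact hbr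
      have hR' : IsPGroup p (R.subgroupOf (Subgroup.centralizer (Q : Set G))) :=
        hR.of_equiv (Subgroup.subgroupOfEquivOfLe hRC).symm
      have h2 := card_le_of_defect_zero_mod_central hM he.2 Z hZc hθ
        (fun u hu => hker u ((hmemZ u).1 hu)) (by rw [hcardZ]; exact hdeg) hR' h1
      rwa [hcardZ', hcardZ, card_subgroupOf_of_le hRC] at h2
  exact (isDefectGroup_subgroupOf_iff hM he.2 inf_le_right).2 hdef

theorem s4694 (hM : IsPModular p M) (B : Set (IrrCharacter G)) (Q : Subgroup G)
    (e : Set (IrrCharacter (Subgroup.centralizer (Q : Set G))))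
    (hQe : IsBrauerPairOf p M B Q e) (T : Subgroup G)
    (hT : ∀ y : G, y ∈ T ↔ y ∈ Subgroup.normalizer (Q : Set G) ∧
      StabilizesBlock (Subgroup.centralizer (Q : Set G)) e y)
    (F' : Set (IrrCharacter T)) (hF' : IsPBlock M F')
    (hF'e : ∀ t : T, blockCoeff F' t
      = subgroupBlockCoeff (Subgroup.centralizer (Q : Set G)) e (t : G))
    (χ : IrrCharacter T) (hχ : χ ∈ F')
    (hχQ : ∀ q : G, q ∈ Q → ∀ t : T, ∀ t' : T, (t' : G) = q * (t : G) →
      (χ : T → ℂ) t' = (χ : T → ℂ) t)
    (hdeg : (charDegree (χ : T → ℂ)).factorization p + (Nat.card Q).factorization p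
      = (Nat.card T).factorization p) :
    IsDefectGroup p M e ((Q ⊓ Subgroup.centralizer (Q : Set G)).subgroupOf
      (Subgroup.centralizer (Q : Set G))) ∧
    ∀ R : Subgroup G, R ≤ T → IsPGroup p R →
      (∀ t ∈ T, t ∈ Subgroup.normalizer (R : Set G)) → R ≤ Q := by
  have he := hQe.1
  have hpa := isPair_of_isBrauerPair he
  have hTN : T ≤ Subgroup.normalizer (Q : Set G) := fun y hy => ((hT y).1 hy).1
  have hQT : Q ≤ T := by
    intro q hq
    refine (hT q).2 ⟨Subgroup.le_normalizer hq, (stabilizesBlock_iff he.2 q).2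
      ⟨normalizer_le_normalizer_centralizer _ (Subgroup.le_normalizer hq), hpa.inv_self q hq⟩⟩
  have hCT : Subgroup.centralizer (Q : Set G) ≤ T := by
    intro c hc
    refine (hT c).2 ⟨centralizer_le_normalizer' Q hc, (stabilizesBlock_iff he.2 c).2
      ⟨Subgroup.le_normalizer hc, (isBlk_sbl he.2).inv c hc⟩⟩
  haveI hQn : (Q.subgroupOf T).Normal := Subgroup.normal_subgroupOf_iff_le_normalizer hQT |>.2 hTN
  haveI hCn : ((Subgroup.centralizer (Q : Set G)).subgroupOf T).Normal :=
    Subgroup.normal_subgroupOf_iff_le_normalizer hCT |>.2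
      (hTN.trans (normalizer_le_normalizer_centralizer Q))
  have hker : ∀ u ∈ Q.subgroupOf T, (χ : T → ℂ) u = (χ : T → ℂ) 1 := by
    intro u hu
    exact hχQ (u : G) (Subgroup.mem_subgroupOf.1 hu) 1 u (by simp)
  have hdeg' : (charDegree (χ : T → ℂ)).factorization p
      + (Nat.card (Q.subgroupOf T)).factorization p = (Nat.card T).factorization p := by
    rw [card_subgroupOf_of_le hQT]; exact hdeg
  constructor
  · obtain ⟨θ₁, hcon, hk, hd⟩ := exists_defect_zero_constituent (Q.subgroupOf T)
      ((Subgroup.centralizer (Q : Set G)).subgroupOf T) χ hker hdeg'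
    have hFe : blockCoeff F' = extH ((Subgroup.centralizer (Q : Set G)).subgroupOf T)
        (blockCoeff (towerBlock hCT e)) := by
      funext t
      rw [hF'e t]
      by_cases ht : t ∈ (Subgroup.centralizer (Q : Set G)).subgroupOf T
      · rw [extH_of_mem _ _ ht, blockCoeff_blockComap,
          subgroupBlockCoeff_of_mem _ _ (Subgroup.mem_subgroupOf.1 ht)]
        rfl
      · rw [subgroupBlockCoeff_of_not_mem _ _ (fun h => ht (Subgroup.mem_subgroupOf.2 h))]
        simp [extH, ht]
    have hθ₁ := mem_of_blockCoeff_eq_extH _ hFe hχ hcon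
    rw [mem_blockComap] at hθ₁
    apply isDefectGroup_center_of_char hM he hθ₁
    · intro z hz
      rw [irrComap_apply, irrComap_apply, map_one]
      apply hk
      exact hz
    · rw [charDegree_irrComap]
      have h1 : Q.subgroupOf T ⊓ (Subgroup.centralizer (Q : Set G)).subgroupOf T
          = (Q ⊓ Subgroup.centralizer (Q : Set G)).subgroupOf T := rfl
      rw [h1, card_subgroupOf_of_le (inf_le_left.trans hQT), card_subgroupOf_of_le hCT] at hd
      exact hd
  · intro R hRT hR hRn
    haveI hRn' : (R.subgroupOf T).Normal :=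
      Subgroup.normal_subgroupOf_iff_le_normalizer hRT |>.2 hRn
    have h1 := normal_pgroup_le_of_defect_zero (Q.subgroupOf T) (R.subgroupOf T)
      (hR.of_equiv (Subgroup.subgroupOfEquivOfLe hRT).symm) χ hker hdeg'
    intro r hr
    exact Subgroup.mem_subgroupOf.1 (h1 (show (⟨r, hRT hr⟩ : T) ∈ R.subgroupOf T from
      Subgroup.mem_subgroupOf.2 hr))

end

end Cfsg.Agent.Lib.Helper26.BP
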