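import Cfsg.Agent.Lib.Helper26.FrattiniInd2
import Cfsg.Agent.Lib.Helper26.Invariant
import Cfsg.Agent.Lib.Helper26.Transport
import Cfsg.Agent.Lib.Helper26.MkSub
import Cfsg.Agent.Lib.Helper26.CentricExt

set_option autoImplicit false

namespace Cfsg.Agent.Lib.Helper26

open Cfsg Cfsg.FusionSystem

variable {Ω : Type*} [Group Ω] {S : Subgroup Ω}

/-- `O^{p'}(Aut_F(P))` -/
def OP (F : FusionSystem S) (p : ℕ) (P : Subgroup Ω) : Subgroup (MulAut P) :=
  (Subgroup.closure {α : F.autGroup P | ∃ k : ℕ, orderOf α = p ^ k}).map (F.autGroup P).subtype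

lemma OP_le (F : FusionSystem S) (p : ℕ) (P : Subgroup Ω) : OP F p P ≤ F.autGroup P := by
  rintro _ ⟨α, -, rfl⟩
  exact α.2

lemma mem_OP_of_orderOf {F : FusionSystem S} {p : ℕ} {P : Subgroup Ω} {α : MulAut P}
    (hα : α ∈ F.autGroup P) {k : ℕ} (hk : orderOf α = p ^ k) : α ∈ OP F p P := by
  refine ⟨⟨α, hα⟩, Subgroup.subset_closure ⟨k, ?_⟩, rfl⟩
  rw [← hk]
  exact Subgroup.orderOf_mk α hα

lemma OP_le_of {F : FusionSystem S} {p : ℕ} {P : Subgroup Ω} {H : Subgroup (MulAut P)}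
    (h : ∀ α ∈ F.autGroup P, ∀ k : ℕ, orderOf α = p ^ k → α ∈ H) : OP F p P ≤ H := by
  unfold OP
  rw [Subgroup.map_le_iff_le_comap, Subgroup.closure_le]
  rintro α ⟨k, hk⟩
  refine h α α.2 k ?_
  rw [← hk]
  exact Subgroup.orderOf_coe α

lemma OP_transport {F : FusionSystem S} {p : ℕ} {P Q : Subgroup Ω} {e : P ≃* Q}
    (he : Helper27.IsIso F e) {κ : MulAut P} (hκ : κ ∈ OP F p P) :
    MulAut.congr e κ ∈ OP F p Q := by
  have : OP F p P ≤ (OP F p Q).comap (MulAut.congr e).toMonoidHom := by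
    apply OP_le_of
    intro α hα k hk
    refine mem_OP_of_orderOf (k := k) (he.congr_mem_autGroup hα) ?_
    rw [← hk]
    exact orderOf_injective (MulAut.congr e).toMonoidHom (MulAut.congr e).injective α
  exact this hκ

lemma OP_normal (F : FusionSystem S) (p : ℕ) (P : Subgroup Ω) :
    F.autGroup P ≤ Subgroup.normalizer (OP F p P : Set (MulAut P)) := by
  have key : ∀ β ∈ F.autGroup P, ∀ κ ∈ OP F p P, β * κ * β⁻¹ ∈ OP F p P := by
    intro β hβ κ hκ
    have : OP F p P ≤ (OP F p P).comap (MulAut.conj β).toMonoidHom := by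
      apply OP_le_of
      intro α hα k hk
      refine mem_OP_of_orderOf (k := k)
        (Subgroup.mul_mem _ (Subgroup.mul_mem _ hβ hα) (Subgroup.inv_mem _ hβ)) ?_
      rw [← hk]
      exact orderOf_injective (MulAut.conj β).toMonoidHom (MulAut.conj β).injective α
    exact this hκ
  intro β hβ
  rw [Subgroup.mem_normalizer_iff]
  intro κ
  refine ⟨key β hβ κ, fun h => ?_⟩
  have := key β⁻¹ (Subgroup.inv_mem _ hβ) _ h
  have e : β⁻¹ * (β * κ * β⁻¹) * β⁻¹⁻¹ = κ := by group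
  rwa [e] at this

lemma autInducedBy_le_OP {p : ℕ} [Fact p.Prime] (hS : IsPGroup p S) (F : FusionSystem S)
    {P : Subgroup Ω} (hP : P ≤ S) : autInducedBy S P ≤ OP F p P := by
  intro α hα
  obtain ⟨k, hk⟩ := IsPGroup.iff_orderOf.mp (Helper27.autInducedBy_isPGroup hS P) ⟨α, hα⟩
  refine mem_OP_of_orderOf (k := k) (Helper27.autInducedBy_le_autGroup F hP hα) ?_
  rw [← hk]
  exact (Subgroup.orderOf_mk α hα).symm

/-- the predicate cutting out the largest `Aut_F(S)`-invariant subsystem of `E` -/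
def invPred (E F : FusionSystem S) (P : Subgroup Ω) (g : Ω → Ω) : Prop :=
  P ≤ S ∧ ∀ γ ∈ F.autGroup S, IsMap E (img P (autFun γ)) (fun y => autFun γ (g (autFun γ⁻¹ y)))

lemma invPred_subPred (E F : FusionSystem S) : SubPred F S (invPred E F) where
  congr := by
    rintro P f g hfg ⟨hP, h⟩
    refine ⟨hP, fun γ hγ => (h γ hγ).congr (fun y hy => ?_)⟩
    have hγm := ((mem_autGroup_iff le_rfl).mp hγ).mono hP
    obtain ⟨x, hx, rfl⟩ := hγm.mem_img.mp hy
    show autFun γ (f (autFun γ⁻¹ (autFun γ x))) = autFun γ (g (autFun γ⁻¹ (autFun γ x)))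
    rw [autFun_inv_autFun γ (hP hx), hfg x hx]
  conj := by
    intro P a hP ha
    refine ⟨hP, fun γ hγ => ?_⟩
    have hγS := (mem_autGroup_iff le_rfl).mp hγ
    have hγm := hγS.mono hP
    refine (isMap_conj E hγm.img_le (autFun_mem γ ha)).congr (fun y hy => ?_)
    obtain ⟨x, hx, rfl⟩ := hγm.mem_img.mp hy
    show autFun γ a * autFun γ x * (autFun γ a)⁻¹ = autFun γ (a * autFun γ⁻¹ (autFun γ x) * a⁻¹)
    rw [autFun_inv_autFun γ (hP hx), hγS.map_mul (S.mul_mem ha (hP hx)) (S.inv_mem ha),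
      hγS.map_mul ha (hP hx), hγS.map_inv ha]
  comp := by
    rintro P Q f g hf hg hP hQ hfQ hgS ⟨-, h1⟩ ⟨-, h2⟩
    refine ⟨hP, fun γ hγ => ?_⟩
    have hγS := (mem_autGroup_iff le_rfl).mp hγ
    have hγm := hγS.mono hP
    refine ((h1 γ hγ).comp (h2 γ hγ) ?_).congr ?_
    · intro y hy
      obtain ⟨x, hx, rfl⟩ := hγm.mem_img.mp hy
      show autFun γ (f (autFun γ⁻¹ (autFun γ x))) ∈ _
      rw [autFun_inv_autFun γ (hP hx)]
      exact mem_img_of_mem (hfQ x hx)
    · intro y hy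
      obtain ⟨x, hx, rfl⟩ := hγm.mem_img.mp hy
      show autFun γ (g (autFun γ⁻¹ (autFun γ (f (autFun γ⁻¹ (autFun γ x)))))) =
        autFun γ (g (f (autFun γ⁻¹ (autFun γ x))))
      rw [autFun_inv_autFun γ (hP hx), autFun_inv_autFun γ (hQ (hfQ x hx))]
  inv := by
    rintro P f g hf hP hfS hg hgf ⟨-, h1⟩
    refine ⟨hf.img_le, fun γ hγ => ?_⟩
    have hγS := (mem_autGroup_iff le_rfl).mp hγ
    have hγm := hγS.mono hP
    have hγm' := hγS.mono hf.img_le
    obtain ⟨k, hk, hk1, -⟩ := (h1 γ hγ).exists_inv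
    have e : img (img P (autFun γ)) (fun y => autFun γ (f (autFun γ⁻¹ y))) =
        img (img P f) (autFun γ) := by
      apply le_antisymm
      · apply (Subgroup.closure_le _).mpr
        rintro _ ⟨y, hy, rfl⟩
        obtain ⟨x, hx, rfl⟩ := hγm.mem_img.mp hy
        show autFun γ (f (autFun γ⁻¹ (autFun γ x))) ∈ _
        rw [autFun_inv_autFun γ (hP hx)]
        exact mem_img_of_mem (mem_img_of_mem hx)
      · apply (Subgroup.closure_le _).mpr
        rintro _ ⟨y, hy, rfl⟩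
        obtain ⟨x, hx, rfl⟩ := hf.mem_img.mp hy
        have : autFun γ (f (autFun γ⁻¹ (autFun γ x))) ∈
            img (img P (autFun γ)) (fun y => autFun γ (f (autFun γ⁻¹ y))) :=
          mem_img_of_mem (f := fun y => autFun γ (f (autFun γ⁻¹ y))) (mem_img_of_mem hx)
        rwa [autFun_inv_autFun γ (hP hx)] at this
    rw [e] at hk
    refine hk.congr (fun z hz => ?_)
    obtain ⟨y, hy, rfl⟩ := hγm'.mem_img.mp hz
    obtain ⟨x, hx, rfl⟩ := hf.mem_img.mp hy
    have h2 : k (autFun γ (f (autFun γ⁻¹ (autFun γ x)))) = autFun γ x :=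
      hk1 (autFun γ x) (mem_img_of_mem hx)
    rw [autFun_inv_autFun γ (hP hx)] at h2
    show k (autFun γ (f x)) = autFun γ (g (autFun γ⁻¹ (autFun γ (f x))))
    rw [h2, autFun_inv_autFun γ (hfS x hx), hgf x hx]

/-- the largest `Aut_F(S)`-invariant subsystem of `E ∩ F` -/
def invCore (E F : FusionSystem S) : FusionSystem S := mkSub F le_rfl (invPred_subPred E F)

lemma isMap_invCore {E F : FusionSystem S} {P : Subgroup Ω} {f : Ω → Ω} :
    IsMap (invCore E F) P f ↔ IsMap F P f ∧ ∀ γ ∈ F.autGroup S,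
      IsMap E (img P (autFun γ)) (fun y => autFun γ (f (autFun γ⁻¹ y))) := by
  unfold invCore
  rw [isMap_mkSub]
  constructor
  · rintro ⟨h1, -, -, -, h2⟩
    exact ⟨h1, h2⟩
  · rintro ⟨h1, h2⟩
    exact ⟨h1, h1.le, fun x hx => h1.mem_S hx, h1.le, h2⟩

lemma img_autFun_one {P : Subgroup Ω} (hP : P ≤ S) : img P (autFun (1 : MulAut S)) = P := by
  apply le_antisymm
  · apply (Subgroup.closure_le _).mpr
    rintro _ ⟨x, hx, rfl⟩
    rw [autFun_one (hP hx)]
    exact hx
  · intro x hx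
    have : autFun (1 : MulAut S) x ∈ img P (autFun (1 : MulAut S)) := mem_img_of_mem hx
    rwa [autFun_one (hP hx)] at this

lemma invCore_le {E F : FusionSystem S} {P : Subgroup Ω} {f : Ω → Ω}
    (h : IsMap (invCore E F) P f) : IsMap E P f := by
  obtain ⟨h1, h2⟩ := isMap_invCore.mp h
  have h3 := h2 1 (Subgroup.one_mem _)
  rw [img_autFun_one h1.le] at h3
  refine h3.congr (fun x hx => ?_)
  show autFun (1 : MulAut S) (f (autFun (1 : MulAut S)⁻¹ x)) = f x
  rw [inv_one, autFun_one (h1.le hx), autFun_one (h1.mem_S hx)]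

lemma invCore_invCond (E F : FusionSystem S) : InvCond (invCore E F) F := by
  intro P hP f hf α hα
  obtain ⟨h1, h2⟩ := isMap_invCore.mp hf
  have hαS := (mem_autGroup_iff le_rfl).mp hα
  have hαiS := (mem_autGroup_iff le_rfl).mp (Subgroup.inv_mem _ hα)
  have hαm := hαS.mono hP
  refine ⟨fun y => autFun α (f (autFun α⁻¹ y)), ?_, fun x hx => ?_⟩
  · rw [isMap_invCore]
    constructor
    · have hm1 : IsMap F (img P (autFun α)) (f ∘ autFun α⁻¹) :=
        (hαiS.mono hαm.img_le).comp h1 (fun y hy => by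
          obtain ⟨x, hx, rfl⟩ := hαm.mem_img.mp hy
          rw [autFun_inv_autFun α (hP hx)]
          exact hx)
      exact hm1.comp hαS (fun y hy => by
          obtain ⟨x, hx, rfl⟩ := hαm.mem_img.mp hy
          show f (autFun α⁻¹ (autFun α x)) ∈ S
          rw [autFun_inv_autFun α (hP hx)]
          exact h1.mem_S hx)
    · intro γ hγ
      have hγS := (mem_autGroup_iff le_rfl).mp hγ
      have h3 := h2 (γ * α) (Subgroup.mul_mem _ hγ hα)
      have e : img P (autFun (γ * α)) = img (img P (autFun α)) (autFun γ) := by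
        rw [← hαm.img_comp hγS (fun x hx => hαm.mem_S hx)]
        exact img_congr (fun x hx => autFun_mul γ α (hP hx))
      rw [e] at h3
      refine h3.congr (fun z hz => ?_)
      obtain ⟨y, hy, rfl⟩ := (hγS.mono hαm.img_le).mem_img.mp hz
      obtain ⟨x, hx, rfl⟩ := hαm.mem_img.mp hy
      have hαx : autFun α x ∈ S := hαm.mem_S hx
      show autFun (γ * α) (f (autFun (γ * α)⁻¹ (autFun γ (autFun α x)))) =
        autFun γ (autFun α (f (autFun α⁻¹ (autFun γ⁻¹ (autFun γ (autFun α x))))))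
      rw [autFun_inv_autFun γ hαx, autFun_inv_autFun α (hP hx), ← autFun_mul γ α (hP hx),
        autFun_inv_autFun (γ * α) (hP hx), autFun_mul γ α (h1.mem_S hx)]
  · show autFun α (f (autFun α⁻¹ (autFun α x))) = _
    rw [autFun_inv_autFun α (hP hx)]

lemma isCentric_of_isConj {F : FusionSystem S} {P Q : Subgroup Ω} (hP : F.IsCentric P)
    (h : F.IsConj P Q) : F.IsCentric Q :=
  ⟨isConj_le_right h, fun R hR => hP.2 R (isConj_trans h hR)⟩

lemma OP_le_invCore {E F : FusionSystem S} {p : ℕ}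
    (h : ∀ P : Subgroup Ω, F.IsCentric P → OP F p P ≤ E.autGroup P) {U : Subgroup Ω}
    (hU : F.IsCentric U) : OP F p U ≤ (invCore E F).autGroup U := by
  intro κ hκ
  have hUS := hU.1
  rw [mem_autGroup_iff hUS, isMap_invCore]
  refine ⟨(mem_autGroup_iff hUS).mp (OP_le F p U hκ), fun γ hγ => ?_⟩
  have hγS := (mem_autGroup_iff le_rfl).mp hγ
  have hγm := hγS.mono hUS
  obtain ⟨e, he, hef⟩ := hγm.exists_iso rfl
  have hQ : F.IsCentric (img U (autFun γ)) := isCentric_of_isConj hU (isConj_iff.mpr ⟨_, hγm, rfl⟩)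
  have h1 := h _ hQ (OP_transport he hκ)
  rw [mem_autGroup_iff hQ.1] at h1
  refine h1.congr (fun y hy => ?_)
  obtain ⟨x, hx, rfl⟩ := hγm.mem_img.mp hy
  rw [autFun_inv_autFun γ (hUS hx), autFun_of_mem _ hy, autFun_of_mem κ hx, ← hef]
  show ((e (κ (e.symm _)) : img U (autFun γ)) : Ω) = _
  congr 3
  rw [MulEquiv.symm_apply_eq]
  apply Subtype.ext
  exact (hef ⟨x, hx⟩).symm

variable [Finite S] {p : ℕ} [Fact p.Prime]

/-- the Frattini condition from the invariance condition, given suitable normal subgroups `K`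
of the automizers of fully normalized subgroups. -/
theorem fratCond_of_invCond (hS : IsPGroup p S) {F : FusionSystem S} (hF : F.IsSaturated p)
    {T : Subgroup Ω} {E : FusionSystem T} (hT : F.StronglyClosed T)
    (hinv : InvCond E F)
    (hK : ∀ U, U ≤ T → F.IsFullyNormalized U → ¬ normalizerIn T U ≤ U →
      (∀ P' : Subgroup Ω, Nat.card U < Nat.card P' → P' ≤ T → ∀ f, IsMap F P' f →
        ∃ α ∈ F.autGroup T, ∃ f₀, IsMap E P' f₀ ∧ ∀ x ∈ P', f x = autFun α (f₀ x)) →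
      ∃ K : Subgroup (MulAut U), K ≤ F.autGroup U ∧
        F.autGroup U ≤ Subgroup.normalizer (K : Set (MulAut U)) ∧
        autInducedBy T U ≤ K ∧ ∀ κ ∈ K,
          ∃ α ∈ F.autGroup T, ∃ f₀, IsMap E U f₀ ∧ ∀ x ∈ U, autFun κ x = autFun α (f₀ x)) :
    FratCond E F := by
  have hTS := hT.1
  have key := frattini_induction' hS hF hT (fun P => P ≤ T)
    (fun P f => ∃ α ∈ F.autGroup T, ∃ f₀, IsMap E P f₀ ∧ ∀ x ∈ P, f x = autFun α (f₀ x))
    (by
      intro P f hPT hf y hy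
      obtain ⟨x, hx, rfl⟩ := hf.mem_img.mp hy
      exact stronglyClosed_map_mem hT hf hx (hPT hx))
    (fun P hPT _ => sup_le hPT inf_le_left)
    (by
      rintro P f f' ⟨α, hα, f₀, hf₀, hff₀⟩ hff'
      exact ⟨α, hα, f₀, hf₀, fun x hx => by rw [← hff' x hx]; exact hff₀ x hx⟩)
    (by
      rintro P f g hPT hf hg ⟨α, hα, f₀, hf₀, hff₀⟩ ⟨β, hβ, g₀, hg₀, hgg₀⟩
      obtain ⟨k, hk, hk'⟩ := hinv (img P f) hg₀.le g₀ hg₀ α⁻¹ (Subgroup.inv_mem _ hα)
      have e : img (img P f) (autFun α⁻¹) = img P f₀ := by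
        apply le_antisymm
        · apply (Subgroup.closure_le _).mpr
          rintro _ ⟨y, hy, rfl⟩
          obtain ⟨x, hx, rfl⟩ := hf.mem_img.mp hy
          rw [hff₀ x hx, autFun_inv_autFun α (hf₀.mem_S hx)]
          exact mem_img_of_mem hx
        · apply (Subgroup.closure_le _).mpr
          rintro _ ⟨x, hx, rfl⟩
          have : autFun α⁻¹ (f x) ∈ img (img P f) (autFun α⁻¹) :=
            mem_img_of_mem (mem_img_of_mem hx)
          rwa [hff₀ x hx, autFun_inv_autFun α (hf₀.mem_S hx)] at this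
      rw [e] at hk
      refine ⟨β * α, Subgroup.mul_mem _ hβ hα, k ∘ f₀,
        hf₀.comp hk (fun x hx => mem_img_of_mem hx), fun x hx => ?_⟩
      show g (f x) = autFun (β * α) (k (f₀ x))
      have h1 := hk' (f x) (mem_img_of_mem hx)
      rw [hff₀ x hx, autFun_inv_autFun α (hf₀.mem_S hx), ← hff₀ x hx] at h1
      rw [autFun_mul _ _ (hk.mem_S (mem_img_of_mem hx)), h1,
        autFun_autFun_inv α (hg₀.mem_S (mem_img_of_mem hx)), hgg₀ _ (mem_img_of_mem hx)])
    (by
      rintro P f g hPT hf hg hgf ⟨α, hα, f₀, hf₀, hff₀⟩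
      obtain ⟨fi, hfi, hfi1, -⟩ := hf₀.exists_inv
      obtain ⟨k, hk, hk'⟩ := hinv (img P f₀) hf₀.img_le fi hfi α hα
      have e : img (img P f₀) (autFun α) = img P f := by
        apply le_antisymm
        · apply (Subgroup.closure_le _).mpr
          rintro _ ⟨y, hy, rfl⟩
          obtain ⟨x, hx, rfl⟩ := hf₀.mem_img.mp hy
          rw [← hff₀ x hx]
          exact mem_img_of_mem hx
        · apply (Subgroup.closure_le _).mpr
          rintro _ ⟨x, hx, rfl⟩
          rw [hff₀ x hx]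
          exact mem_img_of_mem (mem_img_of_mem hx)
      rw [e] at hk
      refine ⟨α⁻¹, Subgroup.inv_mem _ hα, k, hk, fun y hy => ?_⟩
      obtain ⟨x, hx, rfl⟩ := hf.mem_img.mp hy
      rw [hgf x hx, hff₀ x hx, hk' _ (mem_img_of_mem hx), hfi1 x hx,
        autFun_inv_autFun α (hPT hx)])
    (by
      rintro P Q f - - hQP hf ⟨α, hα, f₀, hf₀, hff₀⟩
      exact ⟨α, hα, f₀, hf₀.mono hQP, fun x hx => hff₀ x (hQP hx)⟩)
    (by
      intro P f hPT hf hle
      have hTP := le_of_normalizerIn_le hS hT hf.le hle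
      obtain rfl : P = T := le_antisymm hPT hTP
      obtain ⟨α, hα, hαf⟩ := hf.exists_aut (img_eq_of_stronglyClosed hT hf le_rfl)
      refine ⟨α, hα, id, isMap_id E le_rfl, fun x hx => ?_⟩
      rw [id, autFun_of_mem α hx, hαf])
    hK
  exact fun P hPT f hf => key P f hPT hf

omit [Finite S] in
lemma stronglyClosed_self (F : FusionSystem S) : F.StronglyClosed S :=
  stronglyClosed_iff.mpr ⟨le_rfl, fun _ _ _ hf _ hx => hf.mem_S hx⟩

/-- a fully normalized subgroup containing its centralizer is centric -/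
lemma centric_of_fullyNormalized (hS : IsPGroup p S) {F : FusionSystem S} (hF : F.IsSaturated p)
    {U : Subgroup Ω} (hU : F.IsFullyNormalized U) (hc : centralizerIn S U ≤ U) :
    F.IsCentric U := by
  refine ⟨hU.1, fun Q hQ => ?_⟩
  obtain ⟨χ, hχ, hχN, hχimg⟩ := exists_normalizer_isMap hS hF hU (isConj_symm hQ)
  have hQS := isConj_le_right hQ
  have hQN : Q ≤ normalizerIn S Q := fun x hx => ⟨hQS hx, Subgroup.le_normalizer hx⟩
  have hCN : centralizerIn S Q ≤ normalizerIn S Q := fun x hx =>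
    ⟨hx.1, Subgroup.centralizer_le_normalizer _ hx.2⟩
  intro c hc'
  have h1 : χ c ∈ centralizerIn S U := by
    refine ⟨hχ.mem_S (hCN hc'), ?_⟩
    apply Subgroup.mem_centralizer_iff.mpr
    intro u hu
    have hu' : u ∈ img Q χ := by rw [hχimg]; exact hu
    obtain ⟨x, hx, rfl⟩ := (hχ.mono hQN).mem_img.mp hu'
    rw [← hχ.map_mul (hQN hx) (hCN hc'), ← hχ.map_mul (hCN hc') (hQN hx),
      (Subgroup.mem_centralizer_iff.mp hc'.2) x hx]
  have h2 := hc h1
  rw [← hχimg] at h2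
  obtain ⟨x, hx, hxc⟩ := (hχ.mono hQN).mem_img.mp h2
  have := hχ.inj (hQN hx) (hCN hc') hxc
  exact this ▸ hx

theorem fratCond_invCore (hS : IsPGroup p S) {F : FusionSystem S} (hF : F.IsSaturated p)
    {E : FusionSystem S}
    (h : ∀ P : Subgroup Ω, F.IsCentric P → OP F p P ≤ E.autGroup P) :
    FratCond (invCore E F) F := by
  apply fratCond_of_invCond hS hF (stronglyClosed_self F) (invCore_invCond E F)
  intro U _ hU _ IH
  have hUS := hU.1
  obtain ⟨-, hUaut, hUrec⟩ := Helper27.IsSaturated.fullyNormalized_props hS hF hU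
  by_cases hc : centralizerIn S U ≤ U
  · have hUc := centric_of_fullyNormalized hS hF hU hc
    refine ⟨OP F p U, OP_le F p U, OP_normal F p U, autInducedBy_le_OP hS F hUS, fun κ hκ => ?_⟩
    refine ⟨1, Subgroup.one_mem _, autFun κ,
      (mem_autGroup_iff hUS).mp (OP_le_invCore h hUc hκ), fun x hx => ?_⟩
    rw [autFun_one (hUS (autFun_mem κ hx))]
  · refine ⟨F.autGroup U, le_rfl, Subgroup.le_normalizer,
      Helper27.autInducedBy_le_autGroup F hUS, fun κ hκ => ?_⟩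
    have hκm := (mem_autGroup_iff hUS).mp hκ
    obtain ⟨κ', hκ', hκκ'⟩ := exists_ext_sup_of_receptive (A := centralizerIn S U) hUrec hκm
      (img_autFun κ) (by
        intro g hg
        refine ⟨hg.1, Subgroup.centralizer_le_normalizer _ hg.2, 1, S.one_mem, fun x hx => ?_⟩
        have : g * x * g⁻¹ = x := by
          rw [← (Subgroup.mem_centralizer_iff.mp hg.2) x hx, mul_inv_cancel_right]
        rw [this]; simp)
    have hlt : Nat.card U < Nat.card ↥(U ⊔ centralizerIn S U) := by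
      obtain ⟨g, hg, hgU⟩ := SetLike.not_le_iff_exists.mp hc
      have : Finite ↥(U ⊔ centralizerIn S U) := finite_of_le (sup_le hUS inf_le_left)
      exact Helper27.card_lt_card_of_le_of_not_mem le_sup_left
        ((le_sup_right : centralizerIn S U ≤ U ⊔ centralizerIn S U) hg) hgU
    obtain ⟨α, hα, f₀, hf₀, hff₀⟩ := IH _ hlt hκ'.le κ' hκ'
    exact ⟨α, hα, f₀, hf₀.mono le_sup_left, fun x hx => by
      rw [← hκκ' x hx]; exact hff₀ x (le_sup_left (a := U) hx)⟩

/-- Frattini condition for `E` itself -/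
theorem fratCond_of_OP (hS : IsPGroup p S) {F : FusionSystem S} (hF : F.IsSaturated p)
    {E : FusionSystem S}
    (h : ∀ P : Subgroup Ω, F.IsCentric P → OP F p P ≤ E.autGroup P) :
    FratCond E F := by
  intro P hP f hf
  obtain ⟨α, hα, f₀, hf₀, h1⟩ := fratCond_invCore hS hF h P hP f hf
  exact ⟨α, hα, f₀, invCore_le hf₀, h1⟩

theorem OP_le_of_fratCond (hS : IsPGroup p S) {F : FusionSystem S} (hF : F.IsSaturated p)
    {E : FusionSystem S} (hfr : FratCond E F) {P : Subgroup Ω} (hP : P ≤ S) :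
    OP F p P ≤ E.autGroup P := by
  apply OP_le_of
  intro α hα k hk
  obtain ⟨U, hPU, hU⟩ := Helper27.IsSaturated.exists_fullyNormalized hS hF hP
  obtain ⟨-, hUaut, -⟩ := Helper27.IsSaturated.fullyNormalized_props hS hF hU
  have hUS := hU.1
  have hfinU : Finite U := finite_of_le hUS
  obtain ⟨r, hr, hrimg⟩ := isConj_iff.mp hPU
  obtain ⟨e, he, her⟩ := hr.exists_iso hrimg
  have hα' : MulAut.congr e α ∈ F.autGroup U := he.congr_mem_autGroup hα
  have hord : orderOf (MulAut.congr e α) = p ^ k := by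
    rw [← hk]
    exact orderOf_injective (MulAut.congr e).toMonoidHom (MulAut.congr e).injective α
  have hzp : IsPGroup p (Subgroup.zpowers (MulAut.congr e α)) :=
    IsPGroup.of_card (n := k) (by rw [Nat.card_zpowers, hord])
  obtain ⟨β, hβ, hβle⟩ := SylIn.exists_conj_le hUaut.2 (Subgroup.zpowers_le.mpr hα') hzp
  have h1 : β * MulAut.congr e α * β⁻¹ ∈ autInducedBy S U :=
    hβle (conj_mem_cj (Subgroup.mem_zpowers _))
  obtain ⟨s, hs, hs'⟩ := mem_autInducedBy_iff.mp h1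
  have hβm := (mem_autGroup_iff hUS).mp hβ
  have hrU : ∀ x ∈ P, r x ∈ U := fun x hx => by rw [← hrimg]; exact mem_img_of_mem hx
  have hr' : IsMap F P (autFun β ∘ r) := hr.comp hβm hrU
  obtain ⟨a, ha, r₀, hr₀, hrr₀⟩ := hfr P hP _ hr'
  have haS := (mem_autGroup_iff le_rfl).mp ha
  have key : ∀ x ∈ P, autFun β (r (autFun α x)) = s * autFun β (r x) * s⁻¹ := by
    intro x hx
    have h2 := hs' (β (e ⟨x, hx⟩))
    rw [autFun_of_mem α hx, ← her, autFun_apply, ← her ⟨x, hx⟩, autFun_apply, ← h2]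
    show _ = ((β (e (α (e.symm (β⁻¹ (β (e ⟨x, hx⟩)))))) : U) : Ω)
    rw [MulAut.inv_apply_self, MulEquiv.symm_apply_apply]
  rw [mem_autGroup_iff hP]
  obtain ⟨ri, hri, hri1, hri2⟩ := hr₀.exists_inv
  have ht : autFun a⁻¹ s ∈ S := autFun_mem _ hs
  have hm1 : IsMap E P ((fun y => autFun a⁻¹ s * y * (autFun a⁻¹ s)⁻¹) ∘ r₀) :=
    hr₀.comp (isMap_conj E hr₀.img_le ht) (fun x hx => mem_img_of_mem hx)
  have hm1eq : ∀ x ∈ P, autFun a⁻¹ s * r₀ x * (autFun a⁻¹ s)⁻¹ = r₀ (autFun α x) := by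
    intro x hx
    have hx0 : r₀ x ∈ S := hr₀.mem_S hx
    apply haS.inj (S.mul_mem (S.mul_mem ht hx0) (S.inv_mem ht)) (hr₀.mem_S (autFun_mem α hx))
    rw [haS.map_mul (S.mul_mem ht hx0) (S.inv_mem ht), haS.map_mul ht hx0, haS.map_inv ht,
      autFun_autFun_inv a hs, ← hrr₀ x hx, ← hrr₀ _ (autFun_mem α hx)]
    exact (key x hx).symm
  have hm2 : IsMap E P (ri ∘ ((fun y => autFun a⁻¹ s * y * (autFun a⁻¹ s)⁻¹) ∘ r₀)) :=
    hm1.comp hri (fun x hx => by
      show autFun a⁻¹ s * r₀ x * (autFun a⁻¹ s)⁻¹ ∈ _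
      rw [hm1eq x hx]; exact mem_img_of_mem (autFun_mem α hx))
  refine hm2.congr (fun x hx => ?_)
  show ri (autFun a⁻¹ s * r₀ x * (autFun a⁻¹ s)⁻¹) = autFun α x
  rw [hm1eq x hx, hri1 _ (autFun_mem α hx)]

omit [Finite S] in
theorem centric_iff_of_fratCond {E F : FusionSystem S}
    (hEF : ∀ P f, IsMap E P f → IsMap F P f) (hfr : FratCond E F) (P : Subgroup Ω) :
    E.IsCentric P ↔ F.IsCentric P := by
  constructor
  · rintro ⟨hP, h⟩
    refine ⟨hP, fun Q hQ => ?_⟩
    obtain ⟨f, hf, rfl⟩ := isConj_iff.mp hQ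
    obtain ⟨a, ha, f₀, hf₀, hff₀⟩ := hfr P hP f hf
    have h1 := h (img P f₀) (isConj_iff.mpr ⟨f₀, hf₀, rfl⟩)
    have haS := (mem_autGroup_iff le_rfl).mp ha
    have haiS := (mem_autGroup_iff le_rfl).mp (Subgroup.inv_mem _ ha)
    intro c hc
    have h2 : autFun a⁻¹ c ∈ centralizerIn S (img P f₀) := by
      refine ⟨autFun_mem _ hc.1, Subgroup.mem_centralizer_iff.mpr ?_⟩
      intro y hy
      obtain ⟨x, hx, rfl⟩ := hf₀.mem_img.mp hy
      have e1 : f₀ x = autFun a⁻¹ (f x) := by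
        rw [hff₀ x hx, autFun_inv_autFun a (hf₀.mem_S hx)]
      rw [e1, ← haiS.map_mul (hf.mem_S hx) hc.1, ← haiS.map_mul hc.1 (hf.mem_S hx),
        (Subgroup.mem_centralizer_iff.mp hc.2) (f x) (mem_img_of_mem hx)]
    obtain ⟨x, hx, hxc⟩ := hf₀.mem_img.mp (h1 h2)
    have : f x = c := by rw [hff₀ x hx, hxc, autFun_autFun_inv a hc.1]
    exact this ▸ mem_img_of_mem hx
  · rintro ⟨hP, h⟩
    refine ⟨hP, fun Q hQ => h Q ?_⟩
    obtain ⟨f, hf, rfl⟩ := isConj_iff.mp hQ
    exact isConj_iff.mpr ⟨f, hEF _ _ hf, rfl⟩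

end Cfsg.Agent.Lib.Helper26
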