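import Cfsg.Agent.Lib.Helper26.NormSys
import Cfsg.Agent.Lib.Helper26.PrimeIndex
import Cfsg.Agent.Lib.Helper27.FusionNormalizer

set_option autoImplicit false

namespace Cfsg.Agent.Lib.Helper26

open Cfsg Cfsg.FusionSystem

variable {Ω : Type*} [Group Ω] {S : Subgroup Ω}

lemma autGroup_eq_of_isMap_iff {T : Subgroup Ω} {R : FusionSystem T} {F : FusionSystem S}
    {P : Subgroup Ω} (hPT : P ≤ T) (hPS : P ≤ S) (h : ∀ f, IsMap R P f ↔ IsMap F P f) :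
    R.autGroup P = F.autGroup P := by
  ext α
  rw [mem_autGroup_iff hPT, mem_autGroup_iff hPS, h]

lemma autInducedBy_eq_of_decomp {T Q : Subgroup Ω} (hTS : T ≤ S) (hQT : Q ≤ T)
    (hdec : ∀ g ∈ S, ∃ a ∈ T, ∃ c ∈ Subgroup.centralizer (T : Set Ω), g = a * c) :
    autInducedBy T Q = autInducedBy S Q := by
  ext α
  rw [Helper27.mem_autInducedBy_iff, Helper27.mem_autInducedBy_iff]
  constructor
  · rintro ⟨g, hg, h⟩
    exact ⟨g, hTS hg, h⟩
  · rintro ⟨g, hg, h⟩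
    obtain ⟨a, ha, c, hc, rfl⟩ := hdec g hg
    refine ⟨a, ha, fun x => ?_⟩
    rw [h x]
    have h1 : (x : Ω) * c = c * x := Subgroup.mem_centralizer_iff.mp hc x (hQT x.2)
    calc a * c * x * (a * c)⁻¹ = a * (c * x) * c⁻¹ * a⁻¹ := by group
      _ = a * x * a⁻¹ := by rw [← h1]; group

variable [Finite S] {p : ℕ} [Fact p.Prime]

omit [Finite S] [Fact p.Prime] in
/-- the full subsystem on a strongly closed subgroup `T` with `S = T C_S(T)` is saturated -/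
theorem fullSub_saturated {F : FusionSystem S} (hF : F.IsSaturated p)
    {T : Subgroup Ω} (hT : F.StronglyClosed T)
    (hdec : ∀ g ∈ S, ∃ a ∈ T, ∃ c ∈ Subgroup.centralizer (T : Set Ω), g = a * c)
    {R : FusionSystem T} (hR : ∀ P f, P ≤ T → (IsMap R P f ↔ IsMap F P f)) :
    R.IsSaturated p := by
  intro P hPT
  obtain ⟨Q, hPQ, haut, hrec⟩ := hF P (hPT.trans hT.1)
  obtain ⟨f, hf, rfl⟩ := isConj_iff.mp hPQ
  have hQT : img P f ≤ T := by
    intro y hy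
    obtain ⟨x, hx, rfl⟩ := hf.mem_img.mp hy
    exact stronglyClosed_map_mem hT hf hx (hPT hx)
  refine ⟨img P f, isConj_iff.mpr ⟨f, (hR P f hPT).mpr hf, rfl⟩, ⟨hQT, ?_⟩, ?_⟩
  · have h1 : SylIn p (autInducedBy S (img P f)) (F.autGroup (img P f)) := haut.2
    rw [← autInducedBy_eq_of_decomp hT.1 hQT hdec,
      ← autGroup_eq_of_isMap_iff hQT haut.1 (fun f' => hR _ f' hQT)] at h1
    exact h1
  · refine isReceptive_of hQT ?_
    intro P' N f' hf' himg hPN hN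
    have hNT : N ≤ T := fun g hg => (hN g hg).1
    obtain ⟨f'', hf'', hext⟩ := exists_ext_of_receptive hrec ((hR _ _ hf'.le).mp hf') himg hPN
      (fun g hg => by
        obtain ⟨h1, h2, k, hk, h3⟩ := hN g hg
        exact ⟨hT.1 h1, h2, k, hT.1 hk, h3⟩)
    exact ⟨f'', (hR _ _ hNT).mpr hf'', hext⟩


omit [Finite S] [Fact p.Prime] in
lemma centralizing_data {P : Subgroup Ω} {g : Ω} (h : ∀ x ∈ P, x * g = g * x) :
    g ∈ Subgroup.normalizer (P : Set Ω) ∧ ∀ x ∈ P, g * x * g⁻¹ = x := by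
  have h2 : ∀ x ∈ P, g * x * g⁻¹ = x := fun x hx => by rw [← h x hx]; group
  refine ⟨?_, h2⟩
  rw [Subgroup.mem_normalizer_iff]
  intro x
  constructor
  · intro hx; rw [h2 x hx]; exact hx
  · intro hx
    have h3 := h _ hx
    have h4 : x = g * x * g⁻¹ := by
      have : g * x * g⁻¹ * g = g * (g * x * g⁻¹) := h3
      have h5 : g * x = g * (g * x * g⁻¹) := by rw [← this]; group
      exact mul_left_cancel h5
    rw [h4]; exact hx

omit [Fact p.Prime] in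
/-- a map between subgroups of `S₁` extends to the subgroup generated with `S₂` -/
theorem exists_ext_sup_of_commuting {F : FusionSystem S} (hF : F.IsSaturated p)
    {S₁ S₂ : Subgroup Ω} (h₁ : F.StronglyClosed S₁) (h₂ : F.StronglyClosed S₂)
    (hcomm : ∀ a ∈ S₁, ∀ b ∈ S₂, a * b = b * a) {P : Subgroup Ω} (hP : P ≤ S₁) {f : Ω → Ω}
    (hf : IsMap F P f) : ∃ f', IsMap F (P ⊔ S₂) f' ∧ ∀ x ∈ P, f' x = f x := by
  obtain ⟨Q, hconj, -, hrec⟩ := hF (img P f) hf.img_le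
  obtain ⟨χ, hχ, rfl⟩ := isConj_iff.mp hconj
  have hfP : img P f ≤ S₁ := by
    intro y hy
    obtain ⟨x, hx, rfl⟩ := hf.mem_img.mp hy
    exact stronglyClosed_map_mem h₁ hf hx (hP hx)
  have hχf : IsMap F P (χ ∘ f) := hf.comp hχ (fun x hx => mem_img_of_mem hx)
  have himg : img P (χ ∘ f) = img (img P f) χ := hf.img_comp hχ (fun x hx => mem_img_of_mem hx)
  obtain ⟨u, hu, huf⟩ := exists_ext_sup_of_receptive (A := S₂) hrec hχf himg (fun g hg => by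
    obtain ⟨k1, k2⟩ := centralizing_data (P := P) (g := g) (fun x hx => hcomm x (hP hx) g hg)
    exact ⟨h₂.1 hg, k1, 1, S.one_mem, fun x hx => by rw [k2 x hx]; group⟩)
  obtain ⟨v, hv, hvχ⟩ := exists_ext_sup_of_receptive (A := S₂) hrec hχ rfl (fun g hg => by
    obtain ⟨k1, k2⟩ := centralizing_data (P := img P f) (g := g)
      (fun x hx => hcomm x (hfP hx) g hg)
    exact ⟨h₂.1 hg, k1, 1, S.one_mem, fun x hx => by rw [k2 x hx]; group⟩)
  obtain ⟨vi, hvi, hvi1, -⟩ := hv.exists_inv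
  have eS₂ : ∀ {R : Subgroup Ω} {w : Ω → Ω}, IsMap F (R ⊔ S₂) w → img S₂ w = S₂ := by
    intro R w hw
    refine img_eq_of_le_of_finite (hw.mono le_sup_right) ?_
    intro y hy
    obtain ⟨x, hx, rfl⟩ := (hw.mono le_sup_right).mem_img.mp hy
    exact stronglyClosed_map_mem h₂ (hw.mono le_sup_right) hx hx
  have e : img (P ⊔ S₂) u = img (img P f ⊔ S₂) v := by
    rw [hu.img_sup le_sup_left le_sup_right, hv.img_sup le_sup_left le_sup_right, eS₂ hu, eS₂ hv,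
      img_congr huf, img_congr hvχ, himg]
  refine ⟨vi ∘ u, hu.comp hvi (fun x hx => by rw [← e]; exact mem_img_of_mem hx),
    fun x hx => ?_⟩
  show vi (u x) = f x
  rw [huf x hx]
  show vi (χ (f x)) = f x
  rw [← hvχ (f x) (mem_img_of_mem hx)]
  exact hvi1 _ ((le_sup_left : img P f ≤ img P f ⊔ S₂) (mem_img_of_mem hx))

/-- an `F`-map `S → S` with its inverse -/
lemma exists_inv_top {F : FusionSystem S} {a : Ω → Ω} (ha : IsMap F S a) :
    ∃ ai, IsMap F S ai ∧ (∀ x ∈ S, ai (a x) = x) ∧ ∀ x ∈ S, a (ai x) = x := by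
  obtain ⟨ai, hai, hai1, -⟩ := ha.exists_inv
  have e : img S a = S := img_eq_of_le_of_finite ha ha.img_le
  rw [e] at hai
  refine ⟨ai, hai, hai1, fun x hx => ?_⟩
  rw [← e] at hx
  obtain ⟨z, hz, rfl⟩ := ha.mem_img.mp hx
  rw [hai1 z hz]

section main

variable {F : FusionSystem S} {S₁ S₂ : Subgroup Ω} {R' : FusionSystem S₁}

theorem directFactor_invCond (hF : F.IsSaturated p)
    (h₁ : F.StronglyClosed S₁) (h₂ : F.StronglyClosed S₂)
    (hcomm : ∀ a ∈ S₁, ∀ b ∈ S₂, a * b = b * a) (hsup : S₁ ⊔ S₂ = S)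
    (hR' : ∀ P f, P ≤ S₁ → (IsMap R' P f ↔ IsMap F P f ∧
      ∃ g, IsMap F (P ⊔ S₂) g ∧ (∀ x ∈ P, g x = f x) ∧ ∀ y ∈ S₂, g y = y)) :
    InvCond R' F := by
  intro P hP f hf α hα
  have hαm := (mem_autGroup_iff h₁.1).mp hα
  obtain ⟨a, ha, haα⟩ := exists_ext_sup_of_commuting hF h₁ h₂ hcomm le_rfl hαm
  rw [hsup] at ha
  obtain ⟨hfF, g, hg, hgf, hgid⟩ := (hR' P f hP).mp hf
  obtain ⟨ai, hai, hai1, hai2⟩ := exists_inv_top ha
  have hPS₂ : P ⊔ S₂ ≤ S := hg.le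
  have hk : IsMap F (img (P ⊔ S₂) a) (a ∘ (g ∘ ai)) := by
    refine ((hai.mono (ha.mono hPS₂).img_le).comp hg ?_).comp ha ?_
    · intro y hy
      obtain ⟨z, hz, rfl⟩ := (ha.mono hPS₂).mem_img.mp hy
      rw [hai1 z (hPS₂ hz)]; exact hz
    · intro y hy
      obtain ⟨z, hz, rfl⟩ := (ha.mono hPS₂).mem_img.mp hy
      show g (ai (a z)) ∈ S
      rw [hai1 z (hPS₂ hz)]; exact hg.mem_S hz
  have e2 : img S₂ a = S₂ := by
    refine img_eq_of_le_of_finite (ha.mono h₂.1) ?_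
    intro y hy
    obtain ⟨x, hx, rfl⟩ := (ha.mono h₂.1).mem_img.mp hy
    exact stronglyClosed_map_mem h₂ ha (h₂.1 hx) hx
  have e1 : img P a = img P (autFun α) := img_congr (fun x hx => haα x (hP hx))
  rw [ha.img_sup (hP.trans h₁.1) h₂.1, e2, e1] at hk
  have hle : img P (autFun α) ≤ S₁ := by
    intro y hy
    obtain ⟨x, hx, rfl⟩ := (hαm.mono hP).mem_img.mp hy
    exact autFun_mem α (hP hx)
  refine ⟨a ∘ (g ∘ ai), (hR' _ _ hle).mpr ⟨hk.mono le_sup_left, _, hk, fun _ _ => rfl, ?_⟩, ?_⟩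
  · intro y hy
    show a (g (ai y)) = y
    rw [hgid _ (stronglyClosed_map_mem h₂ hai (h₂.1 hy) hy), hai2 y (h₂.1 hy)]
  · intro x hx
    show a (g (ai (autFun α x))) = _
    rw [← haα x (hP hx), hai1 x (h₁.1 (hP hx)), hgf x hx,
      haα _ (stronglyClosed_map_mem h₁ hfF hx (hP hx))]

theorem directFactor_fratCond (hF : F.IsSaturated p)
    (h₁ : F.StronglyClosed S₁) (h₂ : F.StronglyClosed S₂)
    (hcomm : ∀ a ∈ S₁, ∀ b ∈ S₂, a * b = b * a) (hsup : S₁ ⊔ S₂ = S)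
    (hR' : ∀ P f, P ≤ S₁ → (IsMap R' P f ↔ IsMap F P f ∧
      ∃ g, IsMap F (P ⊔ S₂) g ∧ (∀ x ∈ P, g x = f x) ∧ ∀ y ∈ S₂, g y = y)) :
    FratCond R' F := by
  intro P hP f hf
  obtain ⟨f', hf', hff'⟩ := exists_ext_sup_of_commuting hF h₁ h₂ hcomm hP hf
  obtain ⟨b, hb, hbβ⟩ := exists_ext_sup_of_commuting hF h₂ h₁
    (fun a ha b hb => (hcomm b hb a ha).symm) le_rfl (hf'.mono le_sup_right)
  rw [sup_comm, hsup] at hb
  obtain ⟨bi, hbi, hbi1, hbi2⟩ := exists_inv_top hb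
  have e1 : img S₁ b = S₁ := by
    refine img_eq_of_le_of_finite (hb.mono h₁.1) ?_
    intro y hy
    obtain ⟨x, hx, rfl⟩ := (hb.mono h₁.1).mem_img.mp hy
    exact stronglyClosed_map_mem h₁ hb (h₁.1 hx) hx
  obtain ⟨α, hα, hαb⟩ := (hb.mono h₁.1).exists_aut e1
  have hf₀ : IsMap F (P ⊔ S₂) (bi ∘ f') := hf'.comp hbi (fun x hx => hf'.mem_S hx)
  refine ⟨α, hα, bi ∘ f', (hR' _ _ hP).mpr ⟨hf₀.mono le_sup_left, _, hf₀, fun _ _ => rfl, ?_⟩, ?_⟩
  · intro y hy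
    show bi (f' y) = y
    rw [← hbβ y hy, hbi1 y (h₂.1 hy)]
  · intro x hx
    show f x = autFun α (bi (f' x))
    have h3 : f x ∈ S₁ := stronglyClosed_map_mem h₁ hf hx (hP hx)
    have h4 : bi (f x) ∈ S₁ := stronglyClosed_map_mem h₁ hbi (h₁.1 h3) h3
    rw [hff' x hx, autFun_of_mem α h4, hαb, hbi2 _ (h₁.1 h3)]


omit [Finite S] [Fact p.Prime] in
lemma center_aut_mem {T : Subgroup Ω} (α : MulAut T) {a : Ω}
    (ha : a ∈ T ⊓ Subgroup.centralizer (T : Set Ω)) :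
    a⁻¹ * autFun α a ∈ T ⊓ Subgroup.centralizer (T : Set Ω) := by
  refine Subgroup.mul_mem _ (Subgroup.inv_mem _ ha) ⟨autFun_mem α ha.1, ?_⟩
  refine Subgroup.mem_centralizer_iff.mpr ?_
  intro t ht
  have h1 : t = autFun α (autFun α⁻¹ t) := (autFun_autFun_inv α ht).symm
  have h2 : autFun α⁻¹ t ∈ T := autFun_mem _ ht
  have h3 : autFun α⁻¹ t * a = a * autFun α⁻¹ t := Subgroup.mem_centralizer_iff.mp ha.2 _ h2
  rw [h1, autFun_of_mem α h2, autFun_of_mem α ha.1, ← Subgroup.coe_mul, ← Subgroup.coe_mul,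
    ← map_mul, ← map_mul]
  congr 2
  exact Subtype.ext h3

omit [Finite S] [Fact p.Prime] in
lemma exists_decomp (hcomm : ∀ a ∈ S₁, ∀ b ∈ S₂, a * b = b * a) (hsup : S₁ ⊔ S₂ = S) :
    ∀ g ∈ S, ∃ a ∈ S₁, ∃ b ∈ S₂, g = a * b := by
  intro g hg
  have h1 : S₁ ≤ Subgroup.normalizer (S₂ : Set Ω) := fun a ha =>
    (centralizing_data (P := S₂) (g := a) (fun x hx => (hcomm a ha x hx).symm)).1
  have h2 := Subgroup.coe_mul_of_left_le_normalizer_right S₁ S₂ h1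
  rw [← hsup] at hg
  have h3 : g ∈ ((S₁ ⊔ S₂ : Subgroup Ω) : Set Ω) := hg
  rw [h2] at h3
  obtain ⟨a, ha, b, hb, rfl⟩ := Set.mem_mul.mp h3
  exact ⟨a, ha, b, hb, rfl⟩

end main

end Cfsg.Agent.Lib.Helper26
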