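import Mathlib

/-!
# A combinatorial lemma on integral idempotent matrices of size four
-/

set_option autoImplicit false
set_option linter.unusedSectionVars false
set_option linter.unusedVariables false

namespace Cfsg.Agent.Lib.Helper26.Kl

open Finset

theorem eq_of_sum_eq_card {ι : Type*} (S : Finset ι) (f : ι → ℤ) (h1 : ∀ i ∈ S, 1 ≤ f i)
    (hs : ∑ i ∈ S, f i = S.card) : ∀ i ∈ S, f i = 1 := by
  have h0 : ∑ i ∈ S, (f i - 1) = 0 := by
    rw [Finset.sum_sub_distrib, hs]; simp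
  have h2 := (Finset.sum_eq_zero_iff_of_nonneg (fun i hi => by linarith [h1 i hi])).1 h0
  intro i hi
  linarith [h2 i hi]

theorem eq_of_sum_eq_card' {ι : Type*} (S : Finset ι) (f : ι → ℤ) (h1 : ∀ i ∈ S, f i ≤ 1)
    (hs : ∑ i ∈ S, f i = S.card) : ∀ i ∈ S, f i = 1 := by
  have h0 : ∑ i ∈ S, (1 - f i) = 0 := by
    rw [Finset.sum_sub_distrib, hs]; simp
  have h2 := (Finset.sum_eq_zero_iff_of_nonneg (fun i hi => by linarith [h1 i hi])).1 h0
  intro i hi
  linarith [h2 i hi]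

theorem sq_eq_one_iff_of_side_nonneg' {a : ℤ} (h : a ^ 2 = 1) : a = 1 ∨ a = -1 := by
  have h1 : (a - 1) * (a + 1) = 0 := by ring_nf; linarith
  rcases mul_eq_zero.1 h1 with h | h
  · left; linarith
  · right; linarith

theorem rank_one_signs {ι : Type*} [DecidableEq ι] (S : Finset ι) (hS : S.card = 4)
    (N : ι → ι → ℤ)
    (hsym : ∀ i ∈ S, ∀ j ∈ S, N i j = N j i)
    (hid : ∀ i ∈ S, ∀ k ∈ S, ∑ j ∈ S, N i j * N j k = 4 * N i k)
    (htr : ∑ i ∈ S, N i i = 4) (hne : ∀ i ∈ S, N i i ≠ 0) :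
    ∃ w : ι → ℤ, (∀ i ∈ S, w i = 1 ∨ w i = -1) ∧ ∀ i ∈ S, ∀ j ∈ S, N i j = w i * w j := by
  have hsq : ∀ i ∈ S, ∑ j ∈ S, N i j ^ 2 = 4 * N i i := by
    intro i hi
    rw [← hid i hi i hi]
    apply Finset.sum_congr rfl
    intro j hj
    rw [hsym j hj i hi, sq]
  have hpos : ∀ i ∈ S, 1 ≤ N i i := by
    intro i hi
    have h1 : 0 ≤ ∑ j ∈ S, N i j ^ 2 := Finset.sum_nonneg (fun j _ => sq_nonneg _)
    rw [hsq i hi] at h1
    have := hne i hi
    omega
  have hdiag : ∀ i ∈ S, N i i = 1 :=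
    eq_of_sum_eq_card S (fun i => N i i) hpos (by rw [htr, hS]; rfl)
  have hle : ∀ i ∈ S, ∀ j ∈ S, N i j ^ 2 ≤ 1 := by
    intro i hi j hj
    by_cases hij : j = i
    · rw [hij, hdiag i hi]; norm_num
    · have h1 := hsq i hi
      rw [hdiag i hi] at h1
      have h2 : N i i ^ 2 + N i j ^ 2 ≤ ∑ k ∈ S, N i k ^ 2 := by
        have h3 : ({i, j} : Finset ι) ⊆ S := by
          intro k hk
          rcases Finset.mem_insert.1 hk with rfl | hk
          · exact hi
          · rw [Finset.mem_singleton.1 hk]; exact hj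
        have h4 := Finset.sum_le_sum_of_subset_of_nonneg h3
          (f := fun k => N i k ^ 2) (fun k _ _ => sq_nonneg _)
        rwa [Finset.sum_pair (Ne.symm hij)] at h4
      rw [h1, hdiag i hi] at h2
      have h5 : N i j ^ 2 ≤ 3 := by linarith
      have h6 : -1 ≤ N i j ∧ N i j ≤ 1 := by
        constructor <;> nlinarith
      have h7 : N i j = -1 ∨ N i j = 0 ∨ N i j = 1 := by omega
      rcases h7 with h | h | h <;> rw [h] <;> norm_num
  have hone : ∀ i ∈ S, ∀ j ∈ S, N i j ^ 2 = 1 := by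
    intro i hi
    apply eq_of_sum_eq_card' S (fun j => N i j ^ 2) (hle i hi)
    rw [hsq i hi, hdiag i hi, hS]; rfl
  have hpm : ∀ i ∈ S, ∀ j ∈ S, N i j = 1 ∨ N i j = -1 := by
    intro i hi j hj
    exact sq_eq_one_iff_of_side_nonneg' (hone i hi j hj)
  obtain ⟨i₀, hi₀⟩ : S.Nonempty := by
    rw [← Finset.card_pos, hS]; norm_num
  refine ⟨fun j => N i₀ j, fun j hj => hpm i₀ hi₀ j hj, ?_⟩
  intro i hi k hk
  have h1 : ∀ j ∈ S, N i k * (N i j * N j k) = 1 := by
    apply eq_of_sum_eq_card' S (fun j => N i k * (N i j * N j k))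
    · intro j hj
      rcases hpm i hi k hk with a | a <;> rcases hpm i hi j hj with b | b <;>
        rcases hpm j hj k hk with c | c <;> rw [a, b, c] <;> norm_num
    · rw [← Finset.mul_sum, hid i hi k hk, hS]
      have := hone i hi k hk
      push_cast
      nlinarith
  have h2 := h1 i₀ hi₀
  rw [hsym i hi i₀ hi₀] at h2
  have h3 := hone i hi k hk
  show N i k = N i₀ i * N i₀ k
  have h4 : N i k * (N i k * (N i₀ i * N i₀ k)) = N i k * 1 := by rw [h2]
  have h5 : N i k * (N i k * (N i₀ i * N i₀ k)) = N i k ^ 2 * (N i₀ i * N i₀ k) := by ring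
  rw [h5, h3, one_mul, mul_one] at h4
  exact h4.symm

end Cfsg.Agent.Lib.Helper26.Kl
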