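import Cfsg.Agent.Lib.Helper26.KlA
import Cfsg.Agent.Lib.Helper26.CtrM
import Cfsg.Agent.S4666
import Cfsg.Agent.S4667

/-!
# Blocks with four characters and defect two: sign vectors
-/

set_option autoImplicit false
set_option linter.unusedSectionVars false
set_option linter.unusedVariables false
set_option linter.style.haveILetI false

open Cfsg
open Cfsg.Agent.Lib.Helper7 Cfsg.Agent.Lib.Helper24
open scoped ComplexConjugate

namespace Cfsg.Agent.Lib.Helper26.Kl

noncomputable section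
open Classical

universe u
variable {M : Ideal AlgInt} {p : ℕ}
variable {X : Type u} [Group X] [Fintype X]

/-- the regular contribution -/
def mr (p : ℕ) (χ ψ : IrrCharacter X) : ℂ := classInner (regPart p (χ : X → ℂ)) (ψ : X → ℂ)

theorem regPart_regPart (f : X → ℂ) : regPart p (regPart p f) = regPart p f := by
  funext x
  simp only [regPart]
  split_ifs <;> rfl

theorem regPart_sum_smul {ι : Type*} (s : Finset ι) (a : ι → ℂ) (f : ι → X → ℂ) :
    regPart p (∑ i ∈ s, a i • f i) = ∑ i ∈ s, a i • regPart p (f i) := by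
  funext x
  simp only [regPart, Finset.sum_apply, Pi.smul_apply, smul_eq_mul]
  split_ifs <;> simp

theorem mr_symm (χ ψ : IrrCharacter X) : mr p ψ χ = conj (mr p χ ψ) := by
  simp only [mr, classInner, regPart, map_mul, map_inv₀, map_natCast, map_sum]
  congr 1
  apply Finset.sum_congr rfl
  intro g _
  split_ifs <;> simp [mul_comm]

theorem mr_self_eq (χ ψ : IrrCharacter X) :
    mr p χ ψ = classInner (regPart p (χ : X → ℂ)) (regPart p (ψ : X → ℂ)) := by
  simp only [mr, classInner, regPart]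
  congr 1
  apply Finset.sum_congr rfl
  intro g _
  split_ifs <;> simp

theorem mr_self_ne_zero (hp : 1 < p) (χ : IrrCharacter X) : mr p χ χ ≠ 0 := by
  intro h
  rw [mr_self_eq] at h
  have h1 := congrFun (classInner_self_eq_zero h) 1
  simp only [regPart, orderOf_one, Nat.dvd_one, Pi.zero_apply] at h1
  rw [if_neg (by omega)] at h1
  exact irr_apply_one_ne_zero χ.2 h1

variable [Fintype (IrrCharacter X)]

theorem regPart_expand (hM : IsPModular p M) {A : Set (IrrCharacter X)} (hA : IsPBlock M A)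
    {χ : IrrCharacter X} (hχ : χ ∈ A) :
    regPart p (χ : X → ℂ) = ∑ ψ ∈ Finset.univ.filter (· ∈ A), mr p χ ψ • (ψ : X → ℂ) := by
  conv_lhs => rw [classFunction_eq_sum (isClassFunction_regPart (p := p) (isClassFunction_irr χ))]
  rw [Finset.sum_filter]
  apply Finset.sum_congr rfl
  intro ψ _
  split_ifs with h
  · rfl
  · rw [contrib_eq_zero hM hA hχ h, zero_smul]

theorem mr_idem (hM : IsPModular p M) {A : Set (IrrCharacter X)} (hA : IsPBlock M A)
    {χ : IrrCharacter X} (hχ : χ ∈ A) (ρ : IrrCharacter X) :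
    ∑ ψ ∈ Finset.univ.filter (· ∈ A), mr p χ ψ * mr p ψ ρ = mr p χ ρ := by
  have h1 := congrArg (regPart p) (regPart_expand hM hA hχ)
  rw [regPart_regPart, regPart_sum_smul] at h1
  have h2 : mr p χ ρ = classInner (regPart p (χ : X → ℂ)) (ρ : X → ℂ) := rfl
  rw [h2, h1, classInner_sum_left]
  apply Finset.sum_congr rfl
  intro ψ _
  rw [classInner_smul_left]
  rfl

theorem mr_trace [Fact p.Prime] (hM : IsPModular p M) {A : Set (IrrCharacter X)}
    (hA : IsPBlock M A) :
    ∑ χ ∈ Finset.univ.filter (· ∈ A), mr p χ χ = (blockRank p A : ℂ) := by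
  have h1 := Cfsg.Agent.S4667.result p M hM A hA
  have hc : (Nat.card X : ℂ) ≠ 0 := by exact_mod_cast Nat.card_pos.ne'
  apply mul_left_cancel₀ hc
  rw [h1, Finset.mul_sum]
  have h2 : ∀ x : X, ∑ᶠ χ ∈ A, pRegularPart p (χ : X → ℂ) x * (χ : X → ℂ) x⁻¹
      = ∑ χ ∈ Finset.univ.filter (· ∈ A), pRegularPart p (χ : X → ℂ) x * (χ : X → ℂ) x⁻¹ := by
    intro x
    rw [finsum_mem_eq_finite_toFinset_sum _ (Set.toFinite A)]
    apply Finset.sum_congr _ (fun _ _ => rfl)
    ext χ; simp
  rw [Finset.sum_congr rfl (fun x _ => h2 x), Finset.sum_comm]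
  apply Finset.sum_congr rfl
  intro χ _
  rw [mr, classInner, ← mul_assoc, mul_inv_cancel₀ hc, one_mul]
  apply Finset.sum_congr rfl
  intro x _
  rw [Ctr.pReg_eq_regPart, Cfsg.Agent.Lib.Helper25.conj_char (isCharacter_of_irr χ.2)]

theorem card_filter_eq (A : Set (IrrCharacter X)) :
    (Finset.univ.filter (· ∈ A)).card = Nat.card A := by
  rw [Nat.card_eq_fintype_card, Fintype.card_subtype]

theorem exists_N (hM : IsPModular 2 M) {A : Set (IrrCharacter X)} (hA : IsPBlock M A)
    (hd : blockDefect 2 A = 2) :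
    ∃ N : IrrCharacter X → IrrCharacter X → ℤ, ∀ χ, ∀ ψ ∈ A, 4 * mr 2 χ ψ = (N χ ψ : ℂ) := by
  haveI : Fact (Nat.Prime 2) := ⟨Nat.prime_two⟩
  have h : ∀ χ ψ : IrrCharacter X, ∃ k : ℤ, ψ ∈ A → 4 * mr 2 χ ψ = (k : ℂ) := by
    intro χ ψ
    by_cases hψ : ψ ∈ A
    · obtain ⟨k, hk⟩ := Cfsg.Agent.S4666.exists_int_defect hM hA χ ψ hψ
      refine ⟨k, fun _ => ?_⟩
      rw [← hk, hd, mr]
      norm_num
    · exact ⟨0, fun h => absurd h hψ⟩
  choose N hN using h
  exact ⟨N, fun χ ψ hψ => hN χ ψ hψ⟩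

theorem klein_signs (hM : IsPModular 2 M) {A : Set (IrrCharacter X)} (hA : IsPBlock M A)
    (hcard : Nat.card A = 4) (hd : blockDefect 2 A = 2) :
    (blockRank 2 A = 1 → ∃ w : IrrCharacter X → ℤ, (∀ χ ∈ A, w χ = 1 ∨ w χ = -1) ∧
      ∀ χ ∈ A, ∀ ψ ∈ A, 4 * mr 2 χ ψ = ((w χ * w ψ : ℤ) : ℂ)) ∧
    (blockRank 2 A = 3 → ∃ w : IrrCharacter X → ℤ, (∀ χ ∈ A, w χ = 1 ∨ w χ = -1) ∧
      ∀ χ ∈ A, ∀ ψ ∈ A, 4 * ((if χ = ψ then 1 else 0) - mr 2 χ ψ) = ((w χ * w ψ : ℤ) : ℂ)) := by
  haveI : Fact (Nat.Prime 2) := ⟨Nat.prime_two⟩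
  haveI := hM.2.1.isPrime
  obtain ⟨N, hN⟩ := exists_N hM hA hd
  set F := Finset.univ.filter (· ∈ A) with hF
  have hmem : ∀ χ, χ ∈ F ↔ χ ∈ A := fun χ => by simp [hF]
  have hFc : F.card = 4 := by rw [hF, card_filter_eq, hcard]
  have hsym : ∀ i ∈ F, ∀ j ∈ F, N i j = N j i := by
    intro i hi j hj
    have h1 : ((N j i : ℤ) : ℂ) = conj ((N i j : ℤ) : ℂ) := by
      rw [← hN j i ((hmem i).1 hi), ← hN i j ((hmem j).1 hj), mr_symm i j, map_mul]
      congr 1
      exact (map_ofNat (starRingEnd ℂ) 4).symm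
    rw [map_intCast] at h1
    exact_mod_cast h1.symm
  have hid : ∀ i ∈ F, ∀ k ∈ F, ∑ j ∈ F, N i j * N j k = 4 * N i k := by
    intro i hi k hk
    have h1 := mr_idem hM hA ((hmem i).1 hi) k
    have h2 : ((∑ j ∈ F, N i j * N j k : ℤ) : ℂ) = ((4 * N i k : ℤ) : ℂ) := by
      push_cast
      rw [← hN i k ((hmem k).1 hk), ← h1, Finset.mul_sum, Finset.mul_sum]
      apply Finset.sum_congr rfl
      intro j hj
      rw [← hN i j ((hmem j).1 hj), ← hN j k ((hmem k).1 hk)]
      ring
    exact_mod_cast h2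
  have htr : ∑ i ∈ F, N i i = 4 * (blockRank 2 A : ℤ) := by
    have h1 := mr_trace hM hA
    have h2 : ((∑ i ∈ F, N i i : ℤ) : ℂ) = ((4 * (blockRank 2 A : ℤ) : ℤ) : ℂ) := by
      push_cast
      rw [← h1, Finset.mul_sum]
      apply Finset.sum_congr rfl
      intro i hi
      rw [← hN i i ((hmem i).1 hi)]
    exact_mod_cast h2
  constructor
  · intro hr
    obtain ⟨w, hw, hw2⟩ := rank_one_signs F hFc N hsym hid (by rw [htr, hr]; norm_num) (by
      intro i hi h0
      have h1 := hN i i ((hmem i).1 hi)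
      rw [h0] at h1
      have := mr_self_ne_zero (p := 2) (by norm_num) i
      apply this
      simpa using h1)
    refine ⟨w, fun χ hχ => hw χ ((hmem χ).2 hχ), fun χ hχ ψ hψ => ?_⟩
    rw [hN χ ψ hψ, hw2 χ ((hmem χ).2 hχ) ψ ((hmem ψ).2 hψ)]
  · intro hr
    have hne : ∀ i ∈ F, N i i ≠ 4 := by
      intro i hi h4
      have h1 := hid i hi i hi
      rw [h4, ← Finset.add_sum_erase F _ hi, h4] at h1
      have h2 : ∑ j ∈ F.erase i, N i j * N j i = 0 := by linarith
      have h3 : ∀ j ∈ F.erase i, N i j * N j i = 0 := by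
        apply (Finset.sum_eq_zero_iff_of_nonneg _).1 h2
        intro j hj
        rw [hsym j (Finset.mem_of_mem_erase hj) i hi]
        exact mul_self_nonneg _
      have h4' : ∀ j ∈ F, j ≠ i → N i j = 0 := by
        intro j hj hji
        have := h3 j (Finset.mem_erase.2 ⟨hji, hj⟩)
        rw [hsym j hj i hi] at this
        exact mul_self_eq_zero.1 this
      obtain ⟨χ₁, hχ₁, hh⟩ := exists_height_zero hA 2
      have h0 : blockHeight 2 A (χ₁ : X → ℂ) = 0 := by rw [blockHeight, hh]; simp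
      by_cases hc : χ₁ = i
      · obtain ⟨j, hj, hji⟩ := Finset.exists_mem_ne (by omega : 1 < F.card) i
        have h5 := contrib_ne_zero hM hA hχ₁ h0 ((hmem j).1 hj)
        apply h5
        have h6 := hN i j ((hmem j).1 hj)
        rw [h4' j hj hji] at h6
        rw [hc]
        simpa [mr] using h6
      · have h5 := contrib_ne_zero hM hA hχ₁ h0 ((hmem i).1 hi)
        apply h5
        have h6 := hN χ₁ i ((hmem i).1 hi)
        rw [hsym χ₁ ((hmem χ₁).2 hχ₁) i hi, h4' χ₁ ((hmem χ₁).2 hχ₁) hc] at h6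
        simpa [mr] using h6
    obtain ⟨w, hw, hw2⟩ := rank_one_signs F hFc
      (fun i j => (if i = j then 4 else 0) - N i j)
      (by
        intro i hi j hj
        simp only [hsym i hi j hj, eq_comm])
      (by
        intro i hi k hk
        have e1 : ∀ j ∈ F, ((if i = j then 4 else 0) - N i j) * ((if j = k then 4 else 0) - N j k)
            = (if i = j then (4 * ((if j = k then 4 else 0) - N j k)) else 0)
              - (if j = k then 4 * N i j else 0) + N i j * N j k := by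
          intro j _
          split_ifs <;> ring
        rw [Finset.sum_congr rfl e1, Finset.sum_add_distrib, Finset.sum_sub_distrib,
          Finset.sum_ite_eq, Finset.sum_ite_eq', if_pos hi, if_pos hk, hid i hi k hk]
        ring)
      (by
        simp only [if_true]
        rw [Finset.sum_sub_distrib, htr, hr]
        simp [hFc])
      (by
        intro i hi
        simp only [if_true]
        have := hne i hi
        omega)
    refine ⟨w, fun χ hχ => hw χ ((hmem χ).2 hχ), fun χ hχ ψ hψ => ?_⟩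
    rw [← hw2 χ ((hmem χ).2 hχ) ψ ((hmem ψ).2 hψ)]
    push_cast
    rw [← hN χ ψ hψ]
    split_ifs <;> ring

end

end Cfsg.Agent.Lib.Helper26.Kl
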