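import Cfsg.Agent.Lib.Helper26.KlB

/-!
# Blocks with four characters and defect two: evaluation and integrality lemmas
-/

set_option autoImplicit false
set_option linter.unusedSectionVars false
set_option linter.unusedVariables false
set_option linter.style.haveILetI false

open Cfsg
open Cfsg.Agent.Lib.Helper7 Cfsg.Agent.Lib.Helper24
open scoped ComplexConjugate

namespace Cfsg.Agent.Lib.Helper26.Kl

noncomputable section
open Classical

universe u
variable {M : Ideal AlgInt} {p : ℕ}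
variable {X : Type u} [Group X] [Fintype X]

theorem sign_mul_self {w : ℤ} (h : w = 1 ∨ w = -1) : (w : ℂ) * (w : ℂ) = 1 := by
  rcases h with h | h <;> rw [h] <;> norm_num

/-- `p^d χ(x) / |C(x)|` is a local integer -/
theorem H0 (hM : IsPModular p M) {A : Set (IrrCharacter X)} (hA : IsPBlock M A)
    {χ : IrrCharacter X} (hχ : χ ∈ A) (x : X) :
    MemLocalRing M ((p : ℂ) ^ blockDefect p A * (χ : X → ℂ) x
      / (Nat.card (Subgroup.centralizer ({x} : Set X)) : ℂ)) := by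
  haveI := hM.2.1.isPrime
  have h1 := memLocalRing_centralChar (M := M) χ x
  have h2 : MemLocalRing M (((p ^ blockDefect p A * charDegree (χ : X → ℂ) : ℕ) : ℂ)
      / (Nat.card X : ℕ)) := by
    rw [memLocalRing_div_iff hM (Nat.mul_ne_zero (pow_ne_zero _ hM.1.ne_zero)
      (charDegree_pos χ).ne') Nat.card_pos.ne',
      Nat.factorization_mul (pow_ne_zero _ hM.1.ne_zero) (charDegree_pos χ).ne',
      Nat.Prime.factorization_pow hM.1]
    simp only [Finsupp.coe_add, Pi.add_apply, Finsupp.single_eq_same]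
    have h3 := sInf_le_of_mem p hχ
    have h4 := sInf_le_factorization_card hA p
    rw [blockDefect]
    omega
  have h5 := memLocalRing_mul h1 h2
  convert h5 using 1
  rw [centralChar]
  have hc : (Nat.card X : ℂ) = (Nat.card (Subgroup.centralizer ({x} : Set X)) : ℂ)
      * ((Subgroup.centralizer ({x} : Set X)).index : ℂ) := by
    exact_mod_cast ((Subgroup.centralizer ({x} : Set X)).card_mul_index).symm
  have h6 : (Nat.card (Subgroup.centralizer ({x} : Set X)) : ℂ) ≠ 0 := by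
    exact_mod_cast Nat.card_pos.ne'
  have h7 : ((Subgroup.centralizer ({x} : Set X)).index : ℂ) ≠ 0 := by
    exact_mod_cast Subgroup.index_ne_zero_of_finite
  have h8 := irr_apply_one_ne_zero χ.2
  push_cast
  rw [hc, charDegree_cast (isCharacter_of_irr χ.2)]
  field_simp

variable [Fintype (IrrCharacter X)]

theorem klein_eval_one (hM : IsPModular 2 M) {A : Set (IrrCharacter X)} (hA : IsPBlock M A)
    (hcard : Nat.card A = 4) (hd : blockDefect 2 A = 2) (hr : blockRank 2 A = 1) :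
    ∃ w : IrrCharacter X → ℤ, (∀ χ ∈ A, w χ = 1 ∨ w χ = -1) ∧
      (∀ χ ∈ A, ∀ x, ¬ 2 ∣ orderOf x → (w χ : ℂ) * (χ : X → ℂ) x
        = 1 / 4 * ∑ ψ ∈ Finset.univ.filter (· ∈ A), (w ψ : ℂ) * (ψ : X → ℂ) x) ∧
      (∀ x, 2 ∣ orderOf x → ∑ ψ ∈ Finset.univ.filter (· ∈ A), (w ψ : ℂ) * (ψ : X → ℂ) x = 0) ∧
      ∀ χ ∈ A, mr 2 χ χ = 1 / 4 := by
  haveI := hM.2.1.isPrime
  obtain ⟨w, hw, hw2⟩ := (klein_signs hM hA hcard hd).1 hr
  have key : ∀ χ ∈ A, ∀ x, (w χ : ℂ) * regPart 2 (χ : X → ℂ) x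
      = 1 / 4 * ∑ ψ ∈ Finset.univ.filter (· ∈ A), (w ψ : ℂ) * (ψ : X → ℂ) x := by
    intro χ hχ x
    rw [regPart_expand hM hA hχ, Finset.sum_apply, Finset.mul_sum, Finset.mul_sum]
    apply Finset.sum_congr rfl
    intro ψ hψ
    have h1 := hw2 χ hχ ψ (Finset.mem_filter.1 hψ).2
    have h2 : mr 2 χ ψ = (w χ : ℂ) * (w ψ : ℂ) / 4 := by
      push_cast at h1
      rw [← h1]; ring
    rw [Pi.smul_apply, smul_eq_mul, h2]
    have h3 := sign_mul_self (hw χ hχ)
    linear_combination ((w ψ : ℂ) * (ψ : X → ℂ) x / 4) * h3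
  refine ⟨w, hw, ?_, ?_, ?_⟩
  · intro χ hχ x hx
    rw [← key χ hχ x, regPart, if_neg hx]
  · intro x hx
    obtain ⟨χ, hχ⟩ := isPBlock_nonempty hA
    have := key χ hχ x
    rw [regPart, if_pos hx, mul_zero] at this
    linear_combination (-4 : ℂ) * this
  · intro χ hχ
    have h1 := hw2 χ hχ χ hχ
    push_cast at h1
    rw [sign_mul_self (hw χ hχ)] at h1
    linear_combination (1 / 4 : ℂ) * h1

theorem klein_eval_three (hM : IsPModular 2 M) {A : Set (IrrCharacter X)} (hA : IsPBlock M A)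
    (hcard : Nat.card A = 4) (hd : blockDefect 2 A = 2) (hr : blockRank 2 A = 3) :
    ∃ w : IrrCharacter X → ℤ, (∀ χ ∈ A, w χ = 1 ∨ w χ = -1) ∧
      (∀ χ ∈ A, ∀ x, 2 ∣ orderOf x → (w χ : ℂ) * (χ : X → ℂ) x
        = 1 / 4 * ∑ ψ ∈ Finset.univ.filter (· ∈ A), (w ψ : ℂ) * (ψ : X → ℂ) x) ∧
      (∀ x, ¬ 2 ∣ orderOf x →
        ∑ ψ ∈ Finset.univ.filter (· ∈ A), (w ψ : ℂ) * (ψ : X → ℂ) x = 0) := by
  haveI := hM.2.1.isPrime
  obtain ⟨w, hw, hw2⟩ := (klein_signs hM hA hcard hd).2 hr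
  have key : ∀ χ ∈ A, ∀ x, (w χ : ℂ) * ((χ : X → ℂ) x - regPart 2 (χ : X → ℂ) x)
      = 1 / 4 * ∑ ψ ∈ Finset.univ.filter (· ∈ A), (w ψ : ℂ) * (ψ : X → ℂ) x := by
    intro χ hχ x
    have e1 : (χ : X → ℂ) x = ∑ ψ ∈ Finset.univ.filter (· ∈ A),
        (if χ = ψ then (1 : ℂ) else 0) * (ψ : X → ℂ) x := by
      simp only [ite_mul, one_mul, zero_mul]
      rw [Finset.sum_ite_eq, if_pos (Finset.mem_filter.2 ⟨Finset.mem_univ _, hχ⟩)]
    rw [regPart_expand hM hA hχ, Finset.sum_apply]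
    conv_lhs => rw [e1]
    rw [← Finset.sum_sub_distrib, Finset.mul_sum, Finset.mul_sum]
    apply Finset.sum_congr rfl
    intro ψ hψ
    have h1 := hw2 χ hχ ψ (Finset.mem_filter.1 hψ).2
    have h2 : (if χ = ψ then (1 : ℂ) else 0) - mr 2 χ ψ = (w χ : ℂ) * (w ψ : ℂ) / 4 := by
      push_cast at h1
      rw [← h1]; ring
    rw [Pi.smul_apply, smul_eq_mul, ← sub_mul, h2]
    have h3 := sign_mul_self (hw χ hχ)
    linear_combination ((w ψ : ℂ) * (ψ : X → ℂ) x / 4) * h3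
  refine ⟨w, hw, ?_, ?_⟩
  · intro χ hχ x hx
    rw [← key χ hχ x, regPart, if_pos hx, sub_zero]
  · intro x hx
    obtain ⟨χ, hχ⟩ := isPBlock_nonempty hA
    have := key χ hχ x
    rw [regPart, if_neg hx, sub_self, mul_zero] at this
    linear_combination (-4 : ℂ) * this

end

end Cfsg.Agent.Lib.Helper26.Kl
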