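import Cfsg.Agent.Lib.Helper26.KlC

/-!
# Local integrality of combinations of characters vanishing on `p`-singular elements
-/

set_option autoImplicit false
set_option linter.unusedSectionVars false
set_option linter.unusedVariables false
set_option linter.style.haveILetI false

open Cfsg
open Cfsg.Agent.Lib.Helper7 Cfsg.Agent.Lib.Helper24
open scoped ComplexConjugate

namespace Cfsg.Agent.Lib.Helper26.Kl

noncomputable section
open Classical

universe u
variable {M : Ideal AlgInt} {p : ℕ}
variable {X : Type u} [Group X] [Fintype X]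

/-- the average of `χ(x q)` over a subgroup `Q` of the centralizer of `x` is a local integer -/
theorem avg_shift_mem [M.IsPrime] {χ : X → ℂ} (hχ : IsCharacter X χ) (x : X)
    (Q : Subgroup (Subgroup.centralizer ({x} : Set X))) :
    MemLocalRing M ((Nat.card Q : ℂ)⁻¹ * ∑ q : Q, χ (x * ((q : Subgroup.centralizer ({x} : Set X)) : X))) := by
  haveI : Fintype (IrrCharacter (Subgroup.centralizer ({x} : Set X))) := Fintype.ofFinite _
  have hxC : x ∈ Subgroup.centralizer ({x} : Set X) := Subgroup.mem_centralizer_singleton_iff.2 rfl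
  have hyc : ∀ c : Subgroup.centralizer ({x} : Set X), Commute x (c : X) := fun c =>
    (Subgroup.mem_centralizer_singleton_iff.1 c.2).symm
  have hz := Ctr.mk_mem_center hxC hyc
  have h1 := Ctr.shift_eq_sum hz
    (Φ := fun c : Subgroup.centralizer ({x} : Set X) => χ (c : X))
    (isClassFunction_of_isCharacter (isCharacter_restrict hχ _)) 1
  have h2 : ∀ q : Q, χ (x * ((q : Subgroup.centralizer ({x} : Set X)) : X))
      = ∑ ξ : IrrCharacter (Subgroup.centralizer ({x} : Set X)),
        Ctr.co _ ⟨x, hxC⟩ χ ξ * (ξ : Subgroup.centralizer ({x} : Set X) → ℂ) q := by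
    intro q
    have := congrFun h1 (q : Subgroup.centralizer ({x} : Set X))
    simp only [pow_one, Finset.sum_apply, Pi.smul_apply, smul_eq_mul] at this
    exact this
  rw [Finset.sum_congr rfl (fun q _ => h2 q), Finset.sum_comm, Finset.mul_sum]
  apply memLocalRing_sum
  intro ξ _
  rw [← Finset.mul_sum, mul_left_comm]
  apply memLocalRing_mul (Ctr.memLocalRing_co hxC hyc hχ ξ)
  obtain ⟨n, hn⟩ := Cfsg.Agent.Lib.Helper2.IsCharacter.classInner_nat
    (isCharacter_restrict (isCharacter_of_irr ξ.2) Q) (isCharacter_one (G := Q))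
  have h3 : (Nat.card Q : ℂ)⁻¹ * ∑ q : Q, (ξ : Subgroup.centralizer ({x} : Set X) → ℂ) q = n := by
    rw [← hn, classInner]
    simp
  rw [h3]
  exact memLocalRing_natCast n

theorem L1 [hp : Fact p.Prime] (hM : IsPModular p M) {ι : Type*} (s : Finset ι) (a : ι → ℂ)
    (ha : ∀ i ∈ s, MemLocalRing M (a i)) (f : ι → X → ℂ) (hf : ∀ i ∈ s, IsCharacter X (f i))
    (hv : ∀ g, p ∣ orderOf g → ∑ i ∈ s, a i * f i g = 0) (x : X) :
    MemLocalRing M ((∑ i ∈ s, a i * f i x)
      / (Nat.card (Subgroup.centralizer ({x} : Set X)) : ℂ)) := by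
  haveI := hM.2.1.isPrime
  by_cases hx : p ∣ orderOf x
  · rw [hv x hx, zero_div]; exact memLocalRing_zero
  obtain ⟨Q⟩ : Nonempty (Sylow p (Subgroup.centralizer ({x} : Set X))) := inferInstance
  have h1 : MemLocalRing M (∑ i ∈ s, a i * ((Nat.card Q : ℂ)⁻¹ *
      ∑ q : (Q : Subgroup (Subgroup.centralizer ({x} : Set X))),
        f i (x * ((q : Subgroup.centralizer ({x} : Set X)) : X)))) := by
    apply memLocalRing_sum
    intro i hi
    exact memLocalRing_mul (ha i hi) (avg_shift_mem (hf i hi) x _)
  have h2 : ∑ i ∈ s, a i * ((Nat.card Q : ℂ)⁻¹ *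
      ∑ q : (Q : Subgroup (Subgroup.centralizer ({x} : Set X))),
        f i (x * ((q : Subgroup.centralizer ({x} : Set X)) : X)))
      = (Nat.card Q : ℂ)⁻¹ * ∑ i ∈ s, a i * f i x := by
    have e1 : ∀ i ∈ s, a i * ((Nat.card Q : ℂ)⁻¹ *
        ∑ q : (Q : Subgroup (Subgroup.centralizer ({x} : Set X))),
          f i (x * ((q : Subgroup.centralizer ({x} : Set X)) : X)))
        = (Nat.card Q : ℂ)⁻¹ * ∑ q : (Q : Subgroup (Subgroup.centralizer ({x} : Set X))),
          a i * f i (x * ((q : Subgroup.centralizer ({x} : Set X)) : X)) := by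
      intro i _
      rw [Finset.mul_sum, Finset.mul_sum, Finset.mul_sum]
      apply Finset.sum_congr rfl
      intro q _
      ring
    rw [Finset.sum_congr rfl e1, ← Finset.mul_sum, Finset.sum_comm]
    congr 1
    rw [Finset.sum_eq_single (1 : (Q : Subgroup (Subgroup.centralizer ({x} : Set X))))]
    · simp
    · intro q _ hq
      apply hv
      have hcomm : Commute x ((q : Subgroup.centralizer ({x} : Set X)) : X) :=
        (Subgroup.mem_centralizer_singleton_iff.1 (q : Subgroup.centralizer ({x} : Set X)).2).symm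
      obtain ⟨k, hk⟩ := (IsPGroup.iff_orderOf.1 Q.isPGroup') q
      rw [Subgroup.orderOf_coe q |>.symm, Subgroup.orderOf_coe _ |>.symm] at hk
      have hk0 : k ≠ 0 := by
        rintro rfl
        rw [pow_zero, orderOf_eq_one_iff] at hk
        apply hq
        apply Subtype.ext
        apply Subtype.ext
        exact hk
      have hcop : Nat.Coprime (orderOf x) (orderOf ((q : Subgroup.centralizer ({x} : Set X)) : X)) := by
        rw [hk]
        exact Nat.Coprime.pow_right _ ((Nat.Prime.coprime_iff_not_dvd hp.out).2 hx).symm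
      rw [hcomm.orderOf_mul_eq_mul_orderOf_of_coprime hcop, hk]
      exact Dvd.dvd.mul_left (dvd_pow_self p hk0) _
    · intro h; exact absurd (Finset.mem_univ _) h
  rw [h2] at h1
  have h3 : MemLocalRing M (((Nat.card Q : ℕ) : ℂ)
      / (Nat.card (Subgroup.centralizer ({x} : Set X)) : ℕ)) := by
    rw [memLocalRing_div_iff hM Nat.card_pos.ne' Nat.card_pos.ne', Sylow.card_eq_multiplicity,
      Nat.Prime.factorization_pow hp.out, Finsupp.single_eq_same]
  have h4 := memLocalRing_mul h1 h3
  convert h4 using 1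
  have h5 : (Nat.card Q : ℂ) ≠ 0 := by exact_mod_cast Nat.card_pos.ne'
  field_simp

end

end Cfsg.Agent.Lib.Helper26.Kl
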