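import Cfsg.Agent.Lib.Helper26.KlD

/-!
# Local blocks of a block with Klein four defect group
-/

set_option autoImplicit false
set_option linter.unusedSectionVars false
set_option linter.unusedVariables false
set_option linter.style.haveILetI false

open Cfsg Cfsg.Agent.Lib.Helper7 Cfsg.Agent.Lib.Helper24 Cfsg.Agent.Lib.Helper26.Ctr
open scoped ComplexConjugate

namespace Cfsg.Agent.Lib.Helper26.BP

noncomputable section
open Classical

universe u
variable {G : Type u} [Group G] [Fintype G]

theorem kl_defect_two {M : Ideal AlgInt} (hM : IsPModular 2 M)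
    {B : Set (IrrCharacter G)} (hB : IsPBlock M B) {P : Subgroup G}
    (hPD : IsDefectGroup 2 M B P) (hV : IsKleinFour P) : blockDefect 2 B = 2 := by
  haveI : Fact (Nat.Prime 2) := ⟨Nat.prime_two⟩
  have hcB := card_defectGroup hM hB hPD
  rw [hV.card_four] at hcB
  have h4 : (2 : ℕ) ^ 2 = 2 ^ blockDefect 2 B := by rw [← hcB]; norm_num
  exact (Nat.pow_right_injective le_rfl h4).symm

/-- a block with Klein four defect group containing a central involution -/
theorem kl_central {M : Ideal AlgInt} [M.IsPrime] [CharP (resField M) 2] (hM : IsPModular 2 M)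
    {B : Set (IrrCharacter G)} (hB : IsPBlock M B) {P : Subgroup G}
    (hPD : IsDefectGroup 2 M B P) (hV : IsKleinFour P) {a : G} (ha : a ∈ P) (ha1 : a ≠ 1)
    (hac : ∀ g : G, g * a = a * g) :
    Nat.card B = 4 ∧ blockRank 2 B = 1 := by
  haveI : Fact (Nat.Prime 2) := ⟨Nat.prime_two⟩
  have hab := ab_of_klein hV
  obtain ⟨c, hmax⟩ := exists_maximal_of_defect hM hB hPD
  have hPp := hmax.1.1.1
  have hcb := hmax.1.1.2
  have hm := (isBrauerPairOf_iff hB hmax.1.1).1 hmax.1
  have htm := terminal_of_maximal hmax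
  have hc : IsInducedBlock M (Subgroup.centralizer (P : Set G)) c B :=
    (isInducedBlock_iff_ns hM hB hPp (le_centralizer_of_ab hab le_rfl) rfl hcb).2 hm
  have hT : ∀ g : G, g ∈ stabP ((P, sbl M _ c) : FP M G) ↔
      (g ∈ Subgroup.normalizer (P : Set G) ∧
        StabilizesBlock (Subgroup.centralizer (P : Set G)) c g) := by
    intro y
    rw [mem_stabP_iff, stabilizesBlock_iff hcb]
    constructor
    · rintro ⟨h1, h2⟩
      exact ⟨h1, normalizer_le_normalizer_centralizer _ h1, h2⟩
    · rintro ⟨h1, _, h2⟩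
      exact ⟨h1, h2⟩
  obtain ⟨-, h4, hr⟩ := s4637 hM hB hPD hV hc hT
  refine ⟨h4, ?_⟩
  rw [hr, Subgroup.relIndex_eq_one]
  have hTN : stabP ((P, sbl M _ c) : FP M G) ≤ Subgroup.normalizer (P : Set G) :=
    fun y hy => ((hT y).1 hy).1
  have h2 : ∀ U : Subgroup G, U ≤ stabP ((P, sbl M _ c) : FP M G) → IsPGroup 2 U →
      U ≤ Subgroup.centralizer (P : Set G) := by
    intro U hU hUp
    exact (htm.pgroup_le hM hm hUp hU).trans
      (sup_le (le_centralizer_of_ab hab le_rfl) le_rfl)
  intro t ht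
  apply klein_free hV hTN h2 ht ha ha1
  rw [hac t, mul_assoc, mul_inv_cancel, mul_one]

theorem isKleinFour_of_mulEquiv {V W : Type*} [Group V] [Group W] (e : V ≃* W)
    (h : IsKleinFour V) : IsKleinFour W where
  card_four := by rw [← Nat.card_congr e.toEquiv]; exact h.card_four
  exponent_two := by rw [← Monoid.exponent_eq_of_mulEquiv e]; exact h.exponent_two

/-- the local blocks at nontrivial `2`-elements -/
theorem kl_local {M : Ideal AlgInt} [M.IsPrime] [CharP (resField M) 2] (hM : IsPModular 2 M)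
    {B : Set (IrrCharacter G)} (hB : IsPBlock M B) {P : Subgroup G}
    (hPD : IsDefectGroup 2 M B P) (hV : IsKleinFour P) {u : G}
    (hu : ∃ k : ℕ, orderOf u = 2 ^ k) (hu1 : u ≠ 1)
    {b : Set (IrrCharacter (Subgroup.centralizer ({u} : Set G)))}
    (hind : IsInducedBlock M (Subgroup.centralizer ({u} : Set G)) b B) :
    orderOf u = 2 ∧ Nat.card b = 4 ∧ blockRank 2 b = 1 ∧ blockDefect 2 b = 2 := by
  haveI : Fact (Nat.Prime 2) := ⟨Nat.prime_two⟩
  have hab := ab_of_klein hV
  obtain ⟨c, hmax⟩ := exists_maximal_of_defect hM hB hPD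
  have hm := (isBrauerPairOf_iff hB hmax.1.1).1 hmax.1
  have htm := terminal_of_maximal hmax
  have huK : Subgroup.zpowers u ≤ Subgroup.centralizer ({u} : Set G) := by
    rw [Subgroup.zpowers_le]; exact Subgroup.mem_centralizer_singleton_iff.2 rfl
  have hns := (isInducedBlock_iff_ns hM hB (isPGroup_zpowers' hu) huK
    (centralizer_zpowers' u).symm hind.1).1 hind
  obtain ⟨x, -, hle⟩ := htm.conj_le hm hns
  have hxu : x * u * x⁻¹ ∈ P := by
    apply hle.fst_le
    show x * u * x⁻¹ ∈ cjS x (Subgroup.zpowers u)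
    rw [mem_cjS]
    have : x⁻¹ * (x * u * x⁻¹) * x = u := by group
    rw [this]; exact Subgroup.mem_zpowers u
  have ho : orderOf u = 2 := by
    rw [← orderOf_conj' x u]
    apply orderOf_eq_prime
    · have := IsKleinFour.mul_self (⟨x * u * x⁻¹, hxu⟩ : P)
      rw [pow_two]
      exact congrArg Subtype.val this
    · intro h
      apply hu1
      have : u = x⁻¹ * (x * u * x⁻¹) * x := by group
      rw [this, h]; group
  have hdef := (isDef_of_ab hm htm hab hle).cj x⁻¹
  have e1 : cjS x⁻¹ (Subgroup.centralizer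
      (((act x ((Subgroup.zpowers u, sbl M _ b) : FP M G)).1 : Subgroup G) : Set G))
      = Subgroup.centralizer ({u} : Set G) := by
    rw [cjS_centralizer]
    show Subgroup.centralizer ((cjS x⁻¹ (cjS x (Subgroup.zpowers u)) : Subgroup G) : Set G) = _
    rw [cjS_inv_cjS, centralizer_zpowers']
  have e2 : cj x⁻¹ (act x ((Subgroup.zpowers u, sbl M _ b) : FP M G)).2 = sbl M _ b := by
    show cj x⁻¹ (cj x (sbl M _ b)) = _
    rw [cj_inv_cj]
  rw [e1, e2] at hdef
  have hDb := (isDefectGroup_subgroupOf_iff hM hind.1 hdef.1).2 hdef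
  have hVb : IsKleinFour ↥((cjS x⁻¹ P).subgroupOf (Subgroup.centralizer ({u} : Set G))) := by
    have e3 : P ≃* ↥(cjS x⁻¹ P) := Subgroup.equivMapOfInjective P _ (MulAut.conj x⁻¹).injective
    exact isKleinFour_of_mulEquiv (e3.trans (Subgroup.subgroupOfEquivOfLe hdef.1).symm) hV
  have huC : u ∈ Subgroup.centralizer ({u} : Set G) := Subgroup.mem_centralizer_singleton_iff.2 rfl
  obtain ⟨h4, h1⟩ := kl_central hM hind.1 hDb hVb (a := ⟨u, huC⟩)
    (by
      rw [Subgroup.mem_subgroupOf, mem_cjS]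
      simpa using hxu)
    (fun h => hu1 (congrArg Subtype.val h))
    (fun g => Subtype.ext (Subgroup.mem_centralizer_singleton_iff.1 g.2))
  exact ⟨ho, h4, h1, kl_defect_two hM hind.1 hDb hVb⟩

end

end Cfsg.Agent.Lib.Helper26.BP
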