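import Cfsg.Agent.Lib.Helper26.KlE

/-!
# Expansion of characters on sections through rank one local blocks
-/

set_option autoImplicit false
set_option linter.unusedSectionVars false
set_option linter.unusedVariables false
set_option linter.style.haveILetI false

open Cfsg Cfsg.Agent.Lib.Helper7 Cfsg.Agent.Lib.Helper24 Cfsg.Agent.Lib.Helper26.Ctr
open scoped ComplexConjugate

namespace Cfsg.Agent.Lib.Helper26.Kl

noncomputable section
open Classical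

universe u
variable {M : Ideal AlgInt}

theorem sum_indicator_of_blocks {K : Type u} [Group K] [M.IsPrime] [Fintype (IrrCharacter K)]
    {E : Set (IrrCharacter K)} (hE : IsBlockUnion M E) (f : IrrCharacter K → ℂ) (Pr : ℂ → Prop)
    (h0 : Pr 0) (hadd : ∀ a b, Pr a → Pr b → Pr (a + b))
    (h : ∀ b, IsPBlock M b → b ⊆ E → Pr (∑ χ, b.indicator f χ)) :
    Pr (∑ χ, E.indicator f χ) := by
  rw [sum_eq_sum_blocks (M := M)]
  apply Finset.sum_induction _ Pr hadd h0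
  intro b hb
  obtain ⟨χ₀, _, rfl⟩ := Finset.mem_image.1 hb
  by_cases hχ₀ : χ₀ ∈ E
  · have := h _ ⟨χ₀, rfl⟩ (hE χ₀ hχ₀)
    convert this using 1
    apply Finset.sum_congr rfl
    intro χ _
    by_cases hχ : χ ∈ blockOf M (χ₀ : K → ℂ)
    · rw [Set.indicator_of_mem hχ, Set.indicator_of_mem hχ, Set.indicator_of_mem (hE χ₀ hχ₀ hχ)]
    · rw [Set.indicator_of_notMem hχ, Set.indicator_of_notMem hχ]
  · convert h0 using 1
    apply Finset.sum_eq_zero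
    intro χ _
    by_cases hχ : χ ∈ blockOf M (χ₀ : K → ℂ)
    · rw [Set.indicator_of_mem hχ, Set.indicator_of_notMem]
      intro hχA
      exact hχ₀ (hE χ hχA (sameBlock_symm hχ))
    · rw [Set.indicator_of_notMem hχ]

variable {X : Type u} [Group X] [Fintype X]

theorem co_int {H : Subgroup X} [Fintype H] {y : X} (hyH : y ∈ H)
    (hyc : ∀ c : H, Commute y (c : X)) (hy2 : orderOf y = 2) {χ : X → ℂ} (hχ : IsCharacter X χ)
    (ξ : IrrCharacter H) : ∃ z : ℤ, co H ⟨y, hyH⟩ χ ξ = z := by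
  obtain ⟨n, hn⟩ := Cfsg.Agent.Lib.Helper2.IsCharacter.classInner_nat
    (isCharacter_restrict hχ H) (isCharacter_of_irr ξ.2)
  have h1 := lam_pow_orderOf (mk_mem_center hyH hyc) ξ
  rw [Subgroup.orderOf_mk, hy2] at h1
  have h2 : lam (⟨y, hyH⟩ : H) (ξ : H → ℂ) = 1 ∨ lam (⟨y, hyH⟩ : H) (ξ : H → ℂ) = -1 :=
    by
      have h3 : (lam (⟨y, hyH⟩ : H) (ξ : H → ℂ) - 1) * (lam (⟨y, hyH⟩ : H) (ξ : H → ℂ) + 1) = 0 := by
        linear_combination h1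
      rcases mul_eq_zero.1 h3 with h | h
      · left; linear_combination h
      · right; linear_combination h
  rw [co, hn]
  rcases h2 with h | h
  · exact ⟨n, by rw [h]; simp⟩
  · exact ⟨-n, by rw [h]; simp⟩

section loc

variable {H : Subgroup X} [Fintype H] [Fintype (IrrCharacter H)] {b : Set (IrrCharacter H)}
  {w' : IrrCharacter H → ℤ}

/-- the common value on `2`-regular elements -/
def Om4 (b : Set (IrrCharacter H)) (w' : IrrCharacter H → ℤ) (c : H) : ℂ :=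
  1 / 4 * ∑ ξ ∈ Finset.univ.filter (· ∈ b), (w' ξ : ℂ) * (ξ : H → ℂ) c

/-- the generalized decomposition number -/
def DD (b : Set (IrrCharacter H)) (w' : IrrCharacter H → ℤ) (y : H) (χ : X → ℂ) : ℂ :=
  ∑ ξ ∈ Finset.univ.filter (· ∈ b), co H y χ ξ * (w' ξ : ℂ)

theorem fp_rank_one (hs : ∀ ξ ∈ b, w' ξ = 1 ∨ w' ξ = -1)
    (hc : ∀ ξ ∈ b, ∀ c : H, ¬ 2 ∣ orderOf c → (w' ξ : ℂ) * (ξ : H → ℂ) c = Om4 b w' c)
    {y : X} (hyH : y ∈ H) (hyc : ∀ c : H, Commute y (c : X)) {χ : X → ℂ}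
    (hχ : IsClassFunction X χ) (c : H) (hcr : ¬ 2 ∣ orderOf c) :
    fp H b y χ c = DD b w' ⟨y, hyH⟩ χ * Om4 b w' c := by
  rw [fp_eq_sum b hyH hyc hχ, Finset.sum_apply, DD, Finset.sum_mul]
  apply Finset.sum_congr rfl
  intro ξ hξ
  have hξb := (Finset.mem_filter.1 hξ).2
  rw [Pi.smul_apply, smul_eq_mul, ← hc ξ hξb c hcr]
  have h3 := sign_mul_self (hs ξ hξb)
  linear_combination (-(co H ⟨y, hyH⟩ χ ξ * (ξ : H → ℂ) c)) * h3

theorem mm_rank_one (hs : ∀ ξ ∈ b, w' ξ = 1 ∨ w' ξ = -1)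
    (hc : ∀ ξ ∈ b, ∀ c : H, ¬ 2 ∣ orderOf c → (w' ξ : ℂ) * (ξ : H → ℂ) c = Om4 b w' c)
    (hn : ∀ ξ ∈ b, mr 2 ξ ξ = 1 / 4) (hne : b.Nonempty)
    {y : X} (hyH : y ∈ H) (hyc : ∀ c : H, Commute y (c : X)) {χ : X → ℂ}
    (hχ : IsClassFunction X χ) :
    mm 2 H b y χ χ = DD b w' ⟨y, hyH⟩ χ * conj (DD b w' ⟨y, hyH⟩ χ) * (1 / 4) := by
  have hd : pRegularPart 2 (fp H b y χ) = DD b w' ⟨y, hyH⟩ χ • regPart 2 (Om4 b w') := by
    funext c
    by_cases hcr : 2 ∣ orderOf c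
    · rw [pReg_apply_of_sing _ hcr, Pi.smul_apply, regPart, if_pos hcr, smul_zero]
    · rw [pReg_apply_of_reg _ hcr, Pi.smul_apply, regPart, if_neg hcr, smul_eq_mul,
        fp_rank_one hs hc hyH hyc hχ c hcr]
  rw [mm_eq_of_gen hd hd]
  congr 1
  obtain ⟨ξ₀, hξ₀⟩ := hne
  have e1 : regPart 2 (Om4 b w') = (w' ξ₀ : ℂ) • regPart 2 (ξ₀ : H → ℂ) := by
    funext c
    simp only [regPart, Pi.smul_apply, smul_eq_mul]
    split_ifs with hcr
    · rw [mul_zero]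
    · rw [hc ξ₀ hξ₀ c hcr]
  rw [e1, classInner_smul_left, classInner_smul_right, ← mr_self_eq, hn ξ₀ hξ₀, map_intCast,
    ← mul_assoc, sign_mul_self (hs ξ₀ hξ₀), one_mul]

theorem DD_int {y : X} (hyH : y ∈ H) (hyc : ∀ c : H, Commute y (c : X)) (hy2 : orderOf y = 2)
    {χ : X → ℂ} (hχ : IsCharacter X χ) : ∃ z : ℤ, DD b w' ⟨y, hyH⟩ χ = z := by
  choose z hz using fun ξ => co_int hyH hyc hy2 hχ ξ
  refine ⟨∑ ξ ∈ Finset.univ.filter (· ∈ b), z ξ * w' ξ, ?_⟩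
  rw [DD]
  push_cast
  apply Finset.sum_congr rfl
  intro ξ _
  rw [hz]

theorem DD_odd (hM : IsPModular 2 M) (hs : ∀ ξ ∈ b, w' ξ = 1 ∨ w' ξ = -1)
    (hc : ∀ ξ ∈ b, ∀ c : H, ¬ 2 ∣ orderOf c → (w' ξ : ℂ) * (ξ : H → ℂ) c = Om4 b w' c)
    (hn : ∀ ξ ∈ b, mr 2 ξ ξ = 1 / 4) (hd : blockDefect 2 b = 2)
    {A : Set (IrrCharacter X)} (hind : IsInducedBlock M H b A)
    {y : X} (hyH : y ∈ H) (hyc : ∀ c : H, Commute y (c : X)) (hy2 : orderOf y = 2)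
    {χ : IrrCharacter X} (hχ : χ ∈ A) (h0 : blockHeight 2 A (χ : X → ℂ) = 0) {z : ℤ}
    (hz : DD b w' ⟨y, hyH⟩ (χ : X → ℂ) = z) : Odd z := by
  haveI := hM.2.1.isPrime
  have h1 := pq_mm_unit hM hind ⟨1, by rw [hy2, pow_one]⟩ hyH hyc hχ h0 hχ h0
  rw [hd, mm_rank_one hs hc hn (isPBlock_nonempty hind.1) hyH hyc (isClassFunction_irr χ), hz,
    map_intCast] at h1
  by_contra hodd
  rw [Int.not_odd_iff_even] at hodd
  obtain ⟨k, hk⟩ := hodd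
  apply h1
  have e : ((2 : ℕ) : ℂ) ^ 2 * ((z : ℂ) * (z : ℂ) * (1 / 4)) = ((2 : ℕ) : ℂ) * ((2 * k * k : ℤ) : ℂ) := by
    rw [hk]; push_cast; ring
  rw [e]
  exact memLocalIdeal_mul_right (memLocalIdeal_p hM) (memLocalRing_intCast _)

end loc

end

end Cfsg.Agent.Lib.Helper26.Kl
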