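import Cfsg.Agent.Lib.Helper26.KlF

/-!
# Congruences for a rank one block with Klein four defect group
-/

set_option autoImplicit false
set_option linter.unusedSectionVars false
set_option linter.unusedVariables false
set_option linter.style.haveILetI false

open Cfsg Cfsg.Agent.Lib.Helper7 Cfsg.Agent.Lib.Helper24 Cfsg.Agent.Lib.Helper26.Ctr
open scoped ComplexConjugate

namespace Cfsg.Agent.Lib.Helper26.Kl

noncomputable section
open Classical

universe u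
variable {M : Ideal AlgInt}
variable {X : Type u} [Group X] [Fintype X] [Fintype (IrrCharacter X)]

theorem height_zero_of_const [M.IsPrime] {A : Set (IrrCharacter X)} (hA : IsPBlock M A)
    {w : IrrCharacter X → ℤ} (hs : ∀ χ ∈ A, w χ = 1 ∨ w χ = -1)
    (hc : ∀ χ ∈ A, ∀ x, ¬ 2 ∣ orderOf x → (w χ : ℂ) * (χ : X → ℂ) x
        = 1 / 4 * ∑ ψ ∈ Finset.univ.filter (· ∈ A), (w ψ : ℂ) * (ψ : X → ℂ) x)
    {χ : IrrCharacter X} (hχ : χ ∈ A) : blockHeight 2 A (χ : X → ℂ) = 0 := by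
  obtain ⟨χ₁, hχ₁, hh⟩ := exists_height_zero hA 2
  have h1 : ¬ 2 ∣ orderOf (1 : X) := by rw [orderOf_one]; norm_num
  have h2 : (w χ : ℂ) * (χ : X → ℂ) 1 = (w χ₁ : ℂ) * (χ₁ : X → ℂ) 1 := by
    rw [hc χ hχ 1 h1, hc χ₁ hχ₁ 1 h1]
  rw [← charDegree_cast (isCharacter_of_irr χ.2), ← charDegree_cast (isCharacter_of_irr χ₁.2)] at h2
  have h3 : w χ * (charDegree (χ : X → ℂ) : ℤ) = w χ₁ * (charDegree (χ₁ : X → ℂ) : ℤ) := by
    exact_mod_cast h2
  have h4 := charDegree_pos χ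
  have h5 := charDegree_pos χ₁
  have h6 : charDegree (χ : X → ℂ) = charDegree (χ₁ : X → ℂ) := by
    rcases hs χ hχ with a | a <;> rcases hs χ₁ hχ₁ with c | c <;> rw [a, c] at h3 <;> omega
  rw [blockHeight, h6, hh]; simp

theorem kl_congr [M.IsPrime] [CharP (resField M) 2] (hM : IsPModular 2 M)
    {A : Set (IrrCharacter X)} (hA : IsPBlock M A) {D : Subgroup X}
    (hD : IsDefectGroup 2 M A D) (hV : IsKleinFour D)
    {w : IrrCharacter X → ℤ} (hs : ∀ χ ∈ A, w χ = 1 ∨ w χ = -1)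
    (hc : ∀ χ ∈ A, ∀ x, ¬ 2 ∣ orderOf x → (w χ : ℂ) * (χ : X → ℂ) x
        = 1 / 4 * ∑ ψ ∈ Finset.univ.filter (· ∈ A), (w ψ : ℂ) * (ψ : X → ℂ) x)
    {χ ψ : IrrCharacter X} (hχ : χ ∈ A) (hψ : ψ ∈ A) (x : X) :
    MemLocalRing M (((w χ : ℂ) * (χ : X → ℂ) x - (w ψ : ℂ) * (ψ : X → ℂ) x) / 2) ∧
    MemLocalRing M (2 * ((w χ : ℂ) * (χ : X → ℂ) x - (w ψ : ℂ) * (ψ : X → ℂ) x)
      / (Nat.card (Subgroup.centralizer ({x} : Set X)) : ℂ)) := by
  obtain ⟨u, s, hus, hcomm, hu, hsr⟩ := exists_pPart Nat.prime_two x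
  by_cases hu1 : u = 1
  · have hx : ¬ 2 ∣ orderOf x := by rw [← hus, hu1, one_mul]; exact hsr
    rw [hc χ hχ x hx, hc ψ hψ x hx, sub_self, zero_div, mul_zero, zero_div]
    exact ⟨memLocalRing_zero, memLocalRing_zero⟩
  haveI : Fintype (IrrCharacter (Subgroup.centralizer ({u} : Set X))) := Fintype.ofFinite _
  have huC : u ∈ Subgroup.centralizer ({u} : Set X) := Subgroup.mem_centralizer_singleton_iff.2 rfl
  have hyc : ∀ c : Subgroup.centralizer ({u} : Set X), Commute u (c : X) := fun c =>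
    (Subgroup.mem_centralizer_singleton_iff.1 c.2).symm
  have hsC : s ∈ Subgroup.centralizer ({u} : Set X) :=
    Subgroup.mem_centralizer_singleton_iff.2 hcomm.symm.eq
  have hsr' : ¬ 2 ∣ orderOf (⟨s, hsC⟩ : Subgroup.centralizer ({u} : Set X)) := by
    rw [Subgroup.orderOf_mk]; exact hsr
  have hval : ∀ φ ∈ A, (φ : X → ℂ) x = ∑ ξ : IrrCharacter (Subgroup.centralizer ({u} : Set X)),
      (indSet M (Subgroup.centralizer ({u} : Set X)) A).indicator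
        (fun ξ => co _ ⟨u, huC⟩ (φ : X → ℂ) ξ
          * (ξ : Subgroup.centralizer ({u} : Set X) → ℂ) ⟨s, hsC⟩) ξ := by
    intro φ hφ
    have h1 := blockPart_indSet hM hu hA φ ⟨s, hsC⟩ hsr'
    rw [Set.indicator_of_mem hφ] at h1
    have h2 := congrFun (fp_eq_sum (indSet M (Subgroup.centralizer ({u} : Set X)) A) huC hyc
      (isClassFunction_irr φ)) ⟨s, hsC⟩
    rw [← hus]
    rw [← h1]
    show fp _ _ u (φ : X → ℂ) ⟨s, hsC⟩ = _
    rw [h2, Finset.sum_apply, Finset.sum_filter]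
    apply Finset.sum_congr rfl
    intro ξ _
    by_cases hξ : ξ ∈ indSet M (Subgroup.centralizer ({u} : Set X)) A
    · rw [if_pos hξ, Set.indicator_of_mem hξ]; rfl
    · rw [if_neg hξ, Set.indicator_of_notMem hξ]
  have hΘ : (w χ : ℂ) * (χ : X → ℂ) x - (w ψ : ℂ) * (ψ : X → ℂ) x
      = ∑ ξ : IrrCharacter (Subgroup.centralizer ({u} : Set X)),
      (indSet M (Subgroup.centralizer ({u} : Set X)) A).indicator
        (fun ξ => ((w χ : ℂ) * co _ ⟨u, huC⟩ (χ : X → ℂ) ξ - (w ψ : ℂ) * co _ ⟨u, huC⟩ (ψ : X → ℂ) ξ)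
          * (ξ : Subgroup.centralizer ({u} : Set X) → ℂ) ⟨s, hsC⟩) ξ := by
    rw [hval χ hχ, hval ψ hψ, Finset.mul_sum, Finset.mul_sum, ← Finset.sum_sub_distrib]
    apply Finset.sum_congr rfl
    intro ξ _
    by_cases hξ : ξ ∈ indSet M (Subgroup.centralizer ({u} : Set X)) A
    · rw [Set.indicator_of_mem hξ, Set.indicator_of_mem hξ, Set.indicator_of_mem hξ]; ring
    · rw [Set.indicator_of_notMem hξ, Set.indicator_of_notMem hξ, Set.indicator_of_notMem hξ]; ring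
  rw [hΘ]
  apply sum_indicator_of_blocks (isBlockUnion_indSet _ A) _
    (fun z => MemLocalRing M (z / 2) ∧
      MemLocalRing M (2 * z / (Nat.card (Subgroup.centralizer ({x} : Set X)) : ℂ)))
  · rw [zero_div, mul_zero, zero_div]
    exact ⟨memLocalRing_zero, memLocalRing_zero⟩
  · rintro a b ⟨ha1, ha2⟩ ⟨hb1, hb2⟩
    rw [add_div, mul_add, add_div]
    exact ⟨memLocalRing_add ha1 hb1, memLocalRing_add ha2 hb2⟩
  · intro b hb hbE
    have hind := induced_of_subset_indSet hb hbE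
    obtain ⟨ho, h4, h1, hd2⟩ := BP.kl_local hM hA hD hV hu hu1 hind
    obtain ⟨w', hs', hc', -, hn'⟩ := klein_eval_one hM hb h4 hd2 h1
    have hsum : ∑ ξ : IrrCharacter (Subgroup.centralizer ({u} : Set X)), b.indicator
        (fun ξ => ((w χ : ℂ) * co _ ⟨u, huC⟩ (χ : X → ℂ) ξ - (w ψ : ℂ) * co _ ⟨u, huC⟩ (ψ : X → ℂ) ξ)
          * (ξ : Subgroup.centralizer ({u} : Set X) → ℂ) ⟨s, hsC⟩) ξ
        = (w χ : ℂ) * fp _ b u (χ : X → ℂ) ⟨s, hsC⟩ - (w ψ : ℂ) * fp _ b u (ψ : X → ℂ) ⟨s, hsC⟩ := by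
      rw [fp_eq_sum b huC hyc (isClassFunction_irr χ), fp_eq_sum b huC hyc (isClassFunction_irr ψ),
        Finset.sum_apply, Finset.sum_apply, Finset.mul_sum, Finset.mul_sum,
        ← Finset.sum_sub_distrib, Finset.sum_filter]
      apply Finset.sum_congr rfl
      intro ξ _
      by_cases hξ : ξ ∈ b
      · rw [if_pos hξ, Set.indicator_of_mem hξ]
        simp only [Pi.smul_apply, smul_eq_mul]
        ring
      · rw [if_neg hξ, Set.indicator_of_notMem hξ]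
    rw [hsum, fp_rank_one hs' hc' huC hyc (isClassFunction_irr χ) _ hsr',
      fp_rank_one hs' hc' huC hyc (isClassFunction_irr ψ) _ hsr']
    obtain ⟨z₁, hz₁⟩ := DD_int (b := b) (w' := w') huC hyc ho (isCharacter_of_irr χ.2)
    obtain ⟨z₂, hz₂⟩ := DD_int (b := b) (w' := w') huC hyc ho (isCharacter_of_irr ψ.2)
    have ho₁ := DD_odd hM hs' hc' hn' hd2 hind huC hyc ho hχ (height_zero_of_const hA hs hc hχ) hz₁
    have ho₂ := DD_odd hM hs' hc' hn' hd2 hind huC hyc ho hψ (height_zero_of_const hA hs hc hψ) hz₂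
    obtain ⟨k, hk⟩ : ∃ k : ℤ, w χ * z₁ - w ψ * z₂ = 2 * k := by
      obtain ⟨a, ha⟩ := ho₁
      obtain ⟨c, hc⟩ := ho₂
      rcases hs χ hχ with e1 | e1 <;> rcases hs ψ hψ with e2 | e2 <;> rw [e1, e2, ha, hc]
      · exact ⟨a - c, by ring⟩
      · exact ⟨a + c + 1, by ring⟩
      · exact ⟨-a - c - 1, by ring⟩
      · exact ⟨c - a, by ring⟩
    have hk' : (w χ : ℂ) * (z₁ : ℂ) - (w ψ : ℂ) * (z₂ : ℂ) = 2 * (k : ℂ) := by exact_mod_cast hk
    obtain ⟨ξ₀, hξ₀⟩ := isPBlock_nonempty hb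
    have hOm : Om4 b w' (⟨s, hsC⟩ : Subgroup.centralizer ({u} : Set X)) = (w' ξ₀ : ℂ)
        * (ξ₀ : Subgroup.centralizer ({u} : Set X) → ℂ) ⟨s, hsC⟩ := (hc' ξ₀ hξ₀ _ hsr').symm
    rw [hz₁, hz₂, hOm]
    constructor
    · have e : ((w χ : ℂ) * ((z₁ : ℂ) * ((w' ξ₀ : ℂ)
          * (ξ₀ : Subgroup.centralizer ({u} : Set X) → ℂ) ⟨s, hsC⟩))
          - (w ψ : ℂ) * ((z₂ : ℂ) * ((w' ξ₀ : ℂ)
          * (ξ₀ : Subgroup.centralizer ({u} : Set X) → ℂ) ⟨s, hsC⟩))) / 2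
          = (k : ℂ) * ((w' ξ₀ : ℂ) * (ξ₀ : Subgroup.centralizer ({u} : Set X) → ℂ) ⟨s, hsC⟩) := by
        linear_combination ((w' ξ₀ : ℂ)
          * (ξ₀ : Subgroup.centralizer ({u} : Set X) → ℂ) ⟨s, hsC⟩ / 2) * hk'
      rw [e]
      exact memLocalRing_mul (memLocalRing_intCast _) (memLocalRing_mul (memLocalRing_intCast _)
        (memLocalRing_of_isIntegral (char_isIntegral (isCharacter_of_irr ξ₀.2) _)))
    · have hH0 := H0 hM hb hξ₀ (⟨s, hsC⟩ : Subgroup.centralizer ({u} : Set X))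
      have hcard := card_centralizer_section Nat.prime_two hu
        (⟨s, hsC⟩ : Subgroup.centralizer ({u} : Set X)) hsr'
      rw [hd2, ← hcard] at hH0
      simp only [hus] at hH0
      have e : 2 * ((w χ : ℂ) * ((z₁ : ℂ) * ((w' ξ₀ : ℂ)
          * (ξ₀ : Subgroup.centralizer ({u} : Set X) → ℂ) ⟨s, hsC⟩))
          - (w ψ : ℂ) * ((z₂ : ℂ) * ((w' ξ₀ : ℂ)
          * (ξ₀ : Subgroup.centralizer ({u} : Set X) → ℂ) ⟨s, hsC⟩)))
          / (Nat.card (Subgroup.centralizer ({x} : Set X)) : ℂ)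
          = (k : ℂ) * (w' ξ₀ : ℂ) * (((2 : ℕ) : ℂ) ^ 2
            * (ξ₀ : Subgroup.centralizer ({u} : Set X) → ℂ) ⟨s, hsC⟩
            / (Nat.card (Subgroup.centralizer ({x} : Set X)) : ℂ)) := by
        push_cast
        linear_combination (2 * (w' ξ₀ : ℂ)
          * (ξ₀ : Subgroup.centralizer ({u} : Set X) → ℂ) ⟨s, hsC⟩
          / (Nat.card (Subgroup.centralizer ({x} : Set X)) : ℂ)) * hk'
      rw [e]
      exact memLocalRing_mul (memLocalRing_mul (memLocalRing_intCast _) (memLocalRing_intCast _)) hH0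

end

end Cfsg.Agent.Lib.Helper26.Kl
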