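import Cfsg.Agent.Lib.Helper26.KlG

/-!
# Assembling a perfect isometry from sign data
-/

set_option autoImplicit false
set_option linter.unusedSectionVars false
set_option linter.unusedVariables false
set_option linter.style.haveILetI false

open Cfsg Cfsg.Agent.Lib.Helper7 Cfsg.Agent.Lib.Helper24 Cfsg.Agent.Lib.Helper26.Ctr
open scoped ComplexConjugate

namespace Cfsg.Agent.Lib.Helper26.Kl

noncomputable section
open Classical

universe u
variable {M : Ideal AlgInt}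

/-- sign data of a set of four characters relative to a predicate `E` on the group -/
structure KD (M : Ideal AlgInt) {X : Type u} [Group X] [Fintype X] [Fintype (IrrCharacter X)]
    (A : Set (IrrCharacter X)) (E : X → Prop) (w : IrrCharacter X → ℤ) : Prop where
  sign : ∀ χ ∈ A, w χ = 1 ∨ w χ = -1
  const : ∀ χ ∈ A, ∀ x, E x → (w χ : ℂ) * (χ : X → ℂ) x
    = 1 / 4 * ∑ ψ ∈ Finset.univ.filter (· ∈ A), (w ψ : ℂ) * (ψ : X → ℂ) x
  zero : ∀ x, ¬ E x → ∑ ψ ∈ Finset.univ.filter (· ∈ A), (w ψ : ℂ) * (ψ : X → ℂ) x = 0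
  h0 : ∀ χ ∈ A, ∀ x, MemLocalRing M (4 * (χ : X → ℂ) x
    / (Nat.card (Subgroup.centralizer ({x} : Set X)) : ℂ))

variable {G Y : Type u} [Group G] [Fintype G] [Fintype (IrrCharacter G)]
  [Group Y] [Fintype Y] [Fintype (IrrCharacter Y)]
  {B : Set (IrrCharacter G)} {c : Set (IrrCharacter Y)} {I : IrrCharacter Y → IrrCharacter G}
  {wB : IrrCharacter G → ℤ} {wc : IrrCharacter Y → ℤ} {EG : G → Prop} {EY : Y → Prop}

theorem mu_eq (c : Set (IrrCharacter Y)) (I : IrrCharacter Y → IrrCharacter G)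
    (wB : IrrCharacter G → ℤ) (wc : IrrCharacter Y → ℤ) (x : G) (y : Y) :
    signedBijectionKernel c I (fun η => wc η * wB (I η)) x y
      = ∑ η ∈ Finset.univ.filter (· ∈ c), ((wB (I η) : ℂ) * (I η : G → ℂ) x)
        * ((wc η : ℂ) * (η : Y → ℂ) y) := by
  rw [signedBijectionKernel, finsum_mem_eq_finite_toFinset_sum _ (Set.toFinite c)]
  apply Finset.sum_congr
  · ext χ; simp
  · intro η _
    push_cast
    ring

theorem sum_reindex (hI : Set.BijOn I c B) (g : IrrCharacter G → ℂ) :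
    ∑ η ∈ Finset.univ.filter (· ∈ c), g (I η) = ∑ χ ∈ Finset.univ.filter (· ∈ B), g χ := by
  apply Finset.sum_nbij I
  · intro η hη
    exact Finset.mem_filter.2 ⟨Finset.mem_univ _, hI.mapsTo (Finset.mem_filter.1 hη).2⟩
  · intro a ha b hb hab
    exact hI.injOn (by simpa using ha) (by simpa using hb) hab
  · intro χ hχ
    obtain ⟨η, hη, rfl⟩ := hI.surjOn (show χ ∈ B by simpa using hχ)
    exact ⟨η, by simpa using hη, rfl⟩
  · intro _ _; rfl

theorem mu_left (hI : Set.BijOn I c B) (hB : KD M B EG wB) {x : G} (hx : EG x) (y : Y)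
    {η₀ : IrrCharacter Y} (hη₀ : η₀ ∈ c) :
    signedBijectionKernel c I (fun η => wc η * wB (I η)) x y
      = ((wB (I η₀) : ℂ) * (I η₀ : G → ℂ) x)
        * ∑ η ∈ Finset.univ.filter (· ∈ c), (wc η : ℂ) * (η : Y → ℂ) y := by
  rw [mu_eq, Finset.mul_sum]
  apply Finset.sum_congr rfl
  intro η hη
  rw [hB.const _ (hI.mapsTo (Finset.mem_filter.1 hη).2) x hx, hB.const _ (hI.mapsTo hη₀) x hx]

theorem mu_right (hI : Set.BijOn I c B) (hc : KD M c EY wc) (x : G) {y : Y} (hy : EY y)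
    {η₀ : IrrCharacter Y} (hη₀ : η₀ ∈ c) :
    signedBijectionKernel c I (fun η => wc η * wB (I η)) x y
      = ((wc η₀ : ℂ) * (η₀ : Y → ℂ) y)
        * ∑ χ ∈ Finset.univ.filter (· ∈ B), (wB χ : ℂ) * (χ : G → ℂ) x := by
  rw [mu_eq, ← sum_reindex hI (fun χ => (wB χ : ℂ) * (χ : G → ℂ) x), Finset.mul_sum]
  apply Finset.sum_congr rfl
  intro η hη
  rw [hc.const _ (Finset.mem_filter.1 hη).2 y hy, hc.const _ hη₀ y hy]
  ring

theorem mu_zero_left (hI : Set.BijOn I c B) (hB : KD M B EG wB) (hc : KD M c EY wc)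
    (hne : c.Nonempty) {x : G} (hx : EG x) {y : Y} (hy : ¬ EY y) :
    signedBijectionKernel c I (fun η => wc η * wB (I η)) x y = 0 := by
  obtain ⟨η₀, hη₀⟩ := hne
  rw [mu_left hI hB hx y hη₀, hc.zero y hy, mul_zero]

theorem mu_zero_right (hI : Set.BijOn I c B) (hB : KD M B EG wB) (hc : KD M c EY wc)
    (hne : c.Nonempty) {x : G} (hx : ¬ EG x) {y : Y} (hy : EY y) :
    signedBijectionKernel c I (fun η => wc η * wB (I η)) x y = 0 := by
  obtain ⟨η₀, hη₀⟩ := hne
  rw [mu_right hI hc x hy hη₀, hB.zero x hx, mul_zero]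

theorem mu_int [M.IsPrime] (hI : Set.BijOn I c B) (hB : KD M B EG wB) (hc : KD M c EY wc)
    (hne : c.Nonempty) {x : G} (hx : EG x) {y : Y} (hy : EY y) :
    MemLocalRing M (signedBijectionKernel c I (fun η => wc η * wB (I η)) x y
      / (Nat.card (Subgroup.centralizer ({x} : Set G)) : ℂ)) ∧
    MemLocalRing M (signedBijectionKernel c I (fun η => wc η * wB (I η)) x y
      / (Nat.card (Subgroup.centralizer ({y} : Set Y)) : ℂ)) := by
  obtain ⟨η₀, hη₀⟩ := hne
  have h1 := hc.const η₀ hη₀ y hy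
  have h2 : ∑ η ∈ Finset.univ.filter (· ∈ c), (wc η : ℂ) * (η : Y → ℂ) y
      = 4 * ((wc η₀ : ℂ) * (η₀ : Y → ℂ) y) := by rw [h1]; ring
  rw [mu_left hI hB hx y hη₀, h2]
  constructor
  · have e : (wB (I η₀) : ℂ) * (I η₀ : G → ℂ) x * (4 * ((wc η₀ : ℂ) * (η₀ : Y → ℂ) y))
        / (Nat.card (Subgroup.centralizer ({x} : Set G)) : ℂ)
        = (wB (I η₀) : ℂ) * (wc η₀ : ℂ) * (η₀ : Y → ℂ) y * (4 * (I η₀ : G → ℂ) x
          / (Nat.card (Subgroup.centralizer ({x} : Set G)) : ℂ)) := by ring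
    rw [e]
    exact memLocalRing_mul (memLocalRing_mul (memLocalRing_mul (memLocalRing_intCast _)
      (memLocalRing_intCast _))
      (memLocalRing_of_isIntegral (char_isIntegral (isCharacter_of_irr η₀.2) _)))
      (hB.h0 _ (hI.mapsTo hη₀) x)
  · have e : (wB (I η₀) : ℂ) * (I η₀ : G → ℂ) x * (4 * ((wc η₀ : ℂ) * (η₀ : Y → ℂ) y))
        / (Nat.card (Subgroup.centralizer ({y} : Set Y)) : ℂ)
        = (wB (I η₀) : ℂ) * (wc η₀ : ℂ) * (I η₀ : G → ℂ) x * (4 * (η₀ : Y → ℂ) y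
          / (Nat.card (Subgroup.centralizer ({y} : Set Y)) : ℂ)) := by ring
    rw [e]
    exact memLocalRing_mul (memLocalRing_mul (memLocalRing_mul (memLocalRing_intCast _)
      (memLocalRing_intCast _))
      (memLocalRing_of_isIntegral (char_isIntegral (isCharacter_of_irr (I η₀).2) _)))
      (hc.h0 _ hη₀ y)

theorem assemble [M.IsPrime] (hI : Set.BijOn I c B) (hB : KD M B EG wB) (hc : KD M c EY wc)
    (hne : c.Nonempty)
    (hE : ∀ x y, (EG x ↔ EY y) → (IsPRegular 2 x ↔ IsPRegular 2 y))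
    (hoff : ∀ x y, ¬ EG x → ¬ EY y →
      MemLocalRing M (signedBijectionKernel c I (fun η => wc η * wB (I η)) x y
        / (Nat.card (Subgroup.centralizer ({x} : Set G)) : ℂ)) ∧
      MemLocalRing M (signedBijectionKernel c I (fun η => wc η * wB (I η)) x y
        / (Nat.card (Subgroup.centralizer ({y} : Set Y)) : ℂ))) :
    IsPerfectIsometry 2 M c B I (fun η => wc η * wB (I η)) := by
  refine ⟨hI, ?_, ?_⟩
  · intro η hη
    rcases hc.sign η hη with a | a <;> rcases hB.sign _ (hI.mapsTo hη) with b | b <;>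
      simp [a, b]
  · intro x y
    by_cases hx : EG x <;> by_cases hy : EY y
    · obtain ⟨h1, h2⟩ := mu_int hI hB hc hne hx hy
      exact ⟨h1, h2, Or.inl (hE x y ⟨fun _ => hy, fun _ => hx⟩)⟩
    · rw [mu_zero_left hI hB hc hne hx hy, zero_div, zero_div]
      exact ⟨memLocalRing_zero, memLocalRing_zero, Or.inr rfl⟩
    · rw [mu_zero_right hI hB hc hne hx hy, zero_div, zero_div]
      exact ⟨memLocalRing_zero, memLocalRing_zero, Or.inr rfl⟩
    · obtain ⟨h1, h2⟩ := hoff x y hx hy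
      exact ⟨h1, h2, Or.inl (hE x y ⟨fun h => absurd h hx, fun h => absurd h hy⟩)⟩

end

end Cfsg.Agent.Lib.Helper26.Kl
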