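import Cfsg.Agent.Lib.Helper26.KlH

/-!
# The off-diagonal integrality
-/

set_option autoImplicit false
set_option linter.unusedSectionVars false
set_option linter.unusedVariables false
set_option linter.style.haveILetI false

open Cfsg Cfsg.Agent.Lib.Helper7 Cfsg.Agent.Lib.Helper24 Cfsg.Agent.Lib.Helper26.Ctr
open scoped ComplexConjugate

namespace Cfsg.Agent.Lib.Helper26.Kl

noncomputable section
open Classical

universe u
variable {M : Ideal AlgInt}
variable {G Y : Type u} [Group G] [Fintype G] [Fintype (IrrCharacter G)]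
  [Group Y] [Fintype Y] [Fintype (IrrCharacter Y)]
  {B : Set (IrrCharacter G)} {c : Set (IrrCharacter Y)} {I : IrrCharacter Y → IrrCharacter G}
  {wB : IrrCharacter G → ℤ} {wc : IrrCharacter Y → ℤ}

theorem off_three (hM : IsPModular 2 M) (hI : Set.BijOn I c B)
    (hB : KD M B (fun x => 2 ∣ orderOf x) wB) (hc : KD M c (fun y => 2 ∣ orderOf y) wc)
    (hne : c.Nonempty) (x : G) (y : Y) (hx : ¬ 2 ∣ orderOf x) (hy : ¬ 2 ∣ orderOf y) :
    MemLocalRing M (signedBijectionKernel c I (fun η => wc η * wB (I η)) x y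
        / (Nat.card (Subgroup.centralizer ({x} : Set G)) : ℂ)) ∧
      MemLocalRing M (signedBijectionKernel c I (fun η => wc η * wB (I η)) x y
        / (Nat.card (Subgroup.centralizer ({y} : Set Y)) : ℂ)) := by
  haveI := hM.2.1.isPrime
  haveI : Fact (Nat.Prime 2) := ⟨Nat.prime_two⟩
  constructor
  · have h1 := L1 hM (Finset.univ.filter (· ∈ c))
      (fun η => (wB (I η) : ℂ) * ((wc η : ℂ) * (η : Y → ℂ) y))
      (fun η _ => memLocalRing_mul (memLocalRing_intCast _) (memLocalRing_mul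
        (memLocalRing_intCast _)
        (memLocalRing_of_isIntegral (char_isIntegral (isCharacter_of_irr η.2) _))))
      (fun η => (I η : G → ℂ)) (fun η _ => isCharacter_of_irr (I η).2)
      (by
        intro g hg
        have := mu_zero_left hI hB hc hne (x := g) hg hy
        rw [mu_eq] at this
        rw [← this]
        apply Finset.sum_congr rfl
        intro η _
        ring) x
    convert h1 using 2
    rw [mu_eq]
    apply Finset.sum_congr rfl
    intro η _
    ring
  · have h1 := L1 hM (Finset.univ.filter (· ∈ c))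
      (fun η => (wB (I η) : ℂ) * (I η : G → ℂ) x * (wc η : ℂ))
      (fun η _ => memLocalRing_mul (memLocalRing_mul (memLocalRing_intCast _)
        (memLocalRing_of_isIntegral (char_isIntegral (isCharacter_of_irr (I η).2) _)))
        (memLocalRing_intCast _))
      (fun η => (η : Y → ℂ)) (fun η _ => isCharacter_of_irr η.2)
      (by
        intro g hg
        have := mu_zero_right hI hB hc hne (x := x) hx (y := g) hg
        rw [mu_eq] at this
        rw [← this]
        apply Finset.sum_congr rfl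
        intro η _
        ring) y
    convert h1 using 2
    rw [mu_eq]
    apply Finset.sum_congr rfl
    intro η _
    ring

theorem sum_mul_identity {ι : Type*} (s : Finset ι) (a b : ι → ℂ) (a₀ b₀ : ℂ)
    (ha : ∑ i ∈ s, a i = 0) (hb : ∑ i ∈ s, b i = 0) :
    ∑ i ∈ s, a i * b i = ∑ i ∈ s, (a i - a₀) * (b i - b₀) - (s.card : ℂ) * (a₀ * b₀) := by
  have e : ∀ i ∈ s, (a i - a₀) * (b i - b₀) = a i * b i - a₀ * b i - a i * b₀ + a₀ * b₀ := by
    intro i _; ring
  rw [Finset.sum_congr rfl e, Finset.sum_add_distrib, Finset.sum_sub_distrib,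
    Finset.sum_sub_distrib, ← Finset.mul_sum, ← Finset.sum_mul, ha, hb, Finset.sum_const,
    nsmul_eq_mul]
  ring

theorem off_one (hM : IsPModular 2 M) (hI : Set.BijOn I c B)
    (hB : KD M B (fun x => ¬ 2 ∣ orderOf x) wB) (hc : KD M c (fun y => ¬ 2 ∣ orderOf y) wc)
    (hcard : Nat.card c = 4)
    (hCB : ∀ χ ∈ B, ∀ ψ ∈ B, ∀ x : G,
      MemLocalRing M (((wB χ : ℂ) * (χ : G → ℂ) x - (wB ψ : ℂ) * (ψ : G → ℂ) x) / 2) ∧
      MemLocalRing M (2 * ((wB χ : ℂ) * (χ : G → ℂ) x - (wB ψ : ℂ) * (ψ : G → ℂ) x)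
        / (Nat.card (Subgroup.centralizer ({x} : Set G)) : ℂ)))
    (hCc : ∀ χ ∈ c, ∀ ψ ∈ c, ∀ x : Y,
      MemLocalRing M (((wc χ : ℂ) * (χ : Y → ℂ) x - (wc ψ : ℂ) * (ψ : Y → ℂ) x) / 2) ∧
      MemLocalRing M (2 * ((wc χ : ℂ) * (χ : Y → ℂ) x - (wc ψ : ℂ) * (ψ : Y → ℂ) x)
        / (Nat.card (Subgroup.centralizer ({x} : Set Y)) : ℂ)))
    (hne : c.Nonempty) (x : G) (y : Y) (hx : ¬ ¬ 2 ∣ orderOf x) (hy : ¬ ¬ 2 ∣ orderOf y) :
    MemLocalRing M (signedBijectionKernel c I (fun η => wc η * wB (I η)) x y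
        / (Nat.card (Subgroup.centralizer ({x} : Set G)) : ℂ)) ∧
      MemLocalRing M (signedBijectionKernel c I (fun η => wc η * wB (I η)) x y
        / (Nat.card (Subgroup.centralizer ({y} : Set Y)) : ℂ)) := by
  haveI := hM.2.1.isPrime
  obtain ⟨η₀, hη₀⟩ := hne
  have ha : ∑ η ∈ Finset.univ.filter (· ∈ c), (wB (I η) : ℂ) * (I η : G → ℂ) x = 0 := by
    rw [sum_reindex hI (fun χ => (wB χ : ℂ) * (χ : G → ℂ) x)]
    exact hB.zero x hx
  have hb := hc.zero y hy
  have hF : ((Finset.univ.filter (· ∈ c)).card : ℂ) = 4 := by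
    rw [card_filter_eq, hcard]; norm_num
  rw [mu_eq, sum_mul_identity _ _ _ ((wB (I η₀) : ℂ) * (I η₀ : G → ℂ) x)
    ((wc η₀ : ℂ) * (η₀ : Y → ℂ) y) ha hb, hF, sub_div, sub_div, Finset.sum_div, Finset.sum_div]
  constructor
  · apply memLocalRing_sub
    · apply memLocalRing_sum
      intro η hη
      have hηc := (Finset.mem_filter.1 hη).2
      have h1 := (hCB _ (hI.mapsTo hηc) _ (hI.mapsTo hη₀) x).2
      have h2 := (hCc _ hηc _ hη₀ y).1
      convert memLocalRing_mul h1 h2 using 1
      ring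
    · have h1 := hB.h0 _ (hI.mapsTo hη₀) x
      have h2 : MemLocalRing M ((wB (I η₀) : ℂ) * ((wc η₀ : ℂ) * (η₀ : Y → ℂ) y)) :=
        memLocalRing_mul (memLocalRing_intCast _) (memLocalRing_mul (memLocalRing_intCast _)
          (memLocalRing_of_isIntegral (char_isIntegral (isCharacter_of_irr η₀.2) _)))
      convert memLocalRing_mul h1 h2 using 1
      ring
  · apply memLocalRing_sub
    · apply memLocalRing_sum
      intro η hη
      have hηc := (Finset.mem_filter.1 hη).2
      have h1 := (hCB _ (hI.mapsTo hηc) _ (hI.mapsTo hη₀) x).1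
      have h2 := (hCc _ hηc _ hη₀ y).2
      convert memLocalRing_mul h1 h2 using 1
      ring
    · have h1 := hc.h0 _ hη₀ y
      have h2 : MemLocalRing M ((wc η₀ : ℂ) * ((wB (I η₀) : ℂ) * (I η₀ : G → ℂ) x)) :=
        memLocalRing_mul (memLocalRing_intCast _) (memLocalRing_mul (memLocalRing_intCast _)
          (memLocalRing_of_isIntegral (char_isIntegral (isCharacter_of_irr (I η₀).2) _)))
      convert memLocalRing_mul h1 h2 using 1
      ring

end

end Cfsg.Agent.Lib.Helper26.Kl
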