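import Cfsg.Agent.Lib.Helper26.KlI

/-!
# Perfect isometries between blocks with Klein four defect groups of equal rank
-/

set_option autoImplicit false
set_option linter.unusedSectionVars false
set_option linter.unusedVariables false
set_option linter.style.haveILetI false

open Cfsg Cfsg.Agent.Lib.Helper7 Cfsg.Agent.Lib.Helper24 Cfsg.Agent.Lib.Helper26.Ctr
open scoped ComplexConjugate

namespace Cfsg.Agent.Lib.Helper26.Kl

noncomputable section
open Classical

universe u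
variable {M : Ideal AlgInt}

theorem kl_basic {G : Type u} [Group G] [Fintype G] [M.IsPrime] [CharP (resField M) 2]
    (hM : IsPModular 2 M)
    {B : Set (IrrCharacter G)} (hB : IsPBlock M B) {P : Subgroup G}
    (hPD : IsDefectGroup 2 M B P) (hV : IsKleinFour P) :
    Nat.card B = 4 ∧ (blockRank 2 B = 1 ∨ blockRank 2 B = 3) := by
  haveI : Fact (Nat.Prime 2) := ⟨Nat.prime_two⟩
  have hab := BP.ab_of_klein hV
  obtain ⟨c, hmax⟩ := BP.exists_maximal_of_defect hM hB hPD
  have hPp := hmax.1.1.1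
  have hcb := hmax.1.1.2
  have hm := (BP.isBrauerPairOf_iff hB hmax.1.1).1 hmax.1
  have hc : IsInducedBlock M (Subgroup.centralizer (P : Set G)) c B :=
    (BP.isInducedBlock_iff_ns hM hB hPp (BP.le_centralizer_of_ab hab le_rfl) rfl hcb).2 hm
  have hT : ∀ g : G, g ∈ BP.stabP ((P, BP.sbl M _ c) : BP.FP M G) ↔
      (g ∈ Subgroup.normalizer (P : Set G) ∧
        StabilizesBlock (Subgroup.centralizer (P : Set G)) c g) := by
    intro y
    rw [BP.mem_stabP_iff, BP.stabilizesBlock_iff hcb]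
    constructor
    · rintro ⟨h1, h2⟩
      exact ⟨h1, BP.normalizer_le_normalizer_centralizer _ h1, h2⟩
    · rintro ⟨h1, _, h2⟩
      exact ⟨h1, h2⟩
  obtain ⟨h13, h4, hr⟩ := BP.s4637 hM hB hPD hV hc hT
  exact ⟨h4, by rw [hr]; exact h13⟩

theorem exists_bijOn {α β : Type*} {s : Set α} {t : Set β} [Finite s] [Finite t]
    (h : Nat.card s = Nat.card t) (hne : t.Nonempty) : ∃ I : α → β, Set.BijOn I s t := by
  obtain ⟨b₀, hb₀⟩ := hne
  obtain ⟨e⟩ : Nonempty (s ≃ t) := Finite.card_eq.1 h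
  refine ⟨fun a => if h : a ∈ s then (e ⟨a, h⟩ : β) else b₀, ?_, ?_, ?_⟩
  · intro a ha
    simp only [dif_pos ha]
    exact (e ⟨a, ha⟩).2
  · intro a ha a' ha' haa
    simp only [dif_pos ha, dif_pos ha'] at haa
    have := e.injective (Subtype.ext haa)
    exact congrArg Subtype.val this
  · intro b hb
    refine ⟨(e.symm ⟨b, hb⟩ : α), (e.symm ⟨b, hb⟩).2, ?_⟩
    simp only [dif_pos (e.symm ⟨b, hb⟩).2]
    simp

theorem h0_four {X : Type u} [Group X] [Fintype X] (hM : IsPModular 2 M)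
    {A : Set (IrrCharacter X)} (hA : IsPBlock M A) (hd : blockDefect 2 A = 2) :
    ∀ χ ∈ A, ∀ x, MemLocalRing M (4 * (χ : X → ℂ) x
      / (Nat.card (Subgroup.centralizer ({x} : Set X)) : ℂ)) := by
  intro χ hχ x
  have := H0 hM hA hχ x
  rw [hd] at this
  convert this using 3
  norm_num

theorem kl_isometry {G Y : Type u} [Group G] [Fintype G] [Group Y] [Fintype Y] [M.IsPrime]
    [CharP (resField M) 2] (hM : IsPModular 2 M)
    {B : Set (IrrCharacter G)} (hB : IsPBlock M B) {P : Subgroup G}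
    (hPD : IsDefectGroup 2 M B P) (hV : IsKleinFour P)
    {c : Set (IrrCharacter Y)} (hc : IsPBlock M c) {Q : Subgroup Y}
    (hQD : IsDefectGroup 2 M c Q) (hVQ : IsKleinFour Q) (hrk : blockRank 2 B = blockRank 2 c) :
    ∃ (I : IrrCharacter Y → IrrCharacter G) (ε : IrrCharacter Y → ℤ),
      IsPerfectIsometry 2 M c B I ε := by
  haveI := Fintype.ofFinite (IrrCharacter G)
  haveI := Fintype.ofFinite (IrrCharacter Y)
  obtain ⟨hB4, hBr⟩ := kl_basic hM hB hPD hV
  obtain ⟨hc4, -⟩ := kl_basic hM hc hQD hVQ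
  have hBd := BP.kl_defect_two hM hB hPD hV
  have hcd := BP.kl_defect_two hM hc hQD hVQ
  obtain ⟨I, hI⟩ := exists_bijOn (s := c) (t := B) (by rw [hB4, hc4]) (isPBlock_nonempty hB)
  have hne := isPBlock_nonempty hc
  rcases hBr with h1 | h3
  · obtain ⟨wB, s1, c1, z1, -⟩ := klein_eval_one hM hB hB4 hBd h1
    obtain ⟨wc, s2, c2, z2, -⟩ := klein_eval_one hM hc hc4 hcd (by rw [← hrk]; exact h1)
    have kB : KD M B (fun x => ¬ 2 ∣ orderOf x) wB :=
      ⟨s1, c1, fun x hx => z1 x (not_not.1 hx), h0_four hM hB hBd⟩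
    have kc : KD M c (fun x => ¬ 2 ∣ orderOf x) wc :=
      ⟨s2, c2, fun x hx => z2 x (not_not.1 hx), h0_four hM hc hcd⟩
    refine ⟨I, _, assemble hI kB kc hne (fun x y h => h) ?_⟩
    intro x y hx hy
    exact off_one hM hI kB kc hc4
      (fun χ hχ ψ hψ x => kl_congr hM hB hPD hV s1 c1 hχ hψ x)
      (fun χ hχ ψ hψ x => kl_congr hM hc hQD hVQ s2 c2 hχ hψ x) hne x y hx hy
  · obtain ⟨wB, s1, c1, z1⟩ := klein_eval_three hM hB hB4 hBd h3
    obtain ⟨wc, s2, c2, z2⟩ := klein_eval_three hM hc hc4 hcd (by rw [← hrk]; exact h3)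
    have kB : KD M B (fun x => 2 ∣ orderOf x) wB := ⟨s1, c1, z1, h0_four hM hB hBd⟩
    have kc : KD M c (fun x => 2 ∣ orderOf x) wc := ⟨s2, c2, z2, h0_four hM hc hcd⟩
    refine ⟨I, _, assemble hI kB kc hne (fun x y h => not_congr h) ?_⟩
    intro x y hx hy
    exact off_three hM hI kB kc hne x y hx hy

end

end Cfsg.Agent.Lib.Helper26.Kl
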