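import Cfsg.Agent.Lib.Helper26.KlJ

/-!
# The Brauer correspondent of a block with Klein four defect group has the same rank
-/

set_option autoImplicit false
set_option linter.unusedSectionVars false
set_option linter.unusedVariables false
set_option linter.style.haveILetI false

open Cfsg Cfsg.Agent.Lib.Helper7 Cfsg.Agent.Lib.Helper24 Cfsg.Agent.Lib.Helper26.Ctr
open scoped ComplexConjugate

namespace Cfsg.Agent.Lib.Helper26.BP

noncomputable section
open Classical

universe u
variable {M : Ideal AlgInt} [M.IsPrime] [CharP (resField M) 2]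

theorem kl_rank_stab {G : Type u} [Group G] [Fintype G] (hM : IsPModular 2 M)
    {B : Set (IrrCharacter G)} (hB : IsPBlock M B) {P : Subgroup G}
    (hPD : IsDefectGroup 2 M B P) (hV : IsKleinFour P)
    {c : Set (IrrCharacter (Subgroup.centralizer (P : Set G)))} (hcb : IsPBlock M c)
    (hm : NS 2 ⊤ ((⊥, bl M B) : FP M G) (P, sbl M _ c)) :
    (blockRank 2 B = 1 ∨ blockRank 2 B = 3) ∧
      (blockRank 2 B = 1 ↔ stabP ((P, sbl M _ c) : FP M G) ≤ Subgroup.centralizer (P : Set G)) := by
  haveI : Fact (Nat.Prime 2) := ⟨Nat.prime_two⟩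
  have hab := ab_of_klein hV
  have hPp := hm.2.1.pg
  have hc : IsInducedBlock M (Subgroup.centralizer (P : Set G)) c B :=
    (isInducedBlock_iff_ns hM hB hPp (le_centralizer_of_ab hab le_rfl) rfl hcb).2 hm
  have hT : ∀ g : G, g ∈ stabP ((P, sbl M _ c) : FP M G) ↔
      (g ∈ Subgroup.normalizer (P : Set G) ∧
        StabilizesBlock (Subgroup.centralizer (P : Set G)) c g) := by
    intro y
    rw [mem_stabP_iff, stabilizesBlock_iff hcb]
    constructor
    · rintro ⟨h1, h2⟩
      exact ⟨h1, normalizer_le_normalizer_centralizer _ h1, h2⟩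
    · rintro ⟨h1, _, h2⟩
      exact ⟨h1, h2⟩
  obtain ⟨h13, h4, hr⟩ := s4637 hM hB hPD hV hc hT
  refine ⟨by rw [hr]; exact h13, ?_⟩
  rw [hr, Subgroup.relIndex_eq_one]

theorem kl_rank_eq {G : Type u} [Group G] [Fintype G] (hM : IsPModular 2 M)
    {B : Set (IrrCharacter G)} (hB : IsPBlock M B) {P : Subgroup G}
    (hPD : IsDefectGroup 2 M B P) (hV : IsKleinFour P)
    {c : Set (IrrCharacter (Subgroup.normalizer (P : Set G)))}
    (hcD : IsDefectGroup 2 M c (P.subgroupOf (Subgroup.normalizer (P : Set G))))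
    (hc : IsInducedBlock M (Subgroup.normalizer (P : Set G)) c B) :
    IsKleinFour ↥(P.subgroupOf (Subgroup.normalizer (P : Set G))) ∧
      blockRank 2 B = blockRank 2 c := by
  haveI : Fact (Nat.Prime 2) := ⟨Nat.prime_two⟩
  have hV' : IsKleinFour ↥(P.subgroupOf (Subgroup.normalizer (P : Set G))) :=
    isKleinFour_of_mulEquiv (Subgroup.subgroupOfEquivOfLe Subgroup.le_normalizer).symm hV
  refine ⟨hV', ?_⟩
  obtain ⟨c₀', hmax'⟩ := exists_maximal_of_defect hM hc.1 hcD
  have hm' := (isBrauerPairOf_iff hc.1 hmax'.1.1).1 hmax'.1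
  obtain ⟨h13', hiff'⟩ := kl_rank_stab hM hc.1 hcD hV' hmax'.1.1.2 hm'
  have hP₁ : (P.subgroupOf (Subgroup.normalizer (P : Set G))).map
      (Subgroup.normalizer (P : Set G)).subtype = P :=
    Subgroup.map_subgroupOf_eq_of_le Subgroup.le_normalizer
  have hup := hm'.up
  rw [up_bot] at hup
  have hC : Subgroup.centralizer (((up (Subgroup.normalizer (P : Set G))
      ((P.subgroupOf (Subgroup.normalizer (P : Set G)), sbl M _ c₀') :
        FP M (Subgroup.normalizer (P : Set G)))).1 : Subgroup G) : Set G)
      ≤ Subgroup.normalizer (P : Set G) := by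
    rw [up_fst]
    show Subgroup.centralizer (((P.subgroupOf (Subgroup.normalizer (P : Set G))).map
      (Subgroup.normalizer (P : Set G)).subtype : Subgroup G) : Set G) ≤ _
    rw [hP₁]
    exact centralizer_le_normalizer' P
  have g2 := NS.bot_of_ind (isBlk_top_bl hB) (ind_of_isInducedBlock hc) hup hC
  obtain ⟨c₀, hc₀, hc₀e⟩ := exists_of_isBlk_cen_top g2.2.1.blk
  have hPD₁ : IsDefectGroup 2 M B ((P.subgroupOf (Subgroup.normalizer (P : Set G))).map
      (Subgroup.normalizer (P : Set G)).subtype) := by rw [hP₁]; exact hPD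
  have hV₁ : IsKleinFour ↥((P.subgroupOf (Subgroup.normalizer (P : Set G))).map
      (Subgroup.normalizer (P : Set G)).subtype) := by rw [hP₁]; exact hV
  have hupe : up (Subgroup.normalizer (P : Set G))
      ((P.subgroupOf (Subgroup.normalizer (P : Set G)), sbl M _ c₀') :
        FP M (Subgroup.normalizer (P : Set G)))
      = ((P.subgroupOf (Subgroup.normalizer (P : Set G))).map
      (Subgroup.normalizer (P : Set G)).subtype, sbl M _ c₀) := Prod.ext rfl hc₀e
  rw [hupe] at g2
  obtain ⟨h13, hiff⟩ := kl_rank_stab hM hB hPD₁ hV₁ hc₀ g2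
  have hiff2 : blockRank 2 B = 1 ↔ stabP (up (Subgroup.normalizer (P : Set G))
      ((P.subgroupOf (Subgroup.normalizer (P : Set G)), sbl M _ c₀') :
        FP M (Subgroup.normalizer (P : Set G))))
      ≤ Subgroup.centralizer (((P.subgroupOf (Subgroup.normalizer (P : Set G))).map
      (Subgroup.normalizer (P : Set G)).subtype : Subgroup G) : Set G) := by
    rw [hupe]; exact hiff
  have key : blockRank 2 B = 1 ↔ blockRank 2 c = 1 := by
    rw [hiff2, hiff']
    constructor
    · intro h t ht
      rw [← coe_mem_centralizer_map]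
      apply h
      rw [mem_stabP, act_up, mem_stabP.1 ht]
    · intro h t ht
      have htN : t ∈ Subgroup.normalizer (P : Set G) := by
        have := (mem_stabP_iff.1 ht).1
        rw [up_fst] at this
        simp only [hP₁] at this
        exact this
      have h1 : (⟨t, htN⟩ : Subgroup.normalizer (P : Set G)) ∈ stabP
          ((P.subgroupOf (Subgroup.normalizer (P : Set G)), sbl M _ c₀') :
            FP M (Subgroup.normalizer (P : Set G))) := by
        rw [mem_stabP]
        apply up_injective
        rw [← act_up]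
        exact mem_stabP.1 ht
      exact coe_mem_centralizer_map.2 (h h1)
  rcases h13 with a | a <;> rcases h13' with b | b
  · rw [a, b]
  · rw [key.1 a] at b; omega
  · rw [key.2 b] at a; omega
  · rw [a, b]

end

end Cfsg.Agent.Lib.Helper26.BP
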